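import Cfsg.Agent.Lib.Orth.Bridge
import Cfsg.Agent.Lib.Orth.Forms
import Cfsg.Agent.Lib.Orth.Closure

/-!
# Isometric embeddings of quadratic spaces and the induced maps of isometry groups

`IsoEmb Q' Q`: an isometric embedding `J` of `(F^ι', Q')` in `(F^ι, Q)` with orthogonal projection `P`.
`IsoEmb.ext g`, `g ∈ O(Q')`: `v ↦ v + J (g (P v) - P v)`, i.e. `g` on the image of `J`, the identity on its orthogonal complement.
`IsoEmb.ofForm`: the projection exists when the form `Q'` is nondegenerate.
-/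

set_option autoImplicit false

namespace Cfsg.Agent.Lib.OddStem

open Matrix Cfsg Subgroup QuadraticMap Cfsg.Agent.Lib.Orth.Bridge

variable {ι ι' : Type} [Fintype ι] [DecidableEq ι] [Fintype ι'] [DecidableEq ι'] {F : Type*} [Field F]

/-- An isometric embedding, with orthogonal projection. -/
structure IsoEmb (Q' : (ι' → F) → F) (Q : (ι → F) → F) where
  /-- the embedding -/
  J : (ι' → F) →ₗ[F] (ι → F)
  /-- the projection -/
  P : (ι → F) →ₗ[F] (ι' → F)
  PJ : ∀ x, P (J x) = x
  split : ∀ x v, Q (J x + (v - J (P v))) = Q' x + Q (v - J (P v))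

namespace IsoEmb

variable {Q' : (ι' → F) → F} {Q : (ι → F) → F} (E : IsoEmb Q' Q)

include E in
/-- `Q (J x) = Q' x` if `Q 0 = 0`. -/
theorem Q_J (h0 : Q 0 = 0) (x : ι' → F) : Q (E.J x) = Q' x := by
  have h := E.split x 0
  simpa [h0] using h

include E in
theorem J_injective : Function.Injective E.J := fun x y h => by
  rw [← E.PJ x, ← E.PJ y, h]

/-- The linear map of the extension. -/
noncomputable def extLin (g : Matrix ι' ι' F) : (ι → F) →ₗ[F] (ι → F) :=
  LinearMap.id + E.J ∘ₗ (Matrix.toLin' g - LinearMap.id) ∘ₗ E.P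

theorem extLin_apply (g : Matrix ι' ι' F) (v : ι → F) :
    E.extLin g v = v + E.J (g *ᵥ E.P v - E.P v) := by
  simp [extLin]

theorem P_extLin (g : Matrix ι' ι' F) (v : ι → F) : E.P (E.extLin g v) = g *ᵥ E.P v := by
  rw [extLin_apply, map_add, E.PJ]
  abel

theorem extLin_mul (g h : Matrix ι' ι' F) : E.extLin (g * h) = E.extLin g ∘ₗ E.extLin h := by
  apply LinearMap.ext
  intro v
  rw [LinearMap.comp_apply, extLin_apply (E := E) g, P_extLin, extLin_apply (E := E) h, extLin_apply (E := E) (g * h),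
    ← Matrix.mulVec_mulVec]
  simp only [map_sub]
  abel

theorem extLin_one : E.extLin 1 = LinearMap.id := by
  ext1 i
  apply LinearMap.ext
  intro c
  simp [extLin_apply]

/-- The matrix of the extension. -/
noncomputable def extM (g : Matrix ι' ι' F) : Matrix ι ι F := LinearMap.toMatrix' (E.extLin g)

theorem extM_mulVec (g : Matrix ι' ι' F) (v : ι → F) : E.extM g *ᵥ v = v + E.J (g *ᵥ E.P v - E.P v) := by
  rw [extM, LinearMap.toMatrix'_mulVec, extLin_apply]

theorem extM_mul (g h : Matrix ι' ι' F) : E.extM (g * h) = E.extM g * E.extM h := by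
  rw [extM, extLin_mul, LinearMap.toMatrix'_comp]
  rfl

theorem extM_one : E.extM 1 = 1 := by
  rw [extM, extLin_one, LinearMap.toMatrix'_id]

/-- The extension to the general linear group. -/
noncomputable def extGL : GeneralLinearGroup ι' F →* GeneralLinearGroup ι F :=
  (Units.map { toFun := E.extM, map_one' := E.extM_one, map_mul' := E.extM_mul })

theorem extGL_mulVec (g : GeneralLinearGroup ι' F) (v : ι → F) :
    ((E.extGL g : GeneralLinearGroup ι F) : Matrix ι ι F) *ᵥ v = v + E.J ((g : Matrix ι' ι' F) *ᵥ E.P v - E.P v) :=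
  E.extM_mulVec _ _

/-- The extension of isometries. -/
noncomputable def ext : isometryGroup F Q' →* isometryGroup F Q :=
  (E.extGL.comp (isometryGroup F Q').subtype).codRestrict (isometryGroup F Q) (by
    intro g
    rw [mem_isometryGroup_iff]
    intro v
    have hg := (mem_isometryGroup_iff _ _).1 g.2 (E.P v)
    change Q (((E.extGL g.1 : GeneralLinearGroup ι F) : Matrix ι ι F) *ᵥ v) = Q v
    rw [extGL_mulVec]
    have e1 : v + E.J (((g.1 : GeneralLinearGroup ι' F) : Matrix ι' ι' F) *ᵥ E.P v - E.P v) =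
        E.J (((g.1 : GeneralLinearGroup ι' F) : Matrix ι' ι' F) *ᵥ E.P v) + (v - E.J (E.P v)) := by
      rw [map_sub]; abel
    have e2 : v = E.J (E.P v) + (v - E.J (E.P v)) := by abel
    rw [e1, E.split, hg]
    conv_rhs => rw [e2, E.split])

theorem ext_mulVec (g : isometryGroup F Q') (v : ι → F) :
    (((E.ext g).1 : GeneralLinearGroup ι F) : Matrix ι ι F) *ᵥ v =
      v + E.J (((g.1 : GeneralLinearGroup ι' F) : Matrix ι' ι' F) *ᵥ E.P v - E.P v) :=
  E.extGL_mulVec _ _

theorem ext_J (g : isometryGroup F Q') (x : ι' → F) :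
    (((E.ext g).1 : GeneralLinearGroup ι F) : Matrix ι ι F) *ᵥ E.J x =
      E.J (((g.1 : GeneralLinearGroup ι' F) : Matrix ι' ι' F) *ᵥ x) := by
  rw [ext_mulVec, E.PJ, map_sub]
  abel

/-- `ext g` fixes the vectors `v` with `P v = 0`. -/
theorem ext_fix (g : isometryGroup F Q') {v : ι → F} (hv : E.P v = 0) :
    (((E.ext g).1 : GeneralLinearGroup ι F) : Matrix ι ι F) *ᵥ v = v := by
  rw [ext_mulVec, hv]
  simp

theorem ext_injective : Function.Injective E.ext := by
  rw [injective_iff_map_eq_one]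
  intro g hg
  apply Subtype.ext
  apply Units.ext
  apply Matrix.mulVec_injective
  funext x
  have h1 := E.ext_J g x
  rw [hg] at h1
  have h2 := E.J_injective (by simpa using h1 : E.J x = _)
  simpa using h2.symm

/-- `ext` maps `Ω` into `Ω`. -/
noncomputable def extOm : Omega F Q' →* Omega F Q :=
  (E.ext.comp (Omega F Q').subtype).codRestrict (Omega F Q) (by
    intro g
    have h : (commutator (isometryGroup F Q')).map E.ext ≤ commutator (isometryGroup F Q) := by
      rw [commutator_def, commutator_def, Subgroup.map_commutator]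
      exact Subgroup.commutator_mono le_top le_top
    exact h ⟨g.1, g.2, rfl⟩)

@[simp] theorem extOm_coe (g : Omega F Q') : ((E.extOm g : Omega F Q) : isometryGroup F Q) = E.ext g.1 := rfl

theorem extOm_injective : Function.Injective E.extOm := fun _ _ h =>
  Subtype.ext (E.ext_injective (congrArg Subtype.val h))

/-- Compose an embedding with an isometry of the big space. -/
noncomputable def conj (h : isometryGroup F Q) : IsoEmb Q' Q where
  J := (Matrix.toLin' ((h.1 : GeneralLinearGroup ι F) : Matrix ι ι F)) ∘ₗ E.J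
  P := E.P ∘ₗ (Matrix.toLin' (((h⁻¹).1 : GeneralLinearGroup ι F) : Matrix ι ι F))
  PJ := by
    intro x
    simp only [LinearMap.comp_apply, Matrix.toLin'_apply, Matrix.mulVec_mulVec]
    have : (((h⁻¹).1 : GeneralLinearGroup ι F) : Matrix ι ι F) * ((h.1 : GeneralLinearGroup ι F) : Matrix ι ι F) = 1 := by
      rw [← Units.val_mul]
      have : (h⁻¹).1 * h.1 = 1 := by
        rw [← Subgroup.coe_mul]; simp
      rw [this]; rfl
    rw [this, Matrix.one_mulVec, E.PJ]
  split := by
    intro x v
    set A := ((h.1 : GeneralLinearGroup ι F) : Matrix ι ι F) with hA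
    set B := (((h⁻¹).1 : GeneralLinearGroup ι F) : Matrix ι ι F) with hB
    have hAB : A * B = 1 := by
      rw [hA, hB, ← Units.val_mul]
      have : h.1 * (h⁻¹).1 = 1 := by
        rw [← Subgroup.coe_mul]; simp
      rw [this]; rfl
    have hQA : ∀ w, Q (A *ᵥ w) = Q w := (mem_isometryGroup_iff _ _).1 h.2
    simp only [LinearMap.comp_apply, Matrix.toLin'_apply]
    set w := B *ᵥ v with hw
    have hv : v = A *ᵥ w := by
      rw [hw, Matrix.mulVec_mulVec, hAB, Matrix.one_mulVec]
    have e1 : A *ᵥ E.J x + (v - A *ᵥ E.J (E.P w)) = A *ᵥ (E.J x + (w - E.J (E.P w))) := by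
      rw [hv, Matrix.mulVec_add, Matrix.mulVec_sub]
    have e2 : v - A *ᵥ E.J (E.P w) = A *ᵥ (w - E.J (E.P w)) := by
      rw [hv, Matrix.mulVec_sub]
    rw [e1, hQA, E.split, e2, hQA]

/-- The extension along the conjugated embedding is the conjugate. -/
theorem ext_conj (h : isometryGroup F Q) (g : isometryGroup F Q') :
    (E.conj h).ext g = h * E.ext g * h⁻¹ := by
  apply Subtype.ext
  apply Units.ext
  apply Matrix.mulVec_injective
  funext v
  rw [ext_mulVec]
  set A := ((h.1 : GeneralLinearGroup ι F) : Matrix ι ι F) with hA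
  set B := (((h⁻¹).1 : GeneralLinearGroup ι F) : Matrix ι ι F) with hB
  have hAB : A * B = 1 := by
    rw [hA, hB, ← Units.val_mul]
    have : h.1 * (h⁻¹).1 = 1 := by
      rw [← Subgroup.coe_mul]; simp
    rw [this]; rfl
  have e0 : (((h * E.ext g * h⁻¹).1 : GeneralLinearGroup ι F) : Matrix ι ι F) *ᵥ v =
      A *ᵥ (((E.ext g).1 : GeneralLinearGroup ι F) : Matrix ι ι F) *ᵥ (B *ᵥ v) := by
    simp only [Subgroup.coe_mul, Units.val_mul, Matrix.mulVec_mulVec, hA, hB, Matrix.mul_assoc]
  rw [e0, ext_mulVec]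
  simp only [conj, LinearMap.comp_apply, Matrix.toLin'_apply]
  rw [Matrix.mulVec_add, Matrix.mulVec_mulVec, hAB, Matrix.one_mulVec]

end IsoEmb

section ofForm

variable [Fintype F]

/-- An isometric linear map from a nondegenerate space has an orthogonal projection. -/
theorem exists_isoEmb (Q' : QuadraticForm F (ι' → F)) (Q : QuadraticForm F (ι → F))
    (hQ' : (polarBilin Q').Nondegenerate) (J : (ι' → F) →ₗ[F] (ι → F)) (hJ : ∀ x, Q (J x) = Q' x) :
    ∃ E : IsoEmb (⇑Q') (⇑Q), E.J = J := by
  classical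
  -- the functional `w ↦ polar Q (J w) v`
  let B' := polarBilin Q'
  let ψ : (ι → F) →ₗ[F] Module.Dual F (ι' → F) :=
    LinearMap.flip ((polarBilin Q).compl₁₂ J LinearMap.id)
  let e := LinearMap.BilinForm.toDual B' hQ'
  let P : (ι → F) →ₗ[F] (ι' → F) := e.symm.toLinearMap ∘ₗ ψ
  have hP : ∀ v w, polar (⇑Q') (P v) w = polar (⇑Q) (J w) v := by
    intro v w
    have h1 : e (P v) = ψ v := by simp [P]
    have h2 := congrArg (fun f => f w) h1
    have h3 : (e (P v)) w = B' (P v) w := by
      simp [e, LinearMap.BilinForm.toDual_def]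
    have h4 : (ψ v) w = polar (⇑Q) (J w) v := by simp [ψ]
    change (e (P v)) w = (ψ v) w at h2
    rw [h3, h4] at h2
    exact h2
  have hpJ : ∀ x y, polar (⇑Q) (J x) (J y) = polar (⇑Q') x y := by
    intro x y
    simp only [polar, ← map_add, hJ]
  have hPJ : ∀ x, P (J x) = x := by
    intro x
    have h : ∀ w, B' (P (J x) - x) w = 0 := by
      intro w
      have h1 : B' (P (J x) - x) w = polar (⇑Q') (P (J x)) w - polar (⇑Q') x w := by
        simp [B', polarBilin_apply_apply]
      rw [h1, hP, hpJ, polar_comm, sub_self]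
    have h2 := hQ'.1 _ h
    exact sub_eq_zero.1 h2
  refine ⟨⟨J, P, hPJ, ?_⟩, rfl⟩
  intro x v
  have hn : P (v - J (P v)) = 0 := by rw [map_sub, hPJ, sub_self]
  have h0 : polar (⇑Q) (J x) (v - J (P v)) = 0 := by
    rw [← hP, hn]
    simp [polar]
  have := QuadraticMap.polar (⇑Q) (J x) (v - J (P v))
  have h1 : polar (⇑Q) (J x) (v - J (P v)) = Q (J x + (v - J (P v))) - Q (J x) - Q (v - J (P v)) := rfl
  rw [h1, hJ] at h0
  linear_combination h0

end ofForm

end Cfsg.Agent.Lib.OddStem
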