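import Cfsg.Agent.Lib.OddStem.Basic
import Cfsg.Agent.Lib.PresOm.Thm
import Cfsg.Agent.Lib.GeoOmega.Eichler

/-!
# The target: the Levi subgroup and the rank one groups in `Ω_{2m+1}(F)` (module T)

All target identities are best proved through Eichler transformations (`GeoOmega.Eichler`): `Eich.unique'`, `Eich.mul`,
`Eich.conj` (`h E(p, v) h⁻¹ = E(h p, h v)` for isometries `h`), `Eich.smul`, `Eich.mem_omega`, and
`m2_induction` on `SL₂`. See `PresOm/Surj.lean` for the template (`eich_T`, `full_e`, `closure_lev_W`).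
`levO_blk`: check on `uu`, `ll` by `eich_Y`, `eich_L`, `Eich.conj`, `Eich.smul`.
`blk_twist`: `blk j wn` fixes `e_i, f_i`, negates `u₀`: same method.
`blk_neg`: `adX (dd (-1)) x z y = x` etc.
`closure_lev_blk`: as `closure_lev_W`: `M` the closure; `blk i g = levO (pj) blk b g levO (pj)⁻¹ ∈ M`;
centre `e_b`: `T` and `blk b (uu)` and `r_k T_bk r_k⁻¹`: `Full`; conjugate by `blk b wn`; `omega_le_of_full`.
-/

set_option autoImplicit false

namespace Cfsg.Agent.Lib.OddStem

open Matrix Cfsg Subgroup Cfsg.Agent.Lib.PresOm Cfsg.Agent.Lib.PresSp.M2 Cfsg.Agent.Lib.PresSp.Mono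
  Cfsg.Agent.Lib.PresSLn.TwoGen Cfsg.Agent.Lib.GeoOmega.Eichler Cfsg.Agent.Lib.QuadFn Cfsg.Agent.Lib.OmDeg.Plus Cfsg.Geo
  Cfsg.Agent.Lib.Geo.QForm Cfsg.Agent.Lib.Orth.Levi

section defs

variable {m : ℕ} {F : Type*} [Field F]

/-- The index set of the space. -/
abbrev VO (m : ℕ) : Type := Unit ⊕ (Fin m ⊕ Fin m)

/-- The basis vectors. -/
def eO (i : Fin m) : VO m → F := Pi.single (Sum.inr (Sum.inl i)) 1
def fO (i : Fin m) : VO m → F := Pi.single (Sum.inr (Sum.inr i)) 1
def uO : VO m → F := Pi.single (Sum.inl ()) 1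

/-- The extension of a matrix on the hyperbolic part. -/
def exO : GeneralLinearGroup (Fin m ⊕ Fin m) F →* GeneralLinearGroup (VO m) F where
  toFun A := ⟨fromBlocks 1 0 0 A.1, fromBlocks 1 0 0 (A⁻¹).1,
    by
      rw [fromBlocks_multiply]
      simp,
    by
      rw [fromBlocks_multiply]
      simp⟩
  map_one' := by
    apply Units.ext
    change fromBlocks _ _ _ _ = _
    simp
  map_mul' x y := by
    apply Units.ext
    change fromBlocks _ _ _ _ = fromBlocks _ _ _ _ * fromBlocks _ _ _ _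
    rw [fromBlocks_multiply]
    simp

/-- The Levi embedding: `l` on the `e_i`, its inverse transpose on the `f_i`, the identity on `u₀`. -/
noncomputable def levO : SpecialLinearGroup (Fin m) F →* GeneralLinearGroup (VO m) F := exO.comp levG

lemma coe_levO (l : SpecialLinearGroup (Fin m) F) : (levO l).1 = fromBlocks 1 0 0 (fromBlocks l.1 0 0 (Lp l)) := rfl

/-- The action of the rank one group at `j` on a vector. -/
def blkFun (j : Fin m) (g : M2 F) (v : VO m → F) : VO m → F
  | Sum.inl _ => adZ g (v (Sum.inr (Sum.inl j))) (v (Sum.inl ())) (v (Sum.inr (Sum.inr j)))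
  | Sum.inr (Sum.inl k) =>
    if k = j then adX g (v (Sum.inr (Sum.inl j))) (v (Sum.inl ())) (v (Sum.inr (Sum.inr j))) else v (Sum.inr (Sum.inl k))
  | Sum.inr (Sum.inr k) =>
    if k = j then adY g (v (Sum.inr (Sum.inl j))) (v (Sum.inl ())) (v (Sum.inr (Sum.inr j))) else v (Sum.inr (Sum.inr k))

/-- The action as a linear map. -/
def blkL (j : Fin m) (g : M2 F) : (VO m → F) →ₗ[F] (VO m → F) where
  toFun := blkFun j g
  map_add' u v := by
    funext r
    rcases r with _ | r | r
    · simp only [blkFun, Pi.add_apply, adZ]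
      ring
    · simp only [blkFun, Pi.add_apply, adX]
      split_ifs <;> ring
    · simp only [blkFun, Pi.add_apply, adY]
      split_ifs <;> ring
  map_smul' c v := by
    funext r
    rcases r with _ | r | r
    · simp only [blkFun, Pi.smul_apply, smul_eq_mul, adZ, RingHom.id_apply]
      ring
    · simp only [blkFun, Pi.smul_apply, smul_eq_mul, adX, RingHom.id_apply]
      split_ifs <;> ring
    · simp only [blkFun, Pi.smul_apply, smul_eq_mul, adY, RingHom.id_apply]
      split_ifs <;> ring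

lemma blkL_apply (j : Fin m) (g : M2 F) (v : VO m → F) : blkL j g v = blkFun j g v := rfl

lemma adX_mul (g h : M2 F) (x z y : F) : adX (g * h) x z y = adX g (adX h x z y) (adZ h x z y) (adY h x z y) := by
  simp only [adX, adZ, adY, PresSp.M2.coe_mul, Matrix.mul_apply, Fin.sum_univ_two]
  ring

lemma adZ_mul (g h : M2 F) (x z y : F) : adZ (g * h) x z y = adZ g (adX h x z y) (adZ h x z y) (adY h x z y) := by
  simp only [adX, adZ, adY, PresSp.M2.coe_mul, Matrix.mul_apply, Fin.sum_univ_two]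
  ring

lemma adY_mul (g h : M2 F) (x z y : F) : adY (g * h) x z y = adY g (adX h x z y) (adZ h x z y) (adY h x z y) := by
  simp only [adX, adZ, adY, PresSp.M2.coe_mul, Matrix.mul_apply, Fin.sum_univ_two]
  ring

lemma adX_one (x z y : F) : adX (1 : M2 F) x z y = x := by
  simp [adX]

lemma adZ_one (x z y : F) : adZ (1 : M2 F) x z y = z := by
  simp [adZ]

lemma adY_one (x z y : F) : adY (1 : M2 F) x z y = y := by
  simp [adY]

lemma blkL_mul (j : Fin m) (g h : M2 F) : blkL j (g * h) = (blkL j g).comp (blkL j h) := by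
  apply LinearMap.ext
  intro v
  funext r
  rcases r with _ | r | r
  · simp [blkL_apply, blkFun, adZ_mul]
  · by_cases hr : r = j
    · subst hr
      simp [blkL_apply, blkFun, adX_mul]
    · simp [blkL_apply, blkFun, hr]
  · by_cases hr : r = j
    · subst hr
      simp [blkL_apply, blkFun, adY_mul]
    · simp [blkL_apply, blkFun, hr]

lemma blkL_one (j : Fin m) : blkL j (1 : M2 F) = LinearMap.id := by
  apply LinearMap.ext
  intro v
  funext r
  rcases r with _ | r | r
  · simp [blkL_apply, blkFun, adZ_one]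
  · by_cases hr : r = j
    · subst hr
      simp [blkL_apply, blkFun, adX_one]
    · simp [blkL_apply, blkFun, hr]
  · by_cases hr : r = j
    · subst hr
      simp [blkL_apply, blkFun, adY_one]
    · simp [blkL_apply, blkFun, hr]

/-- The rank one group at `j`. -/
noncomputable def blk (j : Fin m) : M2 F →* GeneralLinearGroup (VO m) F where
  toFun g := ⟨LinearMap.toMatrix' (blkL j g), LinearMap.toMatrix' (blkL j g⁻¹),
    by rw [← LinearMap.toMatrix'_comp, ← blkL_mul, mul_inv_cancel, blkL_one, LinearMap.toMatrix'_id],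
    by rw [← LinearMap.toMatrix'_comp, ← blkL_mul, inv_mul_cancel, blkL_one, LinearMap.toMatrix'_id]⟩
  map_one' := by
    apply Units.ext
    change LinearMap.toMatrix' (blkL j 1) = 1
    rw [blkL_one, LinearMap.toMatrix'_id]
  map_mul' g h := by
    apply Units.ext
    change LinearMap.toMatrix' (blkL j (g * h)) = LinearMap.toMatrix' (blkL j g) * LinearMap.toMatrix' (blkL j h)
    rw [blkL_mul, LinearMap.toMatrix'_comp]

lemma blk_mulVec (j : Fin m) (g : M2 F) (v : VO m → F) : (blk j g).1 *ᵥ v = blkFun j g v := by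
  change LinearMap.toMatrix' (blkL j g) *ᵥ v = _
  rw [LinearMap.toMatrix'_mulVec]
  rfl

end defs

section lemmas

variable {m : ℕ} {F : Type*} [Field F]

lemma polO (x y : VO m → F) : pol (quadFormOdd m F) x y = 2 * (x (Sum.inl ()) * y (Sum.inl ())) +
    ∑ i : Fin m, (x (Sum.inr (Sum.inl i)) * y (Sum.inr (Sum.inr i)) + y (Sum.inr (Sum.inl i)) * x (Sum.inr (Sum.inr i))) :=
  Cfsg.Agent.Lib.GeoOmega.Planes.polar_quadFormOdd m F x y

lemma pol_eO' (x : VO m → F) (k : Fin m) : pol (quadFormOdd m F) x (eO k) = x (Sum.inr (Sum.inr k)) := by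
  rw [polO]
  simp [eO, Pi.single_apply]

lemma pol_fO' (x : VO m → F) (k : Fin m) : pol (quadFormOdd m F) x (fO k) = x (Sum.inr (Sum.inl k)) := by
  rw [polO]
  simp [fO, Pi.single_apply]

lemma pol_uO' (x : VO m → F) : pol (quadFormOdd m F) x uO = 2 * x (Sum.inl ()) := by
  rw [polO]
  simp [uO, Pi.single_apply]

lemma pol_smulO (x y : VO m → F) (c : F) : pol (quadFormOdd m F) x (c • y) = c * pol (quadFormOdd m F) x y := by
  rw [polO, polO]
  simp only [Pi.smul_apply, smul_eq_mul, mul_add, Finset.mul_sum]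
  congr 1
  · ring
  · apply Finset.sum_congr rfl
    intro i _
    ring

lemma Q_smulO (y : VO m → F) (c : F) : quadFormOdd m F (c • y) = c ^ 2 * quadFormOdd m F y := by
  simp only [quadFormOdd, Pi.smul_apply, smul_eq_mul, mul_add, Finset.mul_sum]
  congr 1
  · ring
  · apply Finset.sum_congr rfl
    intro i _
    ring

lemma levO_apply (l : SpecialLinearGroup (Fin m) F) (v : VO m → F) :
    (levO l).1 *ᵥ v = Sum.elim (fun _ => v (Sum.inl ()))
      (Sum.elim (l.1 *ᵥ fun i => v (Sum.inr (Sum.inl i))) (Lp l *ᵥ fun i => v (Sum.inr (Sum.inr i)))) := by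
  rw [coe_levO, fromBlocks_mulVec]
  funext r
  rcases r with _ | r | r
  · simp [Function.comp_def]
  · simp [fromBlocks_mulVec, Function.comp_def]
  · simp [fromBlocks_mulVec, Function.comp_def]

lemma Q_eO (k : Fin m) : quadFormOdd m F (eO k) = 0 := by
  simp [quadFormOdd, eO, Pi.single_apply]

lemma Q_fO (k : Fin m) : quadFormOdd m F (fO k) = 0 := by
  simp [quadFormOdd, fO, Pi.single_apply]

lemma Q_uO : quadFormOdd m F (uO : VO m → F) = 1 := by
  simp [quadFormOdd, uO, Pi.single_apply]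

variable (h2 : (2 : F) ≠ 0)
include h2

lemma nd_O : IsNondegenerateQuadraticForm (quadFormOdd m F) :=
  Cfsg.Agent.Lib.GeoOmega.Planes.quadFormOdd_nondeg m F h2

lemma pol_eO (x : VO m → F) (k : Fin m) : pol (quadFormOdd m F) x (eO k) = x (Sum.inr (Sum.inr k)) := by
  exact pol_eO' x k

lemma pol_fO (x : VO m → F) (k : Fin m) : pol (quadFormOdd m F) x (fO k) = x (Sum.inr (Sum.inl k)) := by
  exact pol_fO' x k

lemma pol_uO (x : VO m → F) : pol (quadFormOdd m F) x uO = 2 * x (Sum.inl ()) := by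
  exact pol_uO' x

omit h2

lemma levO_mem_iso (l : SpecialLinearGroup (Fin m) F) : levO l ∈ isometryGroup F (quadFormOdd m F) := by
  rw [Cfsg.Agent.Lib.Geo.Basic.mem_isometryGroup_iff]
  intro v
  rw [levO_apply]
  simp only [quadFormOdd, Sum.elim_inl, Sum.elim_inr]
  congr 1
  change (l.1 *ᵥ fun i => v (Sum.inr (Sum.inl i))) ⬝ᵥ (Lp l *ᵥ fun i => v (Sum.inr (Sum.inr i))) =
    (fun i => v (Sum.inr (Sum.inl i))) ⬝ᵥ (fun i => v (Sum.inr (Sum.inr i)))
  rw [dotProduct_mulVec, vecMul_transpose, mulVec_mulVec, inv_mul_coe, one_mulVec]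

lemma blk_mem_iso (j : Fin m) (g : M2 F) : blk j g ∈ isometryGroup F (quadFormOdd m F) := by
  rw [Cfsg.Agent.Lib.Geo.Basic.mem_isometryGroup_iff]
  intro v
  rw [blk_mulVec]
  simp only [quadFormOdd]
  rw [← Finset.add_sum_erase Finset.univ _ (Finset.mem_univ j),
    ← Finset.add_sum_erase Finset.univ (fun i => v (Sum.inr (Sum.inl i)) * v (Sum.inr (Sum.inr i))) (Finset.mem_univ j)]
  have he : ∑ i ∈ Finset.univ.erase j, blkFun j g v (Sum.inr (Sum.inl i)) * blkFun j g v (Sum.inr (Sum.inr i)) =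
      ∑ i ∈ Finset.univ.erase j, v (Sum.inr (Sum.inl i)) * v (Sum.inr (Sum.inr i)) := by
    apply Finset.sum_congr rfl
    intro i hi
    have hij := Finset.ne_of_mem_erase hi
    simp [blkFun, hij]
  rw [he]
  have hd : g.1 0 0 * g.1 1 1 - g.1 0 1 * g.1 1 0 = 1 := by
    have := g.2
    rwa [Matrix.det_fin_two] at this
  simp only [blkFun, if_true, adX, adZ, adY]
  linear_combination ((v (Sum.inl ())) ^ 2 + v (Sum.inr (Sum.inl j)) * v (Sum.inr (Sum.inr j))) *
    (g.1 0 0 * g.1 1 1 - g.1 0 1 * g.1 1 0 + 1) * hd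

lemma eich_T {i j : Fin m} (h : i ≠ j) (c : F) : Eich (quadFormOdd m F) (levO (TT h c)) (eO i) (c • fO j) := by
  intro x
  rw [pol_smulO, pol_fO', pol_eO', Q_smulO, Q_fO, levO_apply, Lp_T, TT, coeT]
  funext r
  rcases r with _ | r | r
  · simp [eO, fO, Pi.single_apply]
  · simp only [Sum.elim_inr, Sum.elim_inl, Pi.add_apply, add_mulVec, one_mulVec, Pi.sub_apply, Pi.smul_apply,
      smul_eq_mul, single_mulVec]
    by_cases h1 : r = i
    · subst h1
      simp [eO, fO, Function.update_apply, Pi.single_apply, h]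
    · simp [eO, fO, Function.update_apply, Pi.single_apply, h1]
  · simp only [Sum.elim_inr, Pi.add_apply, add_mulVec, one_mulVec, Pi.sub_apply, Pi.smul_apply,
      smul_eq_mul, single_mulVec]
    by_cases h1 : r = j
    · subst h1
      simp [eO, fO, Function.update_apply, Pi.single_apply, h, Ne.symm h]
      ring
    · simp [eO, fO, Function.update_apply, Pi.single_apply, h1]

lemma eich_Y (j : Fin m) (t : F) : Eich (quadFormOdd m F) (blk j (uu t)) (eO j) (t • uO) := by
  intro x
  rw [pol_smulO, pol_uO', pol_eO', Q_smulO, Q_uO, blk_mulVec]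
  funext r
  rcases r with _ | r | r
  · simp [blkFun, eO, uO, Pi.single_apply]
    ring
  · by_cases h1 : r = j
    · subst h1
      simp [blkFun, eO, uO, Pi.single_apply]
      ring
    · simp [blkFun, eO, uO, Pi.single_apply, h1]
  · by_cases h1 : r = j
    · subst h1
      simp [blkFun, eO, uO, Pi.single_apply]
    · simp [blkFun, eO, uO, Pi.single_apply, h1]

lemma eich_L (j : Fin m) (t : F) : Eich (quadFormOdd m F) (blk j (ll t)) (fO j) ((-t) • uO) := by
  intro x
  rw [pol_smulO, pol_uO', pol_fO', Q_smulO, Q_uO, blk_mulVec]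
  funext r
  rcases r with _ | r | r
  · simp [blkFun, fO, uO, Pi.single_apply]
    ring
  · by_cases h1 : r = j
    · subst h1
      simp [blkFun, fO, uO, Pi.single_apply]
    · simp [blkFun, fO, uO, Pi.single_apply, h1]
  · by_cases h1 : r = j
    · subst h1
      simp [blkFun, fO, uO, Pi.single_apply]
      ring
    · simp [blkFun, fO, uO, Pi.single_apply, h1]

lemma blk_eO_ne {j k : Fin m} (h : k ≠ j) (g : M2 F) : (blk j g).1 *ᵥ eO k = (eO k : VO m → F) := by
  rw [blk_mulVec]
  funext r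
  rcases r with _ | r | r
  · simp [blkFun, eO, Pi.single_apply, adZ, Ne.symm h]
  · by_cases h1 : r = j
    · subst h1
      simp [blkFun, eO, Pi.single_apply, adX, Ne.symm h]
    · simp [blkFun, eO, Pi.single_apply, h1]
  · by_cases h1 : r = j
    · subst h1
      simp [blkFun, eO, Pi.single_apply, adY, Ne.symm h]
    · simp [blkFun, eO, Pi.single_apply, h1]

lemma blk_fO_ne {j k : Fin m} (h : k ≠ j) (g : M2 F) : (blk j g).1 *ᵥ fO k = (fO k : VO m → F) := by
  rw [blk_mulVec]
  funext r
  rcases r with _ | r | r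
  · simp [blkFun, fO, Pi.single_apply, adZ, Ne.symm h]
  · by_cases h1 : r = j
    · subst h1
      simp [blkFun, fO, Pi.single_apply, adX, Ne.symm h]
    · simp [blkFun, fO, Pi.single_apply, h1]
  · by_cases h1 : r = j
    · subst h1
      simp [blkFun, fO, Pi.single_apply, adY, Ne.symm h]
    · simp [blkFun, fO, Pi.single_apply, h1]

lemma blk_vec (j : Fin m) (g : M2 F) (x z y : F) :
    (blk j g).1 *ᵥ (x • eO j + z • uO + y • fO j) = adX g x z y • eO j + adZ g x z y • uO + adY g x z y • fO j := by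
  rw [blk_mulVec]
  funext r
  rcases r with _ | r | r
  · simp [blkFun, eO, fO, uO, Pi.single_apply]
  · by_cases h1 : r = j
    · subst h1
      simp [blkFun, eO, fO, uO, Pi.single_apply]
    · simp [blkFun, eO, fO, uO, Pi.single_apply, h1]
  · by_cases h1 : r = j
    · subst h1
      simp [blkFun, eO, fO, uO, Pi.single_apply]
    · simp [blkFun, eO, fO, uO, Pi.single_apply, h1]

lemma levO_uO (l : SpecialLinearGroup (Fin m) F) : (levO l).1 *ᵥ uO = (uO : VO m → F) := by
  rw [levO_apply]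
  funext r
  rcases r with _ | r | r
  · simp [uO, Pi.single_apply]
  · have : (fun i => (uO : VO m → F) (Sum.inr (Sum.inl i))) = 0 := by
      funext i
      simp [uO, Pi.single_apply]
    simp [this, uO, Pi.single_apply]
    exact congrFun (Matrix.mulVec_zero _) r
  · have : (fun i => (uO : VO m → F) (Sum.inr (Sum.inr i))) = 0 := by
      funext i
      simp [uO, Pi.single_apply]
    simp [this, uO, Pi.single_apply]
    exact congrFun (Matrix.mulVec_zero _) r

/-- The matrix of a column of `l`: the action of `levO l` on `e_i`. -/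
lemma levO_eO (l : SpecialLinearGroup (Fin m) F) (i : Fin m) :
    (levO l).1 *ᵥ eO i = fun r => match r with
      | Sum.inr (Sum.inl k) => l.1 k i
      | _ => 0 := by
  rw [levO_apply]
  have h1 : (fun k => (eO i : VO m → F) (Sum.inr (Sum.inl k))) = Pi.single i 1 := by
    funext k
    simp [eO, Pi.single_apply]
  have h2 : (fun k => (eO i : VO m → F) (Sum.inr (Sum.inr k))) = 0 := by
    funext k
    simp [eO, Pi.single_apply]
  rw [h1, h2]
  funext r
  rcases r with _ | r | r
  · simp [eO, Pi.single_apply]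
  · simp
  · simp

/-- The action of `levO l` on `f_i`. -/
lemma levO_fO (l : SpecialLinearGroup (Fin m) F) (i : Fin m) :
    (levO l).1 *ᵥ fO i = fun r => match r with
      | Sum.inr (Sum.inr k) => (l⁻¹).1 i k
      | _ => 0 := by
  rw [levO_apply]
  have h1 : (fun k => (fO i : VO m → F) (Sum.inr (Sum.inr k))) = Pi.single i 1 := by
    funext k
    simp [fO, Pi.single_apply]
  have h2 : (fun k => (fO i : VO m → F) (Sum.inr (Sum.inl k))) = 0 := by
    funext k
    simp [fO, Pi.single_apply]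
  rw [h1, h2]
  funext r
  rcases r with _ | r | r
  · simp [fO, Pi.single_apply]
  · simp
  · simp [Lp]

lemma levO_eO_of_Mu {l : SpecialLinearGroup (Fin m) F} {i i' : Fin m} {u : Fˣ} (h : Mu l i i' u) :
    (levO l).1 *ᵥ eO i = (u : F) • (eO i' : VO m → F) := by
  rw [levO_eO]
  have hc := h.col
  funext r
  rcases r with _ | r | r
  · simp [eO, Pi.single_apply]
  · have := congrFun hc r
    simp only [mulVec_single_one, Matrix.col_apply] at this
    simp only [eO, Pi.smul_apply, smul_eq_mul, Pi.single_apply, Sum.inr.injEq, Sum.inl.injEq]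
    rw [this, Pi.single_apply]
    split_ifs <;> simp
  · simp [eO, Pi.single_apply]

lemma levO_fO_of_Mu {l : SpecialLinearGroup (Fin m) F} {i i' : Fin m} {u : Fˣ} (h : Mu l i i' u) :
    (levO l).1 *ᵥ fO i = ((u⁻¹ : Fˣ) : F) • (fO i' : VO m → F) := by
  rw [levO_fO]
  have hr : Pi.single i (1 : F) ᵥ* (l⁻¹).1 = ((u⁻¹ : Fˣ) : F) • Pi.single i' (1 : F) := by
    have h1 : (Pi.single i' (1 : F)) ᵥ* l.1 = (u : F) • Pi.single i (1 : F) := by
      rw [h.row]
      funext k
      simp [Pi.single_apply]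
    have h2 : ((Pi.single i' (1 : F)) ᵥ* l.1) ᵥ* (l⁻¹).1 = Pi.single i' (1 : F) := by
      rw [vecMul_vecMul, mul_inv_coe, vecMul_one]
    rw [h1, smul_vecMul] at h2
    rw [← h2, smul_smul]
    simp
  funext r
  rcases r with _ | r | r
  · simp [fO, Pi.single_apply]
  · simp [fO, Pi.single_apply]
  · have := congrFun hr r
    simp only [single_one_vecMul, Matrix.row_apply] at this
    simp only [fO, Pi.smul_apply, smul_eq_mul, Pi.single_apply, Sum.inr.injEq]
    rw [this]
    simp [Pi.single_apply]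

include h2

lemma levO_blk {l : SpecialLinearGroup (Fin m) F} {i i' : Fin m} {u : Fˣ} (h : Mu l i i' u) (g : M2 F) :
    levO l * blk i g * (levO l)⁻¹ = blk i' (kp u g) := by
  have hI := levO_mem_iso (F := F) l
  refine m2_induction (P := fun g => levO l * blk i g * (levO l)⁻¹ = blk i' (kp u g)) ?_ ?_ ?_ ?_ ?_ g
  · simp
  · intro t
    have e1 := (eich_Y i t).conj hI
    rw [levO_eO_of_Mu h, Matrix.mulVec_smul, levO_uO] at e1
    have e2 := e1.smul (nd_O h2) (u : F)
    rw [kp_uu]
    refine e2.unique' ?_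
    have e3 := eich_Y i' ((u : F) * t)
    rwa [mul_smul] at e3
  · intro t
    have e1 := (eich_L i t).conj hI
    rw [levO_fO_of_Mu h, Matrix.mulVec_smul, levO_uO] at e1
    have e2 := e1.smul (nd_O h2) (((u⁻¹ : Fˣ) : F))
    rw [kp_ll]
    refine e2.unique' ?_
    have e3 := eich_L i' (((u⁻¹ : Fˣ) : F) * t)
    rwa [← mul_neg, mul_smul] at e3
  · intro a b ha hb
    have e : levO l * blk i (a * b) * (levO l)⁻¹ =
        (levO l * blk i a * (levO l)⁻¹) * (levO l * blk i b * (levO l)⁻¹) := by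
      rw [map_mul]
      group
    rw [e, ha, hb, map_mul, map_mul]
  · intro a ha
    have e : levO l * blk i a⁻¹ * (levO l)⁻¹ = (levO l * blk i a * (levO l)⁻¹)⁻¹ := by
      rw [map_inv]
      group
    rw [e, ha, map_inv, map_inv]

omit h2 in
/-- `r_j` negates `u₀`. -/
lemma blk_wn_uO (j : Fin m) : (blk j (wn : M2 F)).1 *ᵥ uO = -(uO : VO m → F) := by
  rw [blk_mulVec]
  funext r
  rcases r with _ | r | r
  · simp [blkFun, uO, Pi.single_apply]
  · by_cases hr : r = j
    · subst hr
      simp [blkFun, uO, Pi.single_apply]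
    · simp [blkFun, uO, hr, Pi.single_apply]
  · by_cases hr : r = j
    · subst hr
      simp [blkFun, uO, Pi.single_apply]
    · simp [blkFun, uO, hr, Pi.single_apply]

omit h2 in
/-- `r_j` sends `f_j` to `-e_j`. -/
lemma blk_wn_fO (j : Fin m) : (blk j (wn : M2 F)).1 *ᵥ fO j = -(eO j : VO m → F) := by
  rw [blk_mulVec]
  funext r
  rcases r with _ | r | r
  · simp [blkFun, fO, eO, Pi.single_apply]
  · by_cases hr : r = j
    · subst hr
      simp [blkFun, fO, eO, Pi.single_apply]
    · simp [blkFun, fO, eO, hr, Pi.single_apply]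
  · by_cases hr : r = j
    · subst hr
      simp [blkFun, fO, eO, Pi.single_apply]
    · simp [blkFun, fO, eO, hr, Pi.single_apply]

lemma blk_twist {i j : Fin m} (h : i ≠ j) (g : M2 F) :
    blk j wn * blk i g * (blk j wn)⁻¹ = blk i (kp (-1) g) := by
  have hI := blk_mem_iso j (wn : M2 F)
  refine m2_induction (P := fun g => blk j wn * blk i g * (blk j wn)⁻¹ = blk i (kp (-1) g)) ?_ ?_ ?_ ?_ ?_ g
  · simp
  · intro t
    have e1 := (eich_Y i t).conj hI
    rw [blk_eO_ne h, Matrix.mulVec_smul, blk_wn_uO] at e1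
    rw [kp_uu]
    refine e1.unique' ?_
    have e3 := eich_Y i (((-1 : Fˣ) : F) * t)
    have e4 : (((-1 : Fˣ) : F) * t) • (uO : VO m → F) = t • -(uO : VO m → F) := by
      simp
    rwa [e4] at e3
  · intro t
    have e1 := (eich_L i t).conj hI
    rw [blk_fO_ne h, Matrix.mulVec_smul, blk_wn_uO] at e1
    rw [kp_ll]
    refine e1.unique' ?_
    have e3 := eich_L i ((((-1 : Fˣ)⁻¹ : Fˣ) : F) * t)
    have e4 : (-((((-1 : Fˣ)⁻¹ : Fˣ) : F) * t)) • (uO : VO m → F) = (-t) • -(uO : VO m → F) := by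
      simp
    rwa [e4] at e3
  · intro a b ha hb
    have e : blk j wn * blk i (a * b) * (blk j wn)⁻¹ =
        (blk j wn * blk i a * (blk j wn)⁻¹) * (blk j wn * blk i b * (blk j wn)⁻¹) := by
      rw [map_mul]
      group
    rw [e, ha, hb, map_mul, map_mul]
  · intro a ha
    have e : blk j wn * blk i a⁻¹ * (blk j wn)⁻¹ = (blk j wn * blk i a * (blk j wn)⁻¹)⁻¹ := by
      rw [map_inv]
      group
    rw [e, ha, map_inv, map_inv]

omit h2

lemma blk_neg (j : Fin m) : blk j (dd (-1 : Fˣ)) = 1 := by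
  apply Units.ext
  change LinearMap.toMatrix' (blkL j (dd (-1 : Fˣ))) = 1
  have e : blkL j (dd (-1 : Fˣ)) = LinearMap.id := by
    apply LinearMap.ext
    intro v
    funext r
    rcases r with _ | r | r
    · simp [blkL_apply, blkFun]
    · by_cases hr : r = j
      · subst hr
        simp [blkL_apply, blkFun]
      · simp [blkL_apply, blkFun, hr]
    · by_cases hr : r = j
      · subst hr
        simp [blkL_apply, blkFun]
      · simp [blkL_apply, blkFun, hr]
  rw [e, LinearMap.toMatrix'_id]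

end lemmas

section omega

variable {m : ℕ} {F : Type*} [Field F]

/-- The inclusion of `Ω`. -/
def iOm : Omega F (quadFormOdd m F) →* GeneralLinearGroup (VO m) F :=
  (isometryGroup F (quadFormOdd m F)).subtype.comp (Omega F (quadFormOdd m F)).subtype

lemma iOm_inj : Function.Injective (iOm : Omega F (quadFormOdd m F) →* _) :=
  Subtype.val_injective.comp Subtype.val_injective

lemma iOm_range : (iOm : Omega F (quadFormOdd m F) →* _).range = omegaGL (quadFormOdd m F) := by
  ext g
  constructor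
  · rintro ⟨x, rfl⟩
    exact ⟨x.1, x.2, rfl⟩
  · rintro ⟨x, hx, rfl⟩
    exact ⟨⟨x, hx⟩, rfl⟩

variable [Fintype F]

lemma card_VO_ge (hm : 3 ≤ m) : 7 ≤ Fintype.card (VO m) := by
  simp only [VO, Fintype.card_sum, Fintype.card_unit, Fintype.card_fin]
  omega

lemma levO_mem_omega (hm : 3 ≤ m) (h2 : (2 : F) ≠ 0) (l : SpecialLinearGroup (Fin m) F) :
    levO l ∈ omegaGL (quadFormOdd m F) := by
  haveI : Nontrivial (Fin m) := Fin.nontrivial_iff_two_le.mpr (by omega)
  have htop := Cfsg.Agent.Lib.Classical.Transvections.closure_transvections_eq_top (ι := Fin m) (F := F)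
  have hle : Subgroup.closure {t : SpecialLinearGroup (Fin m) F | ∃ (i j : Fin m) (hij : i ≠ j) (a : F),
      t = SpecialLinearGroup.transvection hij a} ≤
      (omegaGL (quadFormOdd m F)).comap (levO : SpecialLinearGroup (Fin m) F →* _) := by
    rw [Subgroup.closure_le]
    rintro _ ⟨i, j, hij, a, rfl⟩
    refine (eich_T hij a).mem_omega (nd_O h2) (card_VO_ge hm) (Q_eO i) ?_
    rw [pol_smulO, pol_fO']
    simp [eO, Pi.single_apply, hij, Ne.symm hij]
  exact hle (htop ▸ Subgroup.mem_top l)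

lemma blk_mem_omega (hm : 3 ≤ m) (h2 : (2 : F) ≠ 0) (j : Fin m) (g : M2 F) :
    blk j g ∈ omegaGL (quadFormOdd m F) := by
  refine m2_induction (P := fun g => blk j g ∈ omegaGL (quadFormOdd m F)) ?_ ?_ ?_ ?_ ?_ g
  · rw [map_one]
    exact one_mem _
  · intro t
    refine (eich_Y j t).mem_omega (nd_O h2) (card_VO_ge hm) (Q_eO j) ?_
    rw [pol_smulO, pol_uO']
    simp [eO, Pi.single_apply]
  · intro t
    refine (eich_L j t).mem_omega (nd_O h2) (card_VO_ge hm) (Q_fO j) ?_
    rw [pol_smulO, pol_uO']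
    simp [fO, Pi.single_apply]
  · intro a c ha hc
    rw [map_mul]
    exact mul_mem ha hc
  · intro a ha
    rw [map_inv]
    exact inv_mem ha

/-- The long root elements of the target, from the Levi transvections by the Weyl element. -/
lemma eich_long (_h2 : (2 : F) ≠ 0) {b k : Fin m} (h : b ≠ k) (t : F) :
    Eich (quadFormOdd m F) (blk k wn * levO (TT h (-t)) * (blk k wn)⁻¹) (eO b) (t • eO k) := by
  have e := (eich_T h (-t)).conj (blk_mem_iso k wn)
  rw [blk_eO_ne h] at e
  have e1 : (blk k wn).1 *ᵥ ((-t) • fO k) = t • (eO k : VO m → F) := by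
    have h3 := blk_vec k (wn : M2 F) (0 : F) (0 : F) (-t)
    simp only [zero_smul, zero_add, adX_wn, adZ_wn, adY_wn, neg_zero, add_zero, neg_neg] at h3
    exact h3
  rw [e1] at e
  exact e

lemma eich_self (_h2 : (2 : F) ≠ 0) (b : Fin m) (t : F) :
    Eich (quadFormOdd m F) 1 (eO b) (t • eO b) := by
  intro x
  rw [Units.val_one, one_mulVec, pol_smulO, pol_eO', Q_smulO, Q_eO, mul_zero, zero_mul, zero_smul, sub_zero, smul_smul,
    mul_comm, add_sub_cancel_right]

lemma eich_zero (_h2 : (2 : F) ≠ 0) (b : Fin m) :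
    Eich (quadFormOdd m F) 1 (eO b) 0 := by
  have := eich_self _h2 b (0 : F)
  simpa using this

/-- The Eichler transformations with centre `e_b`. -/
lemma full_eO (h2 : (2 : F) ≠ 0) {b : Fin m} (M : Subgroup (GeneralLinearGroup (VO m) F))
    (hY : ∀ t : F, blk b (uu t) ∈ M)
    (hT : ∀ (k : Fin m) (h : b ≠ k) (c : F), levO (TT h c) ∈ M)
    (hr : ∀ (k : Fin m) (h : b ≠ k) (c : F), blk k wn * levO (TT h c) * (blk k wn)⁻¹ ∈ M) :
    Full (quadFormOdd m F) M (eO b) := by
  intro v g hv hg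
  have hQ := nd_O (m := m) h2
  have hvb : v (Sum.inr (Sum.inr b)) = 0 := by
    rw [Cfsg.Agent.Lib.Geo.QForm.pol_symm hQ, pol_eO'] at hv
    exact hv
  have hs : ∀ x : VO m, ∃ g ∈ M, Eich (quadFormOdd m F) g (eO b) (v x • (Pi.single x 1 : VO m → F)) := by
    rintro (_ | k | k)
    · exact ⟨_, hY _, eich_Y b _⟩
    · by_cases hk : b = k
      · subst hk
        exact ⟨1, M.one_mem, eich_self h2 b _⟩
      · exact ⟨_, hr k hk _, eich_long h2 hk _⟩
    · by_cases hk : b = k
      · subst hk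
        refine ⟨1, M.one_mem, ?_⟩
        rw [hvb, zero_smul]
        exact eich_zero h2 b
      · exact ⟨_, hT k hk _, eich_T hk _⟩
  have hp' : ∀ x : VO m, pol (quadFormOdd m F) (eO b) (v x • (Pi.single x 1 : VO m → F)) = 0 := by
    rintro (_ | k | k)
    · change pol (quadFormOdd m F) (eO b) (v _ • uO) = 0
      rw [pol_smulO, pol_uO']
      simp [eO, Pi.single_apply]
    · change pol (quadFormOdd m F) (eO b) (v _ • eO k) = 0
      rw [pol_smulO, pol_eO']
      simp [eO, Pi.single_apply]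
    · change pol (quadFormOdd m F) (eO b) (v _ • fO k) = 0
      rw [pol_smulO, pol_fO']
      by_cases hk : b = k
      · subst hk
        rw [hvb]
        simp
      · simp [eO, Pi.single_apply, hk, Ne.symm hk]
  have hsum : ∀ s : Finset (VO m), (∃ g ∈ M, Eich (quadFormOdd m F) g (eO b) (∑ x ∈ s, v x • (Pi.single x 1 : VO m → F))) ∧
      pol (quadFormOdd m F) (eO b) (∑ x ∈ s, v x • (Pi.single x 1 : VO m → F)) = 0 := by
    intro s
    induction s using Finset.induction_on with
    | empty =>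
      rw [Finset.sum_empty]
      exact ⟨⟨1, M.one_mem, eich_zero h2 b⟩, Cfsg.Agent.Lib.Geo.QForm.pol_zero_right hQ _⟩
    | insert x s hx ih =>
      obtain ⟨⟨g1, hg1, e1⟩, h1⟩ := ih
      obtain ⟨g2, hg2, e2⟩ := hs x
      rw [Finset.sum_insert hx]
      refine ⟨⟨g2 * g1, M.mul_mem hg2 hg1, e2.mul hQ e1 (Q_eO b) (hp' x) h1⟩, ?_⟩
      rw [Cfsg.Agent.Lib.Geo.QForm.pol_add_right hQ, hp' x, h1, add_zero]
  obtain ⟨⟨g', hg'M, hg'⟩, -⟩ := hsum Finset.univ
  have hv2 : ∑ x, v x • (Pi.single x (1 : F) : VO m → F) = v := by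
    funext r
    rw [Finset.sum_apply, Finset.sum_eq_single r]
    · simp
    · intro x _ hx
      simp [Pi.single_apply, Ne.symm hx]
    · simp
  rw [hv2] at hg'
  rw [Eich.unique' hg hg']
  exact hg'M

/-- The Levi subgroup and one rank one group generate `Ω`. -/
theorem closure_lev_blk (hm : 3 ≤ m) (h2 : (2 : F) ≠ 0) (b : Fin m) :
    closure (Set.range (levO : SpecialLinearGroup (Fin m) F →* _) ∪ Set.range (blk b)) =
      omegaGL (quadFormOdd m F) := by
  have hQ := nd_O (m := m) h2
  apply le_antisymm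
  · rw [Subgroup.closure_le]
    rintro _ (⟨l, rfl⟩ | ⟨g, rfl⟩)
    · exact levO_mem_omega hm h2 l
    · exact blk_mem_omega hm h2 b g
  · set M := closure (Set.range (levO : SpecialLinearGroup (Fin m) F →* _) ∪ Set.range (blk b)) with hM
    have hlev : ∀ l, levO l ∈ M := fun l => Subgroup.subset_closure (Or.inl ⟨l, rfl⟩)
    have hblkb : ∀ g, blk b g ∈ M := fun g => Subgroup.subset_closure (Or.inr ⟨g, rfl⟩)
    have hI : M ≤ isometryGroup F (quadFormOdd m F) := by
      refine le_trans ?_ (Cfsg.Agent.Lib.Geo.Basic.omegaGL_le_isometryGroup _)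
      rw [hM, Subgroup.closure_le]
      rintro _ (⟨l, rfl⟩ | ⟨g, rfl⟩)
      · exact levO_mem_omega hm h2 l
      · exact blk_mem_omega hm h2 b g
    obtain ⟨a, hab⟩ : ∃ a : Fin m, a ≠ b := by
      by_contra hcon
      push Not at hcon
      have h0 := hcon ⟨0, by omega⟩
      have h1 := hcon ⟨1, by omega⟩
      have := h0.trans h1.symm
      simp [Fin.ext_iff] at this
    have hblk : ∀ (j : Fin m) (g : M2 F), blk j g ∈ M := by
      intro j g
      have hv := mv_pj (F := F) hab j
      have hmu : Mu (pj a b j : SpecialLinearGroup (Fin m) F) b j (1 : Fˣ) :=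
        ⟨by simpa using hv.col, by simpa using hv.row⟩
      have e := levO_blk h2 hmu g
      rw [kp_one] at e
      rw [← e]
      exact mul_mem (mul_mem (hlev _) (hblkb _)) (inv_mem (hlev _))
    have hF : Full (quadFormOdd m F) M (eO b) :=
      full_eO h2 M (fun t => hblkb _) (fun k h c => hlev _)
        (fun k h c => mul_mem (mul_mem (hblk _ _) (hlev _)) (inv_mem (hblk _ _)))
    have hF' : Full (quadFormOdd m F) M (fO b) := by
      have h1 := hF.conj (hblkb (wn : M2 F)) (hI (hblkb _))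
      have e1 : (blk b (wn : M2 F)).1 *ᵥ eO b = (-1 : F) • (fO b : VO m → F) := by
        have h3 := blk_vec b (wn : M2 F) (1 : F) (0 : F) (0 : F)
        simp only [one_smul, zero_smul, add_zero, adX_wn, adZ_wn, adY_wn, neg_zero, zero_add] at h3
        exact h3
      rw [e1] at h1
      have h4 := h1.smul hQ (-1 : F)
      simpa [smul_smul] using h4
    refine omega_le_of_full hQ (card_VO_ge hm) (Q_eO b) (Q_fO b) hF hF' ?_
    rw [pol_eO']
    simp [fO, Pi.single_apply]

end omega

section images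

/- The images of the root elements, for data lying over the target. -/

variable {m : ℕ} {F : Type*} [Field F] {Γ : Type*} [Group Γ] {π : Γ →* GeneralLinearGroup (VO m) F}
  {D : BData (Fin m) F Γ}

lemma pi_Mf (h2 : (2 : F) ≠ 0) (h1 : ∀ l, π (D.lam l) = levO l) (hM : ∀ g, π (D.M g) = blk D.b g) (i : Fin m) (g : M2 F) :
    π (D.Mf i g) = blk i g := by
  have hp : Mu (pj D.a D.b i : SpecialLinearGroup (Fin m) F) D.b i 1 := Mu.of_Mv (mv_pj D.hab i) (by simp)
  have e := levO_blk h2 hp g
  rw [kp_one] at e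
  rw [D.Mf_apply, map_mul, map_mul, map_inv, h1, hM, e]

lemma pi_rr (h2 : (2 : F) ≠ 0) (h1 : ∀ l, π (D.lam l) = levO l) (hM : ∀ g, π (D.M g) = blk D.b g) (i : Fin m) :
    π (D.rr i) = blk i wn :=
  pi_Mf h2 h1 hM i wn

lemma eich_pi_T (h1 : ∀ l, π (D.lam l) = levO l) {k j : Fin m} (h : k ≠ j) (y : F) :
    Eich (quadFormOdd m F) (π (D.T h y)) (eO k) (y • fO j) := by
  change Eich (quadFormOdd m F) (π (D.lam (TT h y))) (eO k) (y • fO j)
  rw [h1]
  exact eich_T h y

lemma eich_pi_Y (h2 : (2 : F) ≠ 0) (h1 : ∀ l, π (D.lam l) = levO l) (hM : ∀ g, π (D.M g) = blk D.b g) (k : Fin m) (z : F) :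
    Eich (quadFormOdd m F) (π (D.Y k z)) (eO k) (z • uO) := by
  change Eich (quadFormOdd m F) (π (D.Mf k (uu z))) (eO k) (z • uO)
  rw [pi_Mf h2 h1 hM]
  exact eich_Y k z

lemma eich_pi_Z (h2 : (2 : F) ≠ 0) (h1 : ∀ l, π (D.lam l) = levO l) (hM : ∀ g, π (D.M g) = blk D.b g) {k j : Fin m}
    (h : k ≠ j) (x : F) :
    Eich (quadFormOdd m F) (π (D.Z h x)) (eO k) (x • eO j) := by
  have e1 := (eich_pi_T (D := D) (π := π) h1 h (-x)).conj (blk_mem_iso j (wn : M2 F))
  rw [blk_eO_ne h, Matrix.mulVec_smul, blk_wn_fO, smul_neg, ← neg_smul, neg_neg] at e1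
  change Eich (quadFormOdd m F) (π (D.rr j * D.T h (-x) * (D.rr j)⁻¹)) (eO k) (x • eO j)
  rw [map_mul, map_mul, map_inv, pi_rr h2 h1 hM]
  exact e1

lemma eich_pi_Ek (h2 : (2 : F) ≠ 0) (h1 : ∀ l, π (D.lam l) = levO l) (hM : ∀ g, π (D.M g) = blk D.b g) {k j : Fin m}
    (h : k ≠ j) (x z y : F) :
    Eich (quadFormOdd m F) (π (D.Ek h x z y)) (eO k) (x • eO j + z • uO + y • fO j) := by
  have hQ := nd_O (m := m) h2
  have hxe : pol (quadFormOdd m F) (eO k) (x • eO j) = 0 := by
    rw [pol_smul_right hQ, pol_eO h2]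
    simp [eO, Pi.single_apply]
  have hzu : pol (quadFormOdd m F) (eO k) (z • uO) = 0 := by
    rw [pol_smul_right hQ, pol_uO h2]
    simp [eO, Pi.single_apply]
  have hyf : pol (quadFormOdd m F) (eO k) (y • fO j) = 0 := by
    rw [pol_smul_right hQ, pol_fO h2]
    simp [eO, Pi.single_apply, h, h.symm]
  have hxz : pol (quadFormOdd m F) (eO k) (x • eO j + z • uO) = 0 := by
    rw [pol_add_right hQ, hxe, hzu, add_zero]
  have e1 := (eich_pi_Z (D := D) (π := π) h2 h1 hM h x).mul hQ (eich_pi_Y (D := D) (π := π) h2 h1 hM k z)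
    (Q_eO k) hxe hzu
  have e2 := e1.mul hQ (eich_pi_T (D := D) (π := π) h1 h y) (Q_eO k) hxz hyf
  change Eich (quadFormOdd m F) (π (D.Z h x * D.Y k z * D.T h y)) (eO k) (x • eO j + z • uO + y • fO j)
  rw [map_mul, map_mul]
  exact e2

end images

end Cfsg.Agent.Lib.OddStem
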