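import Cfsg.Agent.Lib.OddStem.Dec
import Cfsg.Agent.Lib.OddStem.Target

/-!
# Injectivity (module I)

Port of `PresU/OInj.lean`. `φ : Γ →* GL(V)`, `φ (lam l) = levO l`, `φ (M g) = blk b g`.
`POe A`: `A` maps the `e_i` into the span of the `e_i`: the entries `A (f_r) (e_t)`, `A (u₀) (e_t)` vanish. `POs φ`: `{x | POe (φ x) ∧ POe (φ x⁻¹)}`, contains `Pt`.
`nR`: `φ (nR R) e_i = - f_i` for `i ∈ R` (nodup), so `POe (φ (nR R))` forces `R = []`.
Unipotent radical: `IsUp g A T`: `g` acts by `x ↦ x + 2 z A + T y`, `z ↦ z - A ⬝ y`, `y ↦ y`.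
-/

set_option autoImplicit false
set_option linter.unusedSectionVars false
set_option linter.unusedSimpArgs false

namespace Cfsg.Agent.Lib.OddStem

open Matrix Subgroup Cfsg Cfsg.Agent.Lib.PresOm Cfsg.Agent.Lib.PresSp.M2 Cfsg.Agent.Lib.PresSp.Mono
  Cfsg.Agent.Lib.PresSLn.TwoGen Cfsg.Agent.Lib.GeoOmega.Eichler Cfsg.Agent.Lib.QuadFn Cfsg.Geo
  Cfsg.Agent.Lib.Geo.QForm Cfsg.Agent.Lib.Geo.Polar

variable {m : ℕ} {F : Type*} [Field F] {Γ : Type*} [Group Γ]

namespace InjO

/-- The action of an element of the unipotent radical. -/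
def upV (A : Fin m → F) (T : Matrix (Fin m) (Fin m) F) (v : VO m → F) : VO m → F
  | Sum.inl _ => v (Sum.inl ()) - ∑ i, A i * v (Sum.inr (Sum.inr i))
  | Sum.inr (Sum.inl k) =>
    v (Sum.inr (Sum.inl k)) + 2 * v (Sum.inl ()) * A k + ∑ i, T k i * v (Sum.inr (Sum.inr i))
  | Sum.inr (Sum.inr k) => v (Sum.inr (Sum.inr k))

/-- `g` lies in the unipotent radical with parameters `A`, `T`. -/
def IsUp (g : GeneralLinearGroup (VO m) F) (A : Fin m → F) (T : Matrix (Fin m) (Fin m) F) : Prop :=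
  ∀ v, g.1 *ᵥ v = upV A T v

lemma mulVec_gl (g g' : GeneralLinearGroup (VO m) F) (v : VO m → F) :
    (g * g').1 *ᵥ v = g.1 *ᵥ (g'.1 *ᵥ v) := by
  rw [Matrix.mulVec_mulVec]
  rfl

lemma IsUp.mul {g g' : GeneralLinearGroup (VO m) F} {A A' : Fin m → F}
    {T T' : Matrix (Fin m) (Fin m) F} (h : IsUp g A T) (h' : IsUp g' A' T') :
    IsUp (g * g') (A + A') (T + T' - (2 : F) • vecMulVec A A') := by
  intro v
  rw [mulVec_gl, h', h]
  funext r
  rcases r with _ | r | r
  · simp only [upV, Pi.add_apply, add_mul, Finset.sum_add_distrib]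
    ring
  · have e : ∀ i, (T + T' - (2 : F) • vecMulVec A A') r i * v (Sum.inr (Sum.inr i)) =
        T r i * v (Sum.inr (Sum.inr i)) + T' r i * v (Sum.inr (Sum.inr i)) -
          2 * A r * (A' i * v (Sum.inr (Sum.inr i))) := by
      intro i
      simp only [Matrix.sub_apply, Matrix.add_apply, Matrix.smul_apply, vecMulVec_apply, smul_eq_mul]
      ring
    simp only [upV, Pi.add_apply]
    rw [Finset.sum_congr rfl (fun i _ => e i), Finset.sum_sub_distrib, Finset.sum_add_distrib,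
      ← Finset.mul_sum]
    ring
  · rfl

lemma IsUp.mul0 {g g' : GeneralLinearGroup (VO m) F} {T T' : Matrix (Fin m) (Fin m) F}
    (h : IsUp g 0 T) (h' : IsUp g' 0 T') : IsUp (g * g') 0 (T + T') := by
  have h3 := h.mul h'
  have e : vecMulVec (0 : Fin m → F) (0 : Fin m → F) = 0 := by
    ext i j
    simp [vecMulVec_apply]
  rwa [e, smul_zero, sub_zero, add_zero] at h3

lemma isUp_one : IsUp (1 : GeneralLinearGroup (VO m) F) 0 0 := by
  intro v
  funext r
  rcases r with _ | r | r <;> simp [upV]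

lemma IsUp.unique (h2 : (2 : F) ≠ 0) {g : GeneralLinearGroup (VO m) F} {A A' : Fin m → F}
    {T T' : Matrix (Fin m) (Fin m) F} (h : IsUp g A T) (h' : IsUp g A' T') : A = A' ∧ T = T' := by
  have e : ∀ v, upV A T v = upV A' T' v := fun v => by rw [← h v, h' v]
  constructor
  · funext k
    have := congrFun (e uO) (Sum.inr (Sum.inl k))
    simpa [upV, uO, h2] using this
  · ext k j
    have := congrFun (e (fO j)) (Sum.inr (Sum.inl k))
    simpa [upV, fO, Pi.single_apply] using this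

lemma isUp_blk_uu (k : Fin m) (z : F) :
    IsUp (blk k (uu z)) (Pi.single k z) (Matrix.single k k (-z ^ 2)) := by
  intro v
  rw [blk_mulVec]
  funext r
  rcases r with _ | r | r
  · simp [blkFun, upV, Pi.single_apply, mul_comm]
  · by_cases hr : r = k
    · subst hr
      simp [blkFun, upV, Matrix.single_apply, Pi.single_apply]
      ring
    · have hr' : k ≠ r := fun e => hr e.symm
      simp [blkFun, upV, Matrix.single_apply, Pi.single_apply, hr, hr']
  · by_cases hr : r = k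
    · subst hr
      simp [blkFun, upV]
    · simp [blkFun, upV, hr]

lemma isUp_of_eich_Z (h2 : (2 : F) ≠ 0) {g : GeneralLinearGroup (VO m) F} {k j : Fin m} (h : k ≠ j)
    (x : F) (hE : Eich (quadFormOdd m F) g (eO k) (x • eO j)) :
    IsUp g 0 (x • (Matrix.single k j (1 : F) - Matrix.single j k 1)) := by
  have hQ := nd_O (m := m) (F := F) h2
  intro v
  have e1 : pol (quadFormOdd m F) v (x • eO j) = x * v (Sum.inr (Sum.inr j)) := by
    rw [pol_smul_right hQ, pol_eO h2]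
  have e2 : pol (quadFormOdd m F) v (eO k) = v (Sum.inr (Sum.inr k)) := pol_eO h2 v k
  have e3 : quadFormOdd m F (x • eO j) = 0 := by rw [hQ.smul, Q_eO, mul_zero]
  rw [hE v, e1, e2, e3, zero_mul, zero_smul, sub_zero]
  funext r
  rcases r with _ | r | r
  · simp [upV, eO]
  · by_cases h3 : r = k
    · subst h3
      simp [upV, eO, Matrix.single_apply, Pi.single_apply, h, h.symm]
    · by_cases h4 : r = j
      · subst h4
        simp [upV, eO, Matrix.single_apply, Pi.single_apply, h, h.symm, sub_eq_add_neg]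
        ring
      · have h3' : k ≠ r := fun e => h3 e.symm
        have h4' : j ≠ r := fun e => h4 e.symm
        simp [upV, eO, Matrix.single_apply, Pi.single_apply, h3, h4, h3', h4']
  · simp [upV, eO]

/-- Preserving the span of the `e_i`. -/
def POe (A : Matrix (VO m) (VO m) F) : Prop :=
  (∀ r t, A (Sum.inr (Sum.inr r)) (Sum.inr (Sum.inl t)) = 0) ∧
    ∀ t, A (Sum.inl ()) (Sum.inr (Sum.inl t)) = 0

lemma POe.mul {M N : Matrix (VO m) (VO m) F} (hM : POe M) (hN : POe N) : POe (M * N) := by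
  obtain ⟨h1, h2⟩ := hM
  obtain ⟨h3, h4⟩ := hN
  constructor
  · intro r t
    rw [Matrix.mul_apply, Fintype.sum_sum_type, Fintype.sum_sum_type]
    simp [h1, h3, h4]
  · intro t
    rw [Matrix.mul_apply, Fintype.sum_sum_type, Fintype.sum_sum_type]
    simp [h2, h3, h4]

lemma POe.one : POe (1 : Matrix (VO m) (VO m) F) := by
  constructor <;> intros <;> simp

/-- The subgroup of elements mapped to matrices in the parabolic, with their inverses. -/
def POs (φ : Γ →* GeneralLinearGroup (VO m) F) : Subgroup Γ where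
  carrier := {x | POe (φ x).1 ∧ POe (φ x⁻¹).1}
  mul_mem' := by
    rintro x y ⟨h1, h2⟩ ⟨h3, h4⟩
    refine ⟨by rw [map_mul]; exact h1.mul h3, ?_⟩
    rw [_root_.mul_inv_rev, map_mul]
    exact h4.mul h2
  one_mem' := by
    refine ⟨?_, ?_⟩
    · rw [map_one]
      exact POe.one
    · rw [inv_one, map_one]
      exact POe.one
  inv_mem' := by
    rintro x ⟨h1, h2⟩
    refine ⟨h2, ?_⟩
    rwa [inv_inv]

lemma POe_lev (l : SpecialLinearGroup (Fin m) F) : POe (levO l).1 := by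
  rw [coe_levO]
  constructor <;> intros <;> simp

lemma blk_entry (j : Fin m) (g : M2 F) (r t : VO m) :
    (blk j g).1 r t = blkFun j g (Pi.single t 1) r := by
  rw [← blk_mulVec, Matrix.mulVec_single_one]
  rfl

lemma POe_blk (j : Fin m) (g : M2 F) (hZ : ∀ x, adZ g x 0 0 = 0) (hY : ∀ x, adY g x 0 0 = 0) :
    POe (blk j g).1 := by
  constructor
  · intro r t
    rw [blk_entry]
    simp only [blkFun]
    split_ifs with h
    · simpa using hY _
    · simp
  · intro t
    rw [blk_entry]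
    simpa [blkFun] using hZ _

lemma POe_blk_uu (j : Fin m) (z : F) : POe (blk j (uu z)).1 :=
  POe_blk j _ (by intro x; simp) (by intro x; simp)

lemma POe_blk_dd (j : Fin m) (u : Fˣ) : POe (blk j (dd u)).1 :=
  POe_blk j _ (by intro x; simp) (by intro x; simp)

section main

variable {D : BData (Fin m) F Γ} {φ : Γ →* GeneralLinearGroup (VO m) F}

lemma Pt_le (h1 : ∀ l, φ (D.lam l) = levO l) (hM : ∀ g, φ (D.M g) = blk D.b g) : D.Pt ≤ POs φ := by
  rw [BData.Pt, Subgroup.closure_le]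
  rintro _ ((⟨l, rfl⟩ | ⟨z, rfl⟩) | ⟨u, rfl⟩)
  · refine ⟨?_, ?_⟩
    · rw [h1]
      exact POe_lev l
    · rw [← map_inv, h1]
      exact POe_lev _
  · refine ⟨?_, ?_⟩
    · rw [hM]
      exact POe_blk_uu _ _
    · rw [← map_inv, ← uu_neg, hM]
      exact POe_blk_uu _ _
  · refine ⟨?_, ?_⟩
    · rw [hM]
      exact POe_blk_dd _ _
    · rw [← map_inv, ← dd_inv, hM]
      exact POe_blk_dd _ _

lemma phi_nR_eO (h2 : (2 : F) ≠ 0) (h1 : ∀ l, φ (D.lam l) = levO l) (hM : ∀ g, φ (D.M g) = blk D.b g)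
    (R : List (Fin m)) (i : Fin m) (hi : i ∉ R) : (φ (D.nR R)).1 *ᵥ eO i = (eO i : VO m → F) := by
  induction R with
  | nil =>
    simp [BData.nR]
  | cons a R ih =>
    have hia : i ≠ a := fun e => hi (by simp [e])
    have hiR : i ∉ R := fun e => hi (by simp [e])
    simp only [BData.nR]
    rw [map_mul, mulVec_gl, ih hiR, pi_rr h2 h1 hM, blk_eO_ne hia]

lemma nR_nil (h2 : (2 : F) ≠ 0) (h1 : ∀ l, φ (D.lam l) = levO l) (hM : ∀ g, φ (D.M g) = blk D.b g)
    {R : List (Fin m)} (hR : R.Nodup) (h : POe (φ (D.nR R)).1) : R = [] := by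
  cases R with
  | nil => rfl
  | cons i R =>
    exfalso
    have hi : i ∉ R := (List.nodup_cons.mp hR).1
    have e1 : (φ (D.nR (i :: R))).1 *ᵥ eO i = blkFun i wn (eO i) := by
      simp only [BData.nR]
      rw [map_mul, mulVec_gl, phi_nR_eO h2 h1 hM R i hi, pi_rr h2 h1 hM, blk_mulVec]
    have e2 := h.1 i i
    have e3 : (φ (D.nR (i :: R))).1 (Sum.inr (Sum.inr i)) (Sum.inr (Sum.inl i)) =
        ((φ (D.nR (i :: R))).1 *ᵥ eO i) (Sum.inr (Sum.inr i)) := by
      rw [eO, Matrix.mulVec_single_one]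
      rfl
    rw [e3, e1] at e2
    simp [blkFun, eO] at e2

end main

section hyp

variable {D : BData (Fin m) F Γ} (H : BHyp D) (h2 : (2 : F) ≠ 0)
  {φ : Γ →* GeneralLinearGroup (VO m) F}
  (h1 : ∀ l, φ (D.lam l) = levO l) (hM : ∀ g, φ (D.M g) = blk D.b g)
include h2 h1 hM

lemma isUp_Y (k : Fin m) (z : F) :
    IsUp (φ (D.Y k z)) (Pi.single k z) (Matrix.single k k (-z ^ 2)) := by
  rw [BData.Y, pi_Mf h2 h1 hM]
  exact isUp_blk_uu k z

lemma isUp_Z {k j : Fin m} (h : k ≠ j) (x : F) :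
    IsUp (φ (D.Z h x)) 0 (x • (Matrix.single k j (1 : F) - Matrix.single j k 1)) :=
  isUp_of_eich_Z h2 h x (eich_pi_Z h2 h1 hM h x)

include H

/-- The form of the elements of the unipotent radical. -/
lemma phi_NS (S : Finset (Fin m)) {q : Γ} (hq : q ∈ D.NS S) :
    ∃ A T, IsUp (φ q) A T ∧ ∀ i, i ∉ S → A i = 0 := by
  have step : ∀ x ∈ D.NSg S, ∀ y : Γ, (∃ A T, IsUp (φ y) A T ∧ ∀ i, i ∉ S → A i = 0) →
      ∃ A T, IsUp (φ (x * y)) A T ∧ ∀ i, i ∉ S → A i = 0 := by
    rintro x hx y ⟨A, T, hy, hA⟩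
    rcases hx with ⟨k', hk, z, rfl⟩ | ⟨i, j, hij, c, rfl⟩
    · refine ⟨_, _, by rw [map_mul]; exact (isUp_Y h2 h1 hM k' z).mul hy, ?_⟩
      intro i hi
      have hne : i ≠ k' := by
        rintro rfl
        exact hi hk
      simp [hA i hi, hne]
    · refine ⟨_, _, by rw [map_mul]; exact (isUp_Z h2 h1 hM hij c).mul hy, ?_⟩
      intro i hi
      simp [hA i hi]
  induction hq using Subgroup.closure_induction_left with
  | one =>
    refine ⟨0, 0, ?_, fun _ _ => rfl⟩
    rw [map_one]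
    exact isUp_one
  | mul_left x hx y _ ih => exact step x hx y ih
  | inv_mul_cancel x hx y _ ih =>
    refine step x⁻¹ ?_ y ih
    rcases hx with ⟨k', hk, z, rfl⟩ | ⟨i, j, hij, c, rfl⟩
    · exact Or.inl ⟨k', hk, -z, (D.Y_neg k' z).symm⟩
    · exact Or.inr ⟨i, j, hij, -c, (D.Z_neg hij c).symm⟩

/-- Elements of the unipotent radical with vanishing column are in the commuting part. -/
lemma NS_Z (S : Finset (Fin m)) : ∀ {q : Γ} {T : Matrix (Fin m) (Fin m) F}, q ∈ D.NS S →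
    IsUp (φ q) 0 T → q ∈ D.NS ∅ := by
  induction S using Finset.induction_on with
  | empty =>
    intro q T hq _
    exact hq
  | insert k S hk ih =>
    intro q T hq hT
    obtain ⟨n, hn, z, rfl⟩ := H.dec_N hk hq
    obtain ⟨A, T', hA, hA0⟩ := phi_NS H h2 h1 hM S hn
    have h3 := hA.mul (isUp_Y h2 h1 hM k z)
    rw [← map_mul] at h3
    obtain ⟨e1, -⟩ := IsUp.unique h2 hT h3
    have hz : z = 0 := by
      have := congrFun e1 k
      simpa [hA0 k hk] using this.symm
    subst hz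
    have hA1 : A = 0 := by
      funext i
      by_cases hi : i = k
      · subst hi
        exact hA0 i hk
      · have := congrFun e1 i
        simpa [hi] using this.symm
    subst hA1
    rw [D.Y_zero, mul_one]
    exact ih hn hA

end hyp

/-- The pairs `i < j`. -/
abbrev Pr (m : ℕ) : Type := {p : Fin m × Fin m // p.1 < p.2}

/-- The generators of the commuting part at the pairs in `P`. -/
def NZg (D : BData (Fin m) F Γ) (P : Finset (Pr m)) : Set Γ :=
  {x | ∃ p ∈ P, ∃ c : F, x = D.Z (ne_of_lt p.2) c}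

/-- The commuting part at the pairs in `P`. -/
def NZ (D : BData (Fin m) F Γ) (P : Finset (Pr m)) : Subgroup Γ := closure (NZg D P)

section comm

variable {D : BData (Fin m) F Γ} (H : BHyp D)
include H

lemma NZ_comm (P : Finset (Pr m)) {n : Γ} (hn : n ∈ NZ D P) {i j : Fin m} (h : i ≠ j) (c : F) :
    n * D.Z h c = D.Z h c * n := by
  have h3 : NZ D P ≤ Subgroup.centralizer {D.Z h c} := by
    rw [NZ, Subgroup.closure_le]
    rintro _ ⟨p, -, d, rfl⟩
    rw [SetLike.mem_coe, Subgroup.mem_centralizer_singleton_iff]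
    exact (H.comm_Z_Z _ h d c)
  exact Subgroup.mem_centralizer_singleton_iff.mp (h3 hn)

lemma dec_NZ {P : Finset (Pr m)} (p : Pr m) {q : Γ} (hq : q ∈ NZ D (insert p P)) :
    ∃ n ∈ NZ D P, ∃ c : F, q = n * D.Z (ne_of_lt p.2) c := by
  induction hq using Subgroup.closure_induction with
  | mem x hx =>
    obtain ⟨p', hmem, c, rfl⟩ := hx
    rcases Finset.mem_insert.mp hmem with e | e
    · subst e
      exact ⟨1, one_mem _, c, by rw [one_mul]⟩
    · exact ⟨_, subset_closure ⟨p', e, c, rfl⟩, 0, by rw [D.Z_zero, mul_one]⟩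
  | one => exact ⟨1, one_mem _, 0, by rw [D.Z_zero, mul_one]⟩
  | mul x y _ _ hx hy =>
    obtain ⟨n, hn, c, rfl⟩ := hx
    obtain ⟨n', hn', c', rfl⟩ := hy
    refine ⟨n * n', mul_mem hn hn', c + c', ?_⟩
    rw [D.Z_add]
    have h3 := NZ_comm H P hn' (ne_of_lt p.2) c
    calc n * D.Z (ne_of_lt p.2) c * (n' * D.Z (ne_of_lt p.2) c')
        = n * (D.Z (ne_of_lt p.2) c * n') * D.Z (ne_of_lt p.2) c' := by group
      _ = n * (n' * D.Z (ne_of_lt p.2) c) * D.Z (ne_of_lt p.2) c' := by rw [h3]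
      _ = _ := by group
  | inv x _ hx =>
    obtain ⟨n, hn, c, rfl⟩ := hx
    refine ⟨n⁻¹, inv_mem hn, -c, ?_⟩
    rw [D.Z_neg, _root_.mul_inv_rev]
    have h3 := NZ_comm H P (inv_mem hn) (ne_of_lt p.2) (-c)
    rw [D.Z_neg] at h3
    exact h3.symm

variable (h2 : (2 : F) ≠ 0) {φ : Γ →* GeneralLinearGroup (VO m) F}
  (h1 : ∀ l, φ (D.lam l) = levO l) (hM : ∀ g, φ (D.M g) = blk D.b g)
include h2 h1 hM

lemma phi_NZ (P : Finset (Pr m)) {q : Γ} (hq : q ∈ NZ D P) :
    ∃ T, IsUp (φ q) 0 T ∧ ∀ p : Pr m, p ∉ P → T p.1.1 p.1.2 = 0 := by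
  have step : ∀ x ∈ NZg D P, ∀ y : Γ,
      (∃ T, IsUp (φ y) 0 T ∧ ∀ p : Pr m, p ∉ P → T p.1.1 p.1.2 = 0) →
      ∃ T, IsUp (φ (x * y)) 0 T ∧ ∀ p : Pr m, p ∉ P → T p.1.1 p.1.2 = 0 := by
    rintro x hx y ⟨T, hy, hT⟩
    obtain ⟨p', hp', c, rfl⟩ := hx
    refine ⟨_, by rw [map_mul]; exact (isUp_Z h2 h1 hM (ne_of_lt p'.2) c).mul0 hy, ?_⟩
    intro p hp
    have hne : p ≠ p' := by
      rintro rfl
      exact hp hp'
    have h3 : ¬ (p'.1.1 = p.1.1 ∧ p'.1.2 = p.1.2) := by
      rintro ⟨e1, e2⟩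
      exact hne (Subtype.ext (Prod.ext e1.symm e2.symm))
    have h4 : ¬ (p'.1.2 = p.1.1 ∧ p'.1.1 = p.1.2) := by
      rintro ⟨e1, e2⟩
      have h5 := p.2
      have h6 := p'.2
      rw [← e1, ← e2] at h5
      exact absurd h5 (not_lt.mpr h6.le)
    simp only [Matrix.add_apply, Matrix.smul_apply, Matrix.sub_apply, Matrix.single_apply, hT p hp,
      if_neg h3, if_neg h4, smul_eq_mul]
    simp
  induction hq using Subgroup.closure_induction_left with
  | one =>
    refine ⟨0, ?_, fun _ _ => rfl⟩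
    rw [map_one]
    exact isUp_one
  | mul_left x hx y _ ih => exact step x hx y ih
  | inv_mul_cancel x hx y _ ih =>
    refine step x⁻¹ ?_ y ih
    obtain ⟨p', hp', c, rfl⟩ := hx
    exact ⟨p', hp', -c, (D.Z_neg _ c).symm⟩

lemma NZ_inj (P : Finset (Pr m)) : ∀ {q : Γ}, q ∈ NZ D P → φ q = 1 → q = 1 := by
  induction P using Finset.induction_on with
  | empty =>
    intro q hq _
    have h3 : NZ D (∅ : Finset (Pr m)) = ⊥ := by
      rw [NZ, Subgroup.closure_eq_bot_iff]
      rintro _ ⟨p, hp, -⟩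
      exact absurd hp (Finset.notMem_empty p)
    rw [h3] at hq
    exact hq
  | insert p P hp ih =>
    intro q hq hφ
    obtain ⟨n, hn, c, rfl⟩ := dec_NZ H p hq
    obtain ⟨T, hT, hT0⟩ := phi_NZ H h2 h1 hM P hn
    have h3 := hT.mul0 (isUp_Z h2 h1 hM (ne_of_lt p.2) c)
    rw [← map_mul, hφ] at h3
    obtain ⟨-, e⟩ := IsUp.unique h2 h3 (isUp_one (m := m) (F := F))
    have hc : c = 0 := by
      have h4 := congrFun (congrFun e p.1.1) p.1.2
      have h5 : p.1.1 ≠ p.1.2 := ne_of_lt p.2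
      simp only [Matrix.add_apply, Matrix.smul_apply, Matrix.sub_apply, Matrix.single_apply, hT0 p hp,
        smul_eq_mul, Matrix.zero_apply] at h4
      simpa [h5, h5.symm] using h4
    subst hc
    rw [D.Z_zero, mul_one] at hφ ⊢
    exact ih hn hφ

lemma NS_empty_inj {q : Γ} (hq : q ∈ D.NS ∅) (hφ : φ q = 1) : q = 1 := by
  refine NZ_inj H h2 h1 hM Finset.univ ?_ hφ
  have h3 : D.NS ∅ ≤ NZ D Finset.univ := by
    rw [BData.NS, Subgroup.closure_le]
    rintro _ (⟨k, hk, -⟩ | ⟨i, j, h, c, rfl⟩)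
    · exact absurd hk (Finset.notMem_empty k)
    · rcases lt_or_gt_of_ne h with hlt | hlt
      · exact subset_closure ⟨⟨(i, j), hlt⟩, Finset.mem_univ _, c, rfl⟩
      · rw [H.alt h c]
        exact subset_closure ⟨⟨(j, i), hlt⟩, Finset.mem_univ _, -c, rfl⟩
  exact h3 hq

end comm

lemma e_block {g : GeneralLinearGroup (VO m) F} {A : Fin m → F} {T : Matrix (Fin m) (Fin m) F}
    (hg : IsUp g A T) (u : Fˣ) (l : SpecialLinearGroup (Fin m) F) (b i k : Fin m) :
    ((g * blk b (dd u) * levO l).1 *ᵥ eO i) (Sum.inr (Sum.inl k)) =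
      (if k = b then (u : F) ^ 2 else 1) * l.1 k i := by
  rw [mul_assoc, mulVec_gl, mulVec_gl, hg, blk_mulVec, levO_eO]
  by_cases hk : k = b
  · subst hk
    simp [upV, blkFun]
  · simp [upV, blkFun, hk]

end InjO

open InjO in
/-- Injectivity. -/
theorem BHyp.injectiveO {D : BData (Fin m) F Γ} (H : BHyp D) (h2 : (2 : F) ≠ 0)
    (φ : Γ →* GeneralLinearGroup (VO m) F) (h1 : ∀ l, φ (D.lam l) = levO l) (hM : ∀ g, φ (D.M g) = blk D.b g)
    (hgen : closure (Set.range D.lam ∪ Set.range D.M) = ⊤) : Function.Injective φ := by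
  rw [injective_iff_map_eq_one]
  intro x hx
  obtain ⟨R, hR, p₁, hp₁, p₂, hp₂, rfl⟩ := H.decompO h2 hgen x
  have hP := Pt_le (D := D) h1 hM
  have hn : POe (φ (D.nR R)).1 := by
    have e : D.nR R = p₁⁻¹ * (p₁ * D.nR R * p₂) * p₂⁻¹ := by group
    rw [e, map_mul, map_mul, hx, mul_one]
    exact (hP hp₁).2.mul (hP hp₂).2
  have hR0 := nR_nil h2 h1 hM hR hn
  subst hR0
  simp only [BData.nR, mul_one] at hx ⊢
  obtain ⟨q, hq, u, l, e⟩ := H.dec_Pt (mul_mem hp₁ hp₂)
  rw [e] at hx ⊢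
  obtain ⟨A, T, hA, -⟩ := phi_NS H h2 h1 hM Finset.univ hq
  have hx2 : φ q * blk D.b (dd u) * levO l = 1 := by
    rw [← hM, ← h1, ← map_mul, ← map_mul]
    exact hx
  have key : ∀ k i : Fin m, (if k = D.b then (u : F) ^ 2 else 1) * l.1 k i = (1 : Matrix _ _ F) k i := by
    intro k i
    rw [← e_block hA u l D.b i k, hx2]
    simp [eO, Matrix.one_apply, Pi.single_apply, eq_comm]
  have hB : Matrix.diagonal (fun k => if k = D.b then (u : F) ^ 2 else 1) * l.1 = 1 := by
    ext k i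
    rw [Matrix.diagonal_mul]
    exact key k i
  have hu2 : (u : F) ^ 2 = 1 := by
    have h3 := congrArg Matrix.det hB
    rw [Matrix.det_mul, Matrix.det_one, Matrix.det_diagonal, l.2, mul_one] at h3
    simpa using h3
  have hl : l = 1 := by
    apply Subtype.ext
    ext k i
    have h3 := key k i
    simp only [hu2, ite_self, one_mul] at h3
    exact h3
  subst hl
  have hdd : D.M (dd u) = 1 := by
    have h3 : (u : F) = 1 ∨ (u : F) = -1 := mul_self_eq_one_iff.mp (by rw [← pow_two, hu2])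
    rcases h3 with h3 | h3
    · have : u = 1 := Units.ext h3
      rw [this, dd_one, map_one]
    · have : u = -1 := Units.ext (by rw [h3]; simp)
      rw [this]
      exact H.neg
  rw [hdd, map_one, mul_one, mul_one] at hx ⊢
  rw [hx] at hA
  obtain ⟨rfl, rfl⟩ := IsUp.unique h2 hA (isUp_one (m := m) (F := F))
  rw [← hx] at hA
  have hq2 := NS_Z H h2 h1 hM Finset.univ hq hA
  exact NS_empty_inj H h2 h1 hM hq2 hx

end Cfsg.Agent.Lib.OddStem
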