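import Cfsg.Agent.Lib.OddStem.Rel
import Cfsg.Agent.Lib.OddStem.Inj
import Cfsg.Agent.Lib.Schur.SLnStem2

/-!
# The stem bound (module B)

Copy of `om_stem_bound` in `OmStem/Bound.lean`: `D` from `exists_theta_data`, `bhyp0_of_lift`. `z = D.M (dd (-1))`, `π z = blk b (dd (-1)) = 1` (`blk_neg`), `z ∈ center`, `z * z = 1` (`dd (-1)` squares to `1`).
`S = closure (range lam ∪ range M)`, `Q = S ⧸ zpowers z`, `D' = ` the data in `Q` (`lamQ`, `MQ`), `BHyp D'`: `BHyp0` by mapping (first restrict to `S`: equalities in `S` by `Subtype.ext`), `neg`: the image of `z` is `1`.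
`φ : Q → GL` induced by `π`, `BHyp.injectiveO`. `π(S) = Ω`: `closure_lev_blk`. `commutator Γ ≤ S` (`SLnStem.commutator_le_range_of_central`). So `ker σ ≤ S`, `ker σ = zpowers z`.
-/

set_option autoImplicit false

namespace Cfsg.Agent.Lib.OddStem

open Matrix Cfsg Subgroup Cfsg.Agent.Lib.PresOm Cfsg.Agent.Lib.PresSp.M2 Cfsg.Agent.Lib.PresSp.Mono
  Cfsg.Agent.Lib.PresSLn.TwoGen

universe u

/-- The relations pull back along an injective homomorphism. -/
lemma BHyp0.of_injective {ι : Type*} [Fintype ι] [DecidableEq ι] {F : Type*} [Field F] {Γ Γ' : Type*} [Group Γ]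
    [Group Γ'] {D : BData ι F Γ'} (f : Γ' →* Γ) (hf : Function.Injective f) (H : BHyp0 (D.map f)) : BHyp0 D := by
  have hc : ∀ {x y : Γ'}, Commute (f x) (f y) → Commute x y := fun {x y} h => hf (by
    rw [map_mul, map_mul]
    exact h)
  refine { theta := ?_, tw := ?_, twist := ?_, comm_YT := ?_, comm_ZT := ?_, act := ?_, alt := ?_ }
  · intro l h1 h2 g
    exact hc (H.theta l h1 h2 g)
  · intro ζ g
    apply hf
    have := H.tw ζ g
    simp only [map_mul, map_inv]
    exact this
  · intro i j h g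
    have := H.twist h g
    rw [D.map_rr, D.map_Mf, D.map_Mf, ← map_inv, ← map_mul, ← map_mul] at this
    exact hf this
  · intro k j h z y
    have := H.comm_YT h z y
    rw [D.map_Y, D.map_T] at this
    exact hc this
  · intro k j h x y
    have := H.comm_ZT h x y
    rw [D.map_Z, D.map_T] at this
    exact hc this
  · intro k j h g x z y
    have := H.act h g x z y
    rw [D.map_Mf, D.map_Ek, D.map_Ek, ← map_inv, ← map_mul, ← map_mul] at this
    exact hf this
  · intro k j h c
    have := H.alt h c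
    rw [D.map_Z, D.map_Z] at this
    exact hf this

variable {m : ℕ} {F : Type u} [Field F] [Fintype F]

/-- The kernel of a stem extension of `Ω_{2m+1}(F)` has order at most two. -/
theorem odd_stem_bound {Γ : Type u} [Group Γ] [Finite Γ] (hm : 3 ≤ m) (h2 : (2 : F) ≠ 0)
    (hexc : ¬ (m = 3 ∧ Fintype.card F = 3)) {σ : Γ →* Omega F (quadFormOdd m F)} (hσ : IsStemExtension σ) :
    ∃ z : Γ, z * z = 1 ∧ σ.ker = zpowers z := by
  classical
  obtain ⟨hsurj, hcen, hcomm⟩ := hσ
  obtain ⟨D, Hθ, hl, hM⟩ := exists_theta_data hm h2 hexc hsurj hcen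
  set π := (iOm : Omega F (quadFormOdd m F) →* _).comp σ with hπ
  have hπ1 : ∀ x, π x = 1 ↔ σ x = 1 := by
    intro x
    constructor
    · intro h
      exact iOm_inj (by simpa [hπ] using h)
    · intro h
      simp [hπ, h]
  have hcenπ : π.ker ≤ center Γ := fun x hx => hcen ((hπ1 x).1 hx)
  have H0 : BHyp0 D := bhyp0_of_lift hm h2 hcenπ Hθ hl hM
  set z : Γ := D.M (dd (-1)) with hzdef
  have hπz : π z = 1 := by
    have := hM (dd (-1))
    rw [hzdef]
    exact this.trans (blk_neg D.b)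
  have hzc : z ∈ center Γ := hcenπ hπz
  have hzz : z * z = 1 := by
    rw [hzdef, ← map_mul]
    have : (dd (-1 : Fˣ) : M2 F) * dd (-1) = 1 := by
      rw [← dd_mul, neg_mul_neg, one_mul, dd_one]
    rw [this, map_one]
  refine ⟨z, hzz, ?_⟩
  set S : Subgroup Γ := closure (Set.range D.lam ∪ Set.range D.M) with hS
  have hlS : ∀ l, D.lam l ∈ S := fun l => subset_closure (Or.inl ⟨l, rfl⟩)
  have hMS : ∀ g, D.M g ∈ S := fun g => subset_closure (Or.inr ⟨g, rfl⟩)
  have hzS : z ∈ S := hMS _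
  have hN : (zpowers z).Normal := by
    refine ⟨fun x hx g => ?_⟩
    have hxc : x ∈ center Γ := by
      have : zpowers z ≤ center Γ := by rw [zpowers_le]; exact hzc
      exact this hx
    rw [mem_center_iff.1 hxc g]
    simpa using hx
  let ZS : Subgroup S := (zpowers z).subgroupOf S
  have hZS : ZS.Normal := hN.subgroupOf S
  let Q := S ⧸ ZS
  let mk : S →* Q := QuotientGroup.mk' ZS
  let DS : BData (Fin m) F S := ⟨D.lam.codRestrict S hlS, D.M.codRestrict S hMS, D.a, D.b, D.hab⟩
  have hDS : DS.map S.subtype = D := rfl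
  have HS : BHyp0 DS := BHyp0.of_injective S.subtype Subtype.val_injective (by rw [hDS]; exact H0)
  let DQ : BData (Fin m) F Q := DS.map mk
  have HQ : BHyp DQ :=
    { HS.map mk with
      neg := by
        change mk ⟨z, hzS⟩ = 1
        rw [QuotientGroup.mk'_apply, QuotientGroup.eq_one_iff]
        exact Subgroup.mem_subgroupOf.2 (mem_zpowers z) }
  -- the map to the target
  have hker : ∀ x ∈ ZS, (π.comp S.subtype) x = 1 := by
    intro x hx
    have hx' : (x : Γ) ∈ zpowers z := Subgroup.mem_subgroupOf.1 hx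
    obtain ⟨n, hn⟩ := mem_zpowers_iff.1 hx'
    change π (x : Γ) = 1
    rw [← hn, map_zpow, hπz, _root_.one_zpow]
  let φ : Q →* GeneralLinearGroup (VO m) F := QuotientGroup.lift ZS (π.comp S.subtype) hker
  have hφ : ∀ x : S, φ (mk x) = π x := fun x => rfl
  have hφ1 : ∀ l, φ (DQ.lam l) = levO l := fun l => hl l
  have hφ2 : ∀ g, φ (DQ.M g) = blk DQ.b g := fun g => hM g
  have hgen : closure (Set.range DQ.lam ∪ Set.range DQ.M) = ⊤ := by
    rw [eq_top_iff]
    rintro q -
    obtain ⟨x, rfl⟩ := QuotientGroup.mk'_surjective ZS q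
    change mk x ∈ _
    obtain ⟨x, hx⟩ := x
    refine closure_induction (p := fun y hy => mk ⟨y, hy⟩ ∈ closure (Set.range DQ.lam ∪ Set.range DQ.M)) ?_ ?_ ?_ ?_ hx
    · rintro y (⟨l, rfl⟩ | ⟨g, rfl⟩)
      · exact subset_closure (Or.inl ⟨l, rfl⟩)
      · exact subset_closure (Or.inr ⟨g, rfl⟩)
    · exact one_mem _
    · intro y y' hy hy' h1 h2
      exact mul_mem h1 h2
    · intro y hy h1
      exact inv_mem h1
  have hinj := BHyp.injectiveO HQ h2 φ hφ1 hφ2 hgen
  -- `S` covers `Ω`
  have hmap : ∀ g : Γ, ∃ q : S, σ (S.subtype q) = σ g := by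
    intro g
    have h1 : iOm (σ g) ∈ closure (Set.range (levO : SpecialLinearGroup (Fin m) F →* _) ∪ Set.range (blk D.b)) := by
      rw [closure_lev_blk hm h2 D.b, ← iOm_range]
      exact ⟨_, rfl⟩
    have h3 : closure (Set.range (levO : SpecialLinearGroup (Fin m) F →* _) ∪ Set.range (blk D.b)) ≤ S.map π := by
      rw [closure_le]
      rintro _ (⟨l, rfl⟩ | ⟨g', rfl⟩)
      · exact ⟨D.lam l, hlS l, hl l⟩
      · exact ⟨D.M g', hMS g', hM g'⟩
    obtain ⟨y, hy, hy2⟩ := h3 h1
    exact ⟨⟨y, hy⟩, iOm_inj hy2⟩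
  have hcS : commutator Γ ≤ S.subtype.range :=
    Cfsg.Agent.Lib.Schur.SLnStem.commutator_le_range_of_central hcen S.subtype hmap
  apply le_antisymm
  · intro x hx
    have hx2 : x ∈ S.subtype.range := hcS (hcomm hx)
    obtain ⟨y, rfl⟩ := hx2
    have h1 : φ (mk y) = 1 := by
      rw [hφ]
      exact (hπ1 _).2 hx
    have h3 := hinj (h1.trans (map_one φ).symm)
    rw [QuotientGroup.mk'_apply, QuotientGroup.eq_one_iff] at h3
    exact Subgroup.mem_subgroupOf.1 h3
  · rw [zpowers_le]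
    exact (hπ1 z).1 hπz

end Cfsg.Agent.Lib.OddStem
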