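import Cfsg.Agent.Lib.OddStem.Klein
import Cfsg.Agent.Lib.LocalBal.OmMain

/-!
# Commutator subgroups of the preimages of `Ω⁺_{2n}`

For an injective `ψ : Ω⁺_{2n}(q) → G`, `n ≥ 3`, `q` odd, and a central extension `σ : Γ → G`: the kernel of `σ` meets the commutator
subgroup of the preimage of the image of `ψ` in a subgroup of order at most two.
-/

set_option autoImplicit false

namespace Cfsg.Agent.Lib.OddStem

open Cfsg Subgroup

open scoped commutatorElement

universe u

variable {F : Type u} [Field F] [Fintype F]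

theorem two_ne_of_odd {q : ℕ} (hF : Fintype.card F = q) (hq : Odd q) : (2 : F) ≠ 0 := by
  rw [Ne, Cfsg.Agent.Lib.Classical.SympSimple.two_eq_zero_iff_even_card, Nat.not_even_iff_odd, hF]
  exact hq

/-- `Ω⁺_{2n}(q)` is perfect. -/
theorem plus_perfect {q : ℕ} (hF : Fintype.card F = q) (hq : Odd q) {n : ℕ} (hn : 3 ≤ n) :
    commutator (Omega F (quadFormPlus n F)) = ⊤ := by
  rcases Nat.lt_or_ge n 4 with h | h
  · obtain rfl : n = 3 := by omega
    exact plus3_perfect hF hq
  · exact Cfsg.Agent.Lib.LocalBal.OmMain.perfect_omega (F := F) (ι := Fin n ⊕ Fin n)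
      (Q := Cfsg.Agent.Lib.Orth.Forms.plusForm n F) (Cfsg.Agent.Lib.Orth.Forms.plusForm_nondeg n)
      (by simp; omega)

/-- Stem extensions of `Ω⁺_{2n}(q)`, `n ≥ 3`, `q` odd. -/
theorem plus_bound {q : ℕ} (hF : Fintype.card F = q) (hq : Odd q) {n : ℕ} (hn : 3 ≤ n)
    {Γ : Type u} [Group Γ] [Finite Γ] {σ : Γ →* Omega F (quadFormPlus n F)} (hσ : IsStemExtension σ) :
    ∃ z : Γ, z * z = 1 ∧ σ.ker = zpowers z := by
  rcases Nat.lt_or_ge n 4 with h | h
  · obtain rfl : n = 3 := by omega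
    exact plus3_bound hF hq hσ
  · obtain ⟨z, h1, h2, -⟩ := Cfsg.Agent.Lib.OmStem.om_stem_bound (F := F) h (by
      rintro ⟨-, hc⟩
      rw [hF] at hc
      subst hc
      exact absurd hq (by decide)) hσ
    exact ⟨z, h1, h2⟩

private lemma eq_of_mem_zpowers' {G : Type*} [Group G] {w x : G} (hw : w * w = 1) (hx : x ∈ zpowers w) :
    x = 1 ∨ x = w := by
  obtain ⟨k, rfl⟩ := hx
  have h2 : w ^ (2 : ℤ) = 1 := by
    rw [zpow_two, hw]
  have hk : k = 2 * (k / 2) + k % 2 := (Int.mul_ediv_add_emod k 2).symm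
  change w ^ k = 1 ∨ w ^ k = w
  rcases Int.emod_two_eq_zero_or_one k with h | h
  · left
    rw [hk, h, _root_.zpow_add, _root_.zpow_mul, h2]; simp
  · right
    rw [hk, h, _root_.zpow_add, _root_.zpow_mul, h2]; simp

/-- The preimage of a perfect subgroup `range ψ`: its commutator subgroup `D` maps onto `range ψ`, and is perfect. -/
theorem map_cmm_comap {G : Type*} [Group G] {K : Type*} [Group K] {Γ : Type*} [Group Γ] {σ : Γ →* G}
    (hs : Function.Surjective σ) (ψ : K →* G) (hK : commutator K = ⊤) :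
    (cmm (ψ.range.comap σ)).map σ = ψ.range := by
  rw [cmm, Subgroup.map_commutator, Subgroup.map_comap_eq_self_of_surjective hs]
  have h2 : (commutator K).map ψ = ⁅ψ.range, ψ.range⁆ := by
    rw [commutator_def, Subgroup.map_commutator, ← MonoidHom.range_eq_map]
  rw [← h2, hK, ← MonoidHom.range_eq_map]

theorem cmm_cmm_comap {G : Type*} [Group G] {K : Type*} [Group K] {Γ : Type*} [Group Γ] {σ : Γ →* G}
    (hs : Function.Surjective σ) (hc : σ.ker ≤ center Γ) (ψ : K →* G) (hK : commutator K = ⊤) :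
    cmm (cmm (ψ.range.comap σ)) = cmm (ψ.range.comap σ) := by
  set Kh := ψ.range.comap σ with hKh
  apply le_antisymm
  · have h : cmm Kh ≤ Kh := by
      rw [Subgroup.commutator_le]
      intro x hx y hy
      exact Kh.mul_mem (Kh.mul_mem (Kh.mul_mem hx hy) (Kh.inv_mem hx)) (Kh.inv_mem hy)
    exact Subgroup.commutator_mono h h
  · rw [Subgroup.commutator_le]
    intro x hx y hy
    have hm := map_cmm_comap hs ψ hK
    have hx' : σ x ∈ (cmm Kh).map σ := by rw [← hKh] at hm; rw [hm]; exact hx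
    have hy' : σ y ∈ (cmm Kh).map σ := by rw [← hKh] at hm; rw [hm]; exact hy
    obtain ⟨d, hd, hdx⟩ := hx'
    obtain ⟨d', hd', hdy⟩ := hy'
    have h1 : d⁻¹ * x ∈ center Γ := hc (by simp [MonoidHom.mem_ker, hdx])
    have h2 : d'⁻¹ * y ∈ center Γ := hc (by simp [MonoidHom.mem_ker, hdy])
    have e : ⁅x, y⁆ = ⁅d, d'⁆ := by
      have ex : x = d * (d⁻¹ * x) := by group
      have ey : y = d' * (d'⁻¹ * y) := by group
      rw [ex, ey, Cfsg.Agent.Lib.Schur.SLnStem.comm_central_left (fun g => (mem_center_iff.1 h1 g).symm),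
        Cfsg.Agent.Lib.Schur.SLnStem.comm_central_right (fun g => (mem_center_iff.1 h2 g).symm)]
    rw [e]
    exact Subgroup.commutator_mem_commutator hd hd'

/-- A central extension of a group containing `Ω⁺_{2n}(q)`: the kernel meets the commutator subgroup of the preimage in at most two elements. -/
theorem plus_ker {q : ℕ} (hF : Fintype.card F = q) (hq : Odd q) {n : ℕ} (hn : 3 ≤ n)
    {G : Type*} [Group G] {Γ : Type u} [Group Γ] [Finite Γ] {σ : Γ →* G} (hs : Function.Surjective σ)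
    (hc : σ.ker ≤ center Γ) (ψ : Omega F (quadFormPlus n F) →* G) (hψ : Function.Injective ψ) :
    ∃ z : Γ, z * z = 1 ∧ ∀ a, σ a = 1 → a ∈ cmm (ψ.range.comap σ) → a = 1 ∨ a = z := by
  classical
  have hK := plus_perfect hF hq hn
  set D := cmm (ψ.range.comap σ) with hD
  have hm : D.map σ = ψ.range := map_cmm_comap hs ψ hK
  have hDD : cmm D = D := cmm_cmm_comap hs hc ψ hK
  let e := MonoidHom.ofInjective hψ
  have hin : ∀ d : D, σ d.1 ∈ ψ.range := fun d => by
    rw [← hm]; exact ⟨d.1, d.2, rfl⟩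
  let τ : D →* Omega F (quadFormPlus n F) :=
    e.symm.toMonoidHom.comp ((σ.comp D.subtype).codRestrict ψ.range hin)
  have hτ : ∀ d : D, ψ (τ d) = σ d.1 := by
    intro d
    have h1 : e (τ d) = ⟨σ d.1, hin d⟩ := e.apply_symm_apply _
    exact congrArg Subtype.val h1
  have hτ1 : ∀ d : D, τ d = 1 ↔ σ d.1 = 1 := by
    intro d
    constructor
    · intro h
      rw [← hτ, h, map_one]
    · intro h
      apply hψ
      rw [hτ, h, map_one]
  have hst : IsStemExtension τ := by
    refine ⟨?_, ?_, ?_⟩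
    · intro g
      have h1 : ψ g ∈ D.map σ := by rw [hm]; exact ⟨g, rfl⟩
      obtain ⟨d, hd, hdg⟩ := h1
      refine ⟨⟨d, hd⟩, hψ ?_⟩
      rw [hτ]; exact hdg
    · intro d hd
      rw [mem_center_iff]
      intro y
      apply Subtype.ext
      have h1 : d.1 ∈ center Γ := hc ((hτ1 d).1 hd)
      exact (mem_center_iff.1 h1 y.1)
    · intro d _
      have h1 : d.1 ∈ cmm D := by rw [hDD]; exact d.2
      have h2 : (commutator D).map D.subtype = cmm D := Subgroup.map_subtype_commutator _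
      rw [← h2] at h1
      obtain ⟨x, hx, hxd⟩ := h1
      have : x = d := Subtype.ext hxd
      rwa [← this]
  obtain ⟨z, hz, hker⟩ := plus_bound hF hq hn hst
  refine ⟨z.1, congrArg Subtype.val hz, ?_⟩
  intro a ha haD
  have h1 : (⟨a, haD⟩ : D) ∈ τ.ker := (hτ1 _).2 ha
  rw [hker] at h1
  rcases eq_of_mem_zpowers' hz h1 with h | h
  · left; exact congrArg Subtype.val h
  · right; exact congrArg Subtype.val h

end Cfsg.Agent.Lib.OddStem
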