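import Cfsg.Agent.Lib.OddStem.Lower
import Cfsg.Agent.Lib.OddStem.PlusBound
import Cfsg.Agent.Lib.Classical.QuadOrders


/-!
# S2094 module CaseA

2-part when q^m ≡ 1 (4), and odd r ∤ q(q^m+1): the subgroup Ω⁺_{2m}, resp. Ω⁺_{2m}.2.
-/

set_option autoImplicit false
set_option linter.unusedSectionVars false

namespace Cfsg.Agent.Lib.OddStem

open Cfsg Subgroup Matrix QuadraticMap
open Cfsg.Agent.Lib.Orth.Bridge Cfsg.Agent.Lib.Orth.Forms Cfsg.Agent.Lib.Orth.Closure Cfsg.Agent.Lib.Orth.Refl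

universe u

namespace CaseA

section abstract

variable {G : Type*} [Group G]

/-- The subgroup `K ∪ K ρ`. -/
theorem exists_index_two [Finite G] {K : Subgroup G} {ρ : G} (h1 : ρ ∉ K) (h2 : ρ * ρ ∈ K)
    (hn : ∀ k ∈ K, ρ * k * ρ⁻¹ ∈ K) :
    ∃ H : Subgroup G, K ≤ H ∧ K.relIndex H = 2 ∧ (∀ h ∈ H, h ∈ K ∨ h * ρ⁻¹ ∈ K) ∧ ρ ∈ H := by
  let H : Subgroup G :=
    { carrier := {g | g ∈ K ∨ g * ρ⁻¹ ∈ K}
      one_mem' := Or.inl K.one_mem
      mul_mem' := by
        rintro a b (ha | ha) (hb | hb)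
        · exact Or.inl (K.mul_mem ha hb)
        · right
          have e : a * b * ρ⁻¹ = a * (b * ρ⁻¹) := by group
          rw [e]
          exact K.mul_mem ha hb
        · right
          have e : a * b * ρ⁻¹ = (a * ρ⁻¹) * (ρ * b * ρ⁻¹) := by group
          rw [e]
          exact K.mul_mem ha (hn b hb)
        · left
          have e : a * b = (a * ρ⁻¹) * (ρ * (b * ρ⁻¹) * ρ⁻¹) * (ρ * ρ) := by group
          rw [e]
          exact K.mul_mem (K.mul_mem ha (hn _ hb)) h2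
      inv_mem' := by
        rintro a (ha | ha)
        · exact Or.inl (K.inv_mem ha)
        · right
          have e : a⁻¹ * ρ⁻¹ = (ρ * (a * ρ⁻¹) * ρ⁻¹ * (ρ * ρ))⁻¹ := by group
          rw [e]
          exact K.inv_mem (K.mul_mem (hn _ ha) h2) }
  have hmem : ∀ g, g ∈ H ↔ g ∈ K ∨ g * ρ⁻¹ ∈ K := fun g => Iff.rfl
  have hKH : K ≤ H := fun k hk => Or.inl hk
  have hρ : ρ ∈ H := Or.inr (by simp [K.one_mem])
  refine ⟨H, hKH, ?_, fun h hh => hh, hρ⟩
  rw [Subgroup.relIndex, Subgroup.index_eq_two_iff]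
  refine ⟨⟨ρ, hρ⟩, ?_⟩
  rintro ⟨b, hb⟩
  simp only [Subgroup.mem_subgroupOf, Subgroup.coe_mul]
  by_cases hbK : b ∈ K
  · right
    refine ⟨hbK, fun h => h1 ?_⟩
    have e : ρ = b⁻¹ * (b * ρ) := by group
    rw [e]
    exact K.mul_mem (K.inv_mem hbK) h
  · left
    refine ⟨?_, hbK⟩
    rcases hb with hb | hb
    · exact absurd hb hbK
    · have e : b * ρ = (b * ρ⁻¹) * (ρ * ρ) := by group
      rw [e]
      exact K.mul_mem hb h2

/-- The commutator subgroup of the preimage does not grow under index two. -/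
theorem cmm_le_of_two {Γ : Type*} [Group Γ] (σ : Γ →* G) (hs : Function.Surjective σ)
    (hcen : σ.ker ≤ center Γ) {K H : Subgroup G} (hperf : ⁅K, K⁆ = K) {ρ : G} (hρH : ρ ∈ H)
    (hKH : K ≤ H) (hn : ∀ k ∈ K, ρ * k * ρ⁻¹ ∈ K) (hH : ∀ h ∈ H, h ∈ K ∨ h * ρ⁻¹ ∈ K) :
    cmm (H.comap σ) ≤ cmm (K.comap σ) := by
  set Kh := K.comap σ with hKh
  set Hh := H.comap σ with hHh
  obtain ⟨rh, hrh⟩ := hs ρ
  have hcen' : ∀ a, σ a = 1 → ∀ w : Γ, a * w = w * a := by
    intro a ha w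
    have h1 : a ∈ center Γ := hcen ha
    exact (Subgroup.mem_center_iff.mp h1 w).symm
  -- Step 1
  have hstep1 : ∀ x ∈ Kh, ∃ y ∈ cmm Kh, ∃ a, σ a = 1 ∧ x = y * a := by
    intro x hx
    have h1 : σ x ∈ K := hx
    have h2 : (cmm Kh).map σ = K := by
      have h3 : Kh.map σ = K := Subgroup.map_comap_eq_self_of_surjective hs K
      rw [cmm, Subgroup.map_commutator, h3, hperf]
    rw [← h2] at h1
    obtain ⟨y, hy, e⟩ := h1
    refine ⟨y, hy, y⁻¹ * x, ?_, by group⟩
    rw [map_mul, map_inv, e]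
    group
  -- Step 3
  have hconj : ∀ u ∈ Hh, ∀ x ∈ Kh, u * x * u⁻¹ ∈ Kh := by
    intro u hu x hx
    have hx' : σ x ∈ K := hx
    show σ (u * x * u⁻¹) ∈ K
    rw [map_mul, map_mul, map_inv]
    rcases hH (σ u) hu with h1 | h1
    · exact K.mul_mem (K.mul_mem h1 hx') (K.inv_mem h1)
    · have e : σ u * σ x * (σ u)⁻¹ = (σ u * ρ⁻¹) * (ρ * σ x * ρ⁻¹) * (σ u * ρ⁻¹)⁻¹ := by group
      rw [e]
      exact K.mul_mem (K.mul_mem h1 (hn _ hx')) (K.inv_mem h1)
  have hconj2 : ∀ u ∈ Hh, ∀ y ∈ cmm Kh, u * y * u⁻¹ ∈ cmm Kh := by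
    intro u hu y hy
    have h1 : (cmm Kh).map (MulAut.conj u).toMonoidHom ≤ cmm Kh := by
      rw [cmm, Subgroup.map_commutator]
      have h2 : Kh.map (MulAut.conj u).toMonoidHom ≤ Kh := by
        rintro _ ⟨x, hx, rfl⟩
        exact hconj u hu x hx
      exact Subgroup.commutator_mono h2 h2
    exact h1 ⟨y, hy, rfl⟩
  have hrhH : rh ∈ Hh := by
    show σ rh ∈ H
    rw [hrh]
    exact hρH
  -- Step 2
  have hstep2 : ∀ h ∈ Hh, ∃ y ∈ cmm Kh, ∃ a, σ a = 1 ∧ (h = y * a ∨ h = y * (a * rh)) := by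
    intro h hh
    rcases hH (σ h) hh with h1 | h1
    · obtain ⟨y, hy, a, ha, e⟩ := hstep1 h h1
      exact ⟨y, hy, a, ha, Or.inl e⟩
    · have h2 : h * rh⁻¹ ∈ Kh := by
        show σ (h * rh⁻¹) ∈ K
        rw [map_mul, map_inv, hrh]
        exact h1
      obtain ⟨y, hy, a, ha, e⟩ := hstep1 _ h2
      refine ⟨y, hy, a, ha, Or.inr ?_⟩
      calc h = (h * rh⁻¹) * rh := by group
        _ = y * (a * rh) := by rw [e]; group
  -- Step 4
  have hmemA : ∀ a, σ a = 1 → a ∈ Hh := by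
    intro a ha
    show σ a ∈ H
    rw [ha]
    exact H.one_mem
  have key : ∀ y ∈ cmm Kh, ∀ y' ∈ cmm Kh, ∀ b ∈ Hh, ∀ b' ∈ Hh, b * b' = b' * b →
      (y * b) * (y' * b') * (y * b)⁻¹ * (y' * b')⁻¹ ∈ cmm Kh := by
    intro y hy y' hy' b hb b' hb' hbb
    have hb1 : b * b' * b⁻¹ = b' := by rw [hbb]; group
    have e : (y * b) * (y' * b') * (y * b)⁻¹ * (y' * b')⁻¹ =
        y * (b * y' * b⁻¹) * (b' * y⁻¹ * b'⁻¹) * y'⁻¹ := by
      calc (y * b) * (y' * b') * (y * b)⁻¹ * (y' * b')⁻¹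
          = y * (b * y' * b⁻¹) * (b * b' * b⁻¹) * y⁻¹ * b'⁻¹ * y'⁻¹ := by group
        _ = y * (b * y' * b⁻¹) * b' * y⁻¹ * b'⁻¹ * y'⁻¹ := by rw [hb1]
        _ = _ := by group
    rw [e]
    exact (cmm Kh).mul_mem ((cmm Kh).mul_mem ((cmm Kh).mul_mem hy (hconj2 b hb y' hy'))
      (hconj2 b' hb' _ ((cmm Kh).inv_mem hy))) ((cmm Kh).inv_mem hy')
  rw [cmm, Subgroup.commutator_le]
  intro h hh h' hh'
  rw [commutatorElement_def]
  obtain ⟨y, hy, a, ha, hf⟩ := hstep2 h hh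
  obtain ⟨y', hy', a', ha', hf'⟩ := hstep2 h' hh'
  rcases hf with rfl | rfl <;> rcases hf' with rfl | rfl
  · exact key y hy y' hy' a (hmemA a ha) a' (hmemA a' ha') (hcen' a ha a')
  · exact key y hy y' hy' a (hmemA a ha) (a' * rh) (Hh.mul_mem (hmemA a' ha') hrhH) (hcen' a ha _)
  · exact key y hy y' hy' (a * rh) (Hh.mul_mem (hmemA a ha) hrhH) a' (hmemA a' ha') (hcen' a' ha' _).symm
  · refine key y hy y' hy' (a * rh) (Hh.mul_mem (hmemA a ha) hrhH) (a' * rh)
      (Hh.mul_mem (hmemA a' ha') hrhH) ?_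
    calc a * rh * (a' * rh) = a * (rh * a') * rh := by group
      _ = a * (a' * rh) * rh := by rw [hcen' a' ha' rh]
      _ = (a' * rh) * (a * rh) := by
        rw [hcen' a ha (a' * rh)]
        group

end abstract

section embed

variable {F : Type u} [Field F]

/-- The embedding of `Hᵐ` in the odd form. -/
noncomputable def plusEmb (m : ℕ) (F : Type u) [Field F] : IsoEmb (quadFormPlus m F) (quadFormOdd m F) where
  J :=
    { toFun := fun x => Sum.elim (fun _ => 0) x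
      map_add' := by
        intro x y
        ext (_ | i) <;> simp
      map_smul' := by
        intro c x
        ext (_ | i) <;> simp }
  P := LinearMap.funLeft F F Sum.inr
  PJ := by
    intro x
    rfl
  split := by
    intro x v
    simp [quadFormOdd, quadFormPlus, LinearMap.funLeft]
    ring

end embed

section concrete

variable {F : Type u} [Field F]

/-- `x₀`. -/
def xz (m : ℕ) (F : Type u) [Field F] : Unit ⊕ (Fin m ⊕ Fin m) → F :=
  Sum.elim (fun _ => 1) (fun _ => 0)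

theorem Q_xz (m : ℕ) : quadFormOdd m F (xz m F) = 1 := by
  simp [quadFormOdd, xz]

theorem P_xz (m : ℕ) : (plusEmb m F).P (xz m F) = 0 := by
  ext i
  rfl

/-- `e₁ + f₁`. -/
def uu {m : ℕ} (hm : 0 < m) (F : Type u) [Field F] : Fin m ⊕ Fin m → F :=
  Sum.elim (fun j => if j = ⟨0, hm⟩ then 1 else 0) (fun j => if j = ⟨0, hm⟩ then 1 else 0)

theorem Q_uu {m : ℕ} (hm : 0 < m) : quadFormPlus m F (uu hm F) = 1 := by
  simp [quadFormPlus, uu]

/-- The reflection in `x₀`. -/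
noncomputable def SS (m : ℕ) (F : Type u) [Field F] [Fintype F] :
    isometryGroup F (quadFormOdd m F) :=
  reflEl (oddForm m F) (xz m F)

variable [Fintype F]

theorem SS_mulVec (m : ℕ) (w : Unit ⊕ (Fin m ⊕ Fin m) → F) :
    (((SS m F).1 : GeneralLinearGroup _ F) : Matrix _ _ F) *ᵥ w = w - (2 * w (Sum.inl ())) • xz m F := by
  have h1 : (((SS m F).1 : GeneralLinearGroup _ F) : Matrix _ _ F) =
      reflectionMatrix (⇑(oddForm m F)) (xz m F) := reflEl_val _ _
  rw [h1, reflectionMatrix_mulVec_eq, refl_apply]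
  have h2 : (oddForm m F) (xz m F) = 1 := Q_xz m
  have h3 : polar (⇑(oddForm m F)) w (xz m F) = 2 * w (Sum.inl ()) := by
    show quadFormOdd m F (w + xz m F) - quadFormOdd m F w - quadFormOdd m F (xz m F) = _
    rw [Q_xz]
    simp [quadFormOdd, xz]
    ring
  rw [h2, h3, inv_one, one_mul]

theorem ext_coord (m : ℕ) (g : isometryGroup F (quadFormPlus m F)) (v : Unit ⊕ (Fin m ⊕ Fin m) → F) :
    ((((plusEmb m F).ext g).1 : GeneralLinearGroup _ F) : Matrix _ _ F) *ᵥ v =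
      v + (plusEmb m F).J ((g.1 : GeneralLinearGroup _ F).1 *ᵥ (plusEmb m F).P v - (plusEmb m F).P v) :=
  (plusEmb m F).ext_mulVec g v

theorem J_coord (m : ℕ) (x : Fin m ⊕ Fin m → F) : (plusEmb m F).J x (Sum.inl ()) = 0 := rfl

/-- `S` commutes with the image of `ext`. -/
theorem SS_comm (m : ℕ) (g : isometryGroup F (quadFormPlus m F)) :
    SS m F * (plusEmb m F).ext g = (plusEmb m F).ext g * SS m F := by
  apply Subtype.ext
  apply Units.ext
  apply Matrix.mulVec_injective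
  funext v
  show (((SS m F).1 : GeneralLinearGroup _ F).1 * (((plusEmb m F).ext g).1 : GeneralLinearGroup _ F).1) *ᵥ v =
    ((((plusEmb m F).ext g).1 : GeneralLinearGroup _ F).1 * ((SS m F).1 : GeneralLinearGroup _ F).1) *ᵥ v
  rw [← Matrix.mulVec_mulVec, ← Matrix.mulVec_mulVec, SS_mulVec, SS_mulVec, ext_coord, ext_coord]
  have h1 : (plusEmb m F).P (v - (2 * v (Sum.inl ())) • xz m F) = (plusEmb m F).P v := by
    rw [map_sub, map_smul, P_xz, smul_zero, sub_zero]
  rw [h1]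
  have h2 : (v + (plusEmb m F).J ((g.1 : GeneralLinearGroup _ F).1 *ᵥ (plusEmb m F).P v - (plusEmb m F).P v)) (Sum.inl ()) =
      v (Sum.inl ()) := by
    rw [Pi.add_apply, J_coord, add_zero]
  rw [h2]
  abel

theorem reflEl_mul_self {ι : Type} [Fintype ι] [DecidableEq ι] (Q : QuadraticForm F (ι → F)) (v : ι → F) :
    reflEl Q v * reflEl Q v = 1 := by
  apply (toIso Q).injective
  rw [map_mul, map_one, reflEl, MulEquiv.apply_symm_apply]
  exact Subtype.ext (refl_mul_self Q v)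

/-- The element `ρ`, as an isometry. -/
noncomputable def RR {m : ℕ} (hm : 0 < m) (F : Type u) [Field F] [Fintype F] : isometryGroup F (quadFormPlus m F) :=
  reflEl (plusForm m F) (uu hm F)

theorem rho_mem {m : ℕ} (hm : 0 < m) (h2 : (2 : F) ≠ 0) (hc : Fintype.card F ≠ 2) :
    (plusEmb m F).ext (RR hm F) * SS m F ∈ Omega F (quadFormOdd m F) := by
  have hQ' := oddForm_nondeg (F := F) m h2
  have e1 : (plusEmb m F).ext (RR hm F) = reflEl (oddForm m F) ((plusEmb m F).J (uu hm F)) :=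
    Cfsg.Agent.Lib.OddStem.LowerAux.ext_reflEl (plusForm m F) (oddForm m F) (plusEmb m F) (uu hm F)
  have hQu : quadFormOdd m F ((plusEmb m F).J (uu hm F)) = 1 := by
    have h0 : quadFormOdd m F 0 = 0 := by simp [quadFormOdd]
    rw [(plusEmb m F).Q_J h0, Q_uu]
  have hqu' : (oddForm m F) ((plusEmb m F).J (uu hm F)) = 1 := hQu
  have hqx' : (oddForm m F) (xz m F) = 1 := Q_xz m
  rw [e1]
  refine (word_mem_Omega_iff (oddForm m F) hQ' (Or.inl hc) _ [(plusEmb m F).J (uu hm F), xz m F] ?_ ?_).mpr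
    ⟨by simp, ?_⟩
  · intro v hv
    simp only [List.mem_cons, List.not_mem_nil, or_false] at hv
    rcases hv with rfl | rfl
    · rw [hqu']; exact one_ne_zero
    · rw [hqx']; exact one_ne_zero
  · simp only [List.map_cons, List.map_nil, List.prod_cons, List.prod_nil, mul_one]
    rw [← reflEl_val, ← reflEl_val]
    rfl
  · simp only [List.map_cons, List.map_nil, List.prod_cons, List.prod_nil, mul_one, hqu', hqx']
    exact ⟨1, by simp⟩

/-- The orders. -/
theorem card_GO_eq {q : ℕ} (hF : Fintype.card F = q) (h2 : (2 : F) ≠ 0) (m : ℕ) (hm : 3 ≤ m) :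
    Nat.card (Omega F (quadFormOdd m F)) =
      q ^ m * (q ^ m + 1) * Nat.card (Omega F (quadFormPlus m F)) := by
  have hq : Nat.card F = q := by rw [Nat.card_eq_fintype_card, hF]
  have hq0 : 0 < q := by rw [← hF]; exact Fintype.card_pos
  obtain ⟨k, rfl⟩ : ∃ k, m = k + 1 := ⟨m - 1, by omega⟩
  have hiO : (Omega F (quadFormOdd (k + 1) F)).index = 4 :=
    index_Omega_odd (oddForm (k + 1) F) h2 (by simp; omega) (oddForm_nondeg (k + 1) h2)
  have hiP : (Omega F (quadFormPlus (k + 1) F)).index = 4 :=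
    index_Omega_odd (plusForm (k + 1) F) h2 (by simp; omega) (plusForm_nondeg (k + 1))
  have hO := Subgroup.card_mul_index (Omega F (quadFormOdd (k + 1) F))
  have hP := Subgroup.card_mul_index (Omega F (quadFormPlus (k + 1) F))
  rw [hiO, Cfsg.Agent.Lib.Classical.QuadOrders.card_isometry_odd hq h2] at hO
  rw [hiP, Cfsg.Agent.Lib.Classical.QuadOrders.card_isometry_plus hq] at hP
  rw [Finset.prod_range_succ] at hO
  set T := ∏ i ∈ Finset.range k, (q ^ (2 * (i + 1)) - 1) with hT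
  set A := Nat.card (Omega F (quadFormOdd (k + 1) F)) with hA
  set B := Nat.card (Omega F (quadFormPlus (k + 1) F)) with hB
  set X := q ^ (k + 1) with hX
  have hX0 : 0 < X := pow_pos hq0 _
  obtain ⟨t, ht⟩ : ∃ t, X = t + 1 := ⟨X - 1, by omega⟩
  have e1 : q ^ (2 * (k + 1)) = X * X := by rw [hX, ← pow_add]; congr 1; ring
  have e2 : q ^ ((k + 1) ^ 2) = q ^ ((k + 1) * k) * X := by rw [hX, ← pow_add]; congr 1; ring
  have e3 : X * X - 1 = t * (t + 2) := by
    rw [ht]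
    have : (t + 1) * (t + 1) = t * (t + 2) + 1 := by ring
    rw [this]
    simp
  have e4 : X - 1 = t := by omega
  rw [e1, e2, e3] at hO
  rw [e4] at hP
  apply Nat.eq_of_mul_eq_mul_right (by norm_num : 0 < 4)
  rw [hO, mul_assoc (X * (X + 1)) B 4, hP, ht]
  ring

/-- The index. -/
theorem index_range {q : ℕ} (hF : Fintype.card F = q) (h2 : (2 : F) ≠ 0) (m : ℕ) (hm : 3 ≤ m) :
    ((plusEmb m F).extOm.range).index = q ^ m * (q ^ m + 1) := by
  have h1 := Subgroup.card_mul_index ((plusEmb m F).extOm.range)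
  have h3 : Nat.card ((plusEmb m F).extOm.range) = Nat.card (Omega F (quadFormPlus m F)) :=
    (Nat.card_congr (MonoidHom.ofInjective (plusEmb m F).extOm_injective).toEquiv).symm
  rw [h3, card_GO_eq hF h2 m hm] at h1
  have h4 : 0 < Nat.card (Omega F (quadFormPlus m F)) := Nat.card_pos
  apply Nat.eq_of_mul_eq_mul_left h4
  rw [h1]
  ring

end concrete

end CaseA

open CaseA

variable {F : Type u} [Field F] [Fintype F]

theorem caseA_two {q : ℕ} (hF : Fintype.card F = q) (hq : Odd q) (m : ℕ) (hm : 3 ≤ m) (h4 : q ^ m % 4 = 1)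
    {Γ : Type u} [Group Γ] [Finite Γ] {σ : Γ →* GO m F} (hσ : IsStemExtension σ)
    (hA : IsPGroup 2 σ.ker) : Nat.card σ.ker ∣ 2 := by
  haveI : Fact (Nat.Prime 2) := ⟨Nat.prime_two⟩
  have h2 : (2 : F) ≠ 0 := two_ne_of_odd hF hq
  have hm0 : 0 < m := by omega
  have hc : Fintype.card F ≠ 2 := by
    rw [hF]
    intro h
    subst h
    exact absurd hq (by decide)
  set E := plusEmb m F with hE
  set K : Subgroup (GO m F) := E.extOm.range with hK
  -- `ρ`
  set r := RR hm0 F with hr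
  let ρ : GO m F := ⟨E.ext r * SS m F, rho_mem hm0 h2 hc⟩
  have hρv : (ρ : isometryGroup F (quadFormOdd m F)) = E.ext r * SS m F := rfl
  -- `ρ² = 1`
  have hρρ : ρ * ρ = 1 := by
    apply Subtype.ext
    show (E.ext r * SS m F) * (E.ext r * SS m F) = 1
    have h3 : SS m F * E.ext r = E.ext r * SS m F := SS_comm m r
    calc (E.ext r * SS m F) * (E.ext r * SS m F) = E.ext r * (SS m F * E.ext r) * SS m F := by group
      _ = E.ext (r * r) * (SS m F * SS m F) := by rw [h3, map_mul]; group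
      _ = 1 := by
        have h5 : r * r = 1 := reflEl_mul_self _ _
        have h6 : SS m F * SS m F = 1 := reflEl_mul_self _ _
        rw [h5, h6, map_one, one_mul]
  have hρK : ρ ∉ K := by
    rintro ⟨ω, hω⟩
    have h5 : E.ext ω.1 = E.ext r * SS m F := congrArg Subtype.val hω
    have h6 : ((E.ext ω.1).1 : GeneralLinearGroup _ F).1 *ᵥ xz m F = xz m F :=
      E.ext_fix ω.1 (P_xz m)
    have h7 : ((E.ext r * SS m F).1 : GeneralLinearGroup _ F).1 *ᵥ xz m F = - xz m F := by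
      show (((E.ext r).1 : GeneralLinearGroup _ F).1 * ((SS m F).1 : GeneralLinearGroup _ F).1) *ᵥ xz m F = _
      rw [← Matrix.mulVec_mulVec, SS_mulVec]
      have h8 : xz m F (Sum.inl ()) = 1 := rfl
      have h9 : xz m F - (2 * xz m F (Sum.inl ())) • xz m F = - xz m F := by
        rw [h8, mul_one, two_smul]
        abel
      rw [h9, Matrix.mulVec_neg, E.ext_fix r (P_xz m)]
    rw [h5, h7] at h6
    have h10 := congrFun h6 (Sum.inl ())
    have h11 : xz m F (Sum.inl ()) = 1 := rfl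
    simp only [Pi.neg_apply, h11] at h10
    apply h2
    linear_combination -h10
  have hρn : ∀ k ∈ K, ρ * k * ρ⁻¹ ∈ K := by
    rintro _ ⟨ω, rfl⟩
    have hN : (Omega F (quadFormPlus m F)).Normal := inferInstance
    refine ⟨⟨r * ω.1 * r⁻¹, hN.conj_mem _ ω.2 r⟩, ?_⟩
    apply Subtype.ext
    show E.ext (r * ω.1 * r⁻¹) = (E.ext r * SS m F) * E.ext ω.1 * (E.ext r * SS m F)⁻¹
    have h3 : SS m F * E.ext ω.1 = E.ext ω.1 * SS m F := SS_comm m ω.1
    rw [map_mul, map_mul, map_inv]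
    calc E.ext r * E.ext ω.1 * (E.ext r)⁻¹
        = E.ext r * (E.ext ω.1 * SS m F) * (SS m F)⁻¹ * (E.ext r)⁻¹ := by group
      _ = E.ext r * (SS m F * E.ext ω.1) * (SS m F)⁻¹ * (E.ext r)⁻¹ := by rw [h3]
      _ = _ := by group
  have hρ2K : ρ * ρ ∈ K := by
    rw [hρρ]
    exact K.one_mem
  obtain ⟨H, hKH, hrel, hHf, hρH⟩ := exists_index_two hρK hρ2K hρn
  -- the index of `H` is odd
  have hidx : ¬ 2 ∣ H.index := by
    have h5 : K.index = 2 * H.index := by
      have := Subgroup.relIndex_mul_index hKH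
      rw [hrel] at this
      exact this.symm
    rw [hK, index_range hF h2 m hm] at h5
    intro hdvd
    obtain ⟨t, ht⟩ := hdvd
    rw [ht] at h5
    have h6 : q ^ m * (q ^ m + 1) = 4 * t := by rw [h5]; ring
    have h7 : q ^ m = 4 * (q ^ m / 4) + 1 := by omega
    generalize q ^ m / 4 = w at h7
    generalize q ^ m = X at h6 h7 h4
    subst h7
    have h8 : (4 * w + 1) * (4 * w + 1 + 1) = 4 * (w * (4 * w + 3)) + 2 := by ring
    omega
  have hperf : ⁅K, K⁆ = K := by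
    have h5 := plus_perfect hF hq hm
    have h6 : (commutator (Omega F (quadFormPlus m F))).map E.extOm = ⁅K, K⁆ := by
      rw [commutator_def, Subgroup.map_commutator, ← MonoidHom.range_eq_map]
    rw [← h6, h5, ← MonoidHom.range_eq_map]
  have hcmm := cmm_le_of_two σ hσ.1 hσ.2.1 hperf hρH hKH hρn hHf
  obtain ⟨z, hzz, hz⟩ := plus_ker hF hq hm hσ.1 hσ.2.1 E.extOm E.extOm_injective
  have hle : σ.ker ≤ zpowers z := by
    intro a ha
    have h5 := coprime_mem hσ hA H hidx ha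
    rcases hz a ha (hcmm h5) with rfl | rfl
    · exact (zpowers z).one_mem
    · exact mem_zpowers _
  have h5 := Subgroup.card_dvd_of_le hle
  rw [Nat.card_zpowers] at h5
  refine h5.trans (orderOf_dvd_of_pow_eq_one ?_)
  rw [pow_two, hzz]

theorem caseA_odd {q : ℕ} (hF : Fintype.card F = q) (hq : Odd q) (m : ℕ) (hm : 3 ≤ m)
    {Γ : Type u} [Group Γ] [Finite Γ] {σ : Γ →* GO m F} (hσ : IsStemExtension σ)
    {r : ℕ} [Fact r.Prime] (hr2 : r ≠ 2) (hrq : ¬ r ∣ q) (hrm : ¬ r ∣ q ^ m + 1) (hA : IsPGroup r σ.ker) (a : Γ) (ha : σ a = 1) :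
    a = 1 := by
  have hrp : r.Prime := Fact.out
  have h2 : (2 : F) ≠ 0 := two_ne_of_odd hF hq
  set E := plusEmb m F with hE
  have hidx : ¬ r ∣ (E.extOm.range).index := by
    rw [hE, index_range hF h2 m hm]
    intro h
    rcases (Nat.Prime.dvd_mul hrp).mp h with h1 | h1
    · exact hrq (hrp.dvd_of_dvd_pow h1)
    · exact hrm h1
  have h5 := coprime_mem hσ hA _ hidx ha
  obtain ⟨z, hzz, hz⟩ := plus_ker hF hq hm hσ.1 hσ.2.1 E.extOm E.extOm_injective
  rcases hz a ha h5 with h6 | h6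
  · exact h6
  · -- `a` has `r`-power order and `a * a = 1`
    have haa : a * a = 1 := by rw [h6, hzz]
    obtain ⟨k, hk⟩ := hA ⟨a, ha⟩
    have hk' : a ^ r ^ k = 1 := by simpa using congrArg Subtype.val hk
    have h7 : orderOf a ∣ 2 := orderOf_dvd_of_pow_eq_one (by rw [pow_two, haa])
    have h8 : orderOf a ∣ r ^ k := orderOf_dvd_of_pow_eq_one hk'
    have h9 : Nat.Coprime 2 (r ^ k) :=
      Nat.Coprime.pow_right k ((Nat.coprime_primes Nat.prime_two hrp).mpr (Ne.symm hr2))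
    have h10 : orderOf a = 1 := Nat.eq_one_of_dvd_coprimes h9 h7 h8
    exact orderOf_eq_one_iff.mp h10

end Cfsg.Agent.Lib.OddStem
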