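import Cfsg.Agent.Lib.OddStem.Defs


/-!
# S2094 module CaseB3 (STUB: owner replaces the sorry)

2-part when q ≡ 3 (4), m = 3, q ≥ 7: the subgroup Ω⁻₆.2, SU₄ → Ω⁻₆.
-/

set_option autoImplicit false

namespace Cfsg.Agent.Lib.OddStem

open Cfsg Subgroup

universe u

variable {F : Type u} [Field F] [Fintype F]

theorem caseB3 {q : ℕ} (hF : Fintype.card F = q) (h4 : q % 4 = 3) (h7 : 7 ≤ q)
    {Γ : Type u} [Group Γ] [Finite Γ] {σ : Γ →* GO 3 F} (hσ : IsStemExtension σ)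
    (hA : IsPGroup 2 σ.ker) : Nat.card σ.ker ∣ 2 := by
  sorry

end Cfsg.Agent.Lib.OddStem
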