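import Cfsg.Agent.Lib.OddStem.Abs
import Cfsg.Agent.Lib.PresSp.Clo

/-!
# The parabolic subgroup (module C)

Port of `PresU/OClo.lean` (read it: the lemmas have the same names), simplified:
`NS S` generated by `Y k z`, `k ∈ S`, and all `Z`; `Pt` by `lam`, `M (uu z)`, `M (dd u)`; `Nt` by `NS (univ.erase b)` and `T_kb`.
* `Z_mem_Pt`: `Y_Y` with `t = 1`, `z = x/2`.
* `conj_Y_NS`: `Y_Y` (indices `i ≠ k`) and `comm_Z_Y`.
* `dec_N`: induction on the closure; `Y` is additive, `conj_Y_NS`, `Y_add`.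
* `conj_T_NS`: `T_Y_same`, `comm_YT`, `comm_T_Mf`, `T_Z_mem` (closure of the `Z` is `NS ∅`-part of `NS univ`).
* `conj_lam_NS`: `transvection_induction`.
* `conj_Td_NS`: `Mf b (dd u)` on `Y k`: `k = b`: `dd_uu`; `k ≠ b`: `dd_Y`. On `Z_ij`: `j = b`: `dd_Z`; `i = b`: `alt`; else `comm_Z_Mf`.
* `Td_lam`: `transvection_induction`: `dd_T`, `dd_T'`, `comm_T_Mf`.
* `dec_Pt`, `dec_Qt` as in `OClo`.
* `conj_M_Nt` (easier than in `OClo`, no Bruhat): generators of `Nt`: `Y k z = Ek h 0 z 0`, `T_kb y = Ek h 0 0 y`, `Z_kb x = Ek h x 0 0` (`act`, and `Ek h x z y ∈ Nt`), `Z_bk` by `alt`, other `Z` by `comm_Z_Mf`.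
* `M_Pt` as in `OClo`.
-/

set_option autoImplicit false

namespace Cfsg.Agent.Lib.OddStem

open Matrix Subgroup Cfsg.Agent.Lib.PresOm Cfsg.Agent.Lib.PresSp.M2 Cfsg.Agent.Lib.PresSp.Mono
  Cfsg.Agent.Lib.PresSLn.TwoGen
open Cfsg.Agent.Lib.PresSp.Abs (conj_closure_mem conj_conj)

variable {ι : Type*} [Fintype ι] [DecidableEq ι] {F : Type*} [Field F] {Γ : Type*} [Group Γ]

namespace BData

variable (D : BData ι F Γ)

/-- The generators of the unipotent radical at the indices in `S`. -/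
def NSg (S : Finset ι) : Set Γ :=
  {x | ∃ k ∈ S, ∃ z : F, x = D.Y k z} ∪ {x | ∃ (i j : ι) (h : i ≠ j) (c : F), x = D.Z h c}

/-- The unipotent radical at the indices in `S`. -/
def NS (S : Finset ι) : Subgroup Γ := closure (D.NSg S)

/-- The parabolic subgroup. -/
def Pt : Subgroup Γ := closure (Set.range D.lam ∪ {x | ∃ z : F, x = D.M (uu z)} ∪ {x | ∃ u : Fˣ, x = D.M (dd u)})

/-- The group normalised by the rank one group at `b`. -/
def Nt : Subgroup Γ :=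
  closure (D.NSg (Finset.univ.erase D.b) ∪ {x | ∃ (k : ι) (h : k ≠ D.b) (y : F), x = D.T h y})

lemma Y_mem_NS {S : Finset ι} {k : ι} (hk : k ∈ S) (z : F) : D.Y k z ∈ D.NS S :=
  subset_closure (Or.inl ⟨k, hk, z, rfl⟩)

lemma Z_mem_NS (S : Finset ι) {i j : ι} (h : i ≠ j) (c : F) : D.Z h c ∈ D.NS S :=
  subset_closure (Or.inr ⟨i, j, h, c, rfl⟩)

lemma lam_mem_Pt (l : SpecialLinearGroup ι F) : D.lam l ∈ D.Pt :=
  subset_closure (Or.inl (Or.inl ⟨l, rfl⟩))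

lemma uu_mem_Pt (z : F) : D.M (uu z) ∈ D.Pt :=
  subset_closure (Or.inl (Or.inr ⟨z, rfl⟩))

lemma dd_mem_Pt (u : Fˣ) : D.M (dd u) ∈ D.Pt :=
  subset_closure (Or.inr ⟨u, rfl⟩)

lemma Y_mem_Pt (k : ι) (z : F) : D.Y k z ∈ D.Pt := by
  change D.Mf k (uu z) ∈ _
  rw [Mf_apply]
  exact mul_mem (mul_mem (D.lam_mem_Pt _) (D.uu_mem_Pt _)) (inv_mem (D.lam_mem_Pt _))

lemma Td_mem_Pt (k : ι) (u : Fˣ) : D.Mf k (dd u) ∈ D.Pt := by
  rw [Mf_apply]
  exact mul_mem (mul_mem (D.lam_mem_Pt _) (D.dd_mem_Pt _)) (inv_mem (D.lam_mem_Pt _))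

lemma NS_mono {S S' : Finset ι} (h : S ⊆ S') : D.NS S ≤ D.NS S' := by
  refine closure_mono ?_
  rintro x (⟨k, hk, z, rfl⟩ | hx)
  · exact Or.inl ⟨k, h hk, z, rfl⟩
  · exact Or.inr hx

lemma NS_le_Nt : D.NS (Finset.univ.erase D.b) ≤ D.Nt :=
  closure_mono Set.subset_union_left

lemma Yb_mem_Nt {k : ι} (hk : k ≠ D.b) (z : F) : D.Y k z ∈ D.Nt :=
  D.NS_le_Nt (D.Y_mem_NS (by simp [hk]) z)

lemma Z_mem_Nt {i j : ι} (h : i ≠ j) (c : F) : D.Z h c ∈ D.Nt :=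
  D.NS_le_Nt (D.Z_mem_NS _ h c)

lemma T_mem_Nt {k : ι} (h : k ≠ D.b) (y : F) : D.T h y ∈ D.Nt :=
  subset_closure (Or.inr ⟨k, h, y, rfl⟩)

lemma Ek_mem_Nt {k : ι} (h : k ≠ D.b) (x z y : F) : D.Ek h x z y ∈ D.Nt :=
  mul_mem (mul_mem (D.Z_mem_Nt h x) (D.Yb_mem_Nt h z)) (D.T_mem_Nt h y)

end BData

namespace BHyp

variable {D : BData ι F Γ} (H : BHyp D) (h2 : (2 : F) ≠ 0)
include H

lemma conj_Y_NS {S : Finset ι} {k : ι} (hk : k ∉ S) (t : F) {n : Γ} (hn : n ∈ D.NS S) :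
    D.Y k t * n * (D.Y k t)⁻¹ ∈ D.NS S := by
  refine conj_closure_mem _ ?_ hn
  rintro _ (⟨i, hi, z, rfl⟩ | ⟨i, j, h, c, rfl⟩)
  · have hne : i ≠ k := by
      rintro rfl
      exact hk hi
    rw [H.Y_Y hne]
    exact mul_mem (D.Z_mem_NS _ _ _) (D.Y_mem_NS hi _)
  · rw [(H.comm_Z_Y h k c t).symm.eq, mul_inv_cancel_right]
    exact D.Z_mem_NS _ _ _

/-- Splitting off one index. -/
lemma dec_N {S : Finset ι} {k : ι} (hk : k ∉ S) {q : Γ} (hq : q ∈ D.NS (insert k S)) :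
    ∃ n ∈ D.NS S, ∃ z : F, q = n * D.Y k z := by
  have step : ∀ x ∈ D.NSg (insert k S), ∀ y : Γ,
      (∃ n ∈ D.NS S, ∃ z : F, y = n * D.Y k z) → ∃ n ∈ D.NS S, ∃ z : F, x * y = n * D.Y k z := by
    rintro x hx y ⟨n, hn, z, rfl⟩
    rcases hx with ⟨i, hi, c, rfl⟩ | ⟨i, j, h, e, rfl⟩
    · by_cases hik : i = k
      · subst hik
        refine ⟨_, H.conj_Y_NS hk c hn, c + z, ?_⟩
        rw [D.Y_add]
        group
      · have hi' : i ∈ S := (Finset.mem_insert.1 hi).resolve_left hik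
        exact ⟨_, mul_mem (D.Y_mem_NS hi' c) hn, z, by group⟩
    · exact ⟨_, mul_mem (D.Z_mem_NS _ h e) hn, z, by group⟩
  induction hq using Subgroup.closure_induction_left with
  | one =>
    refine ⟨1, one_mem _, 0, ?_⟩
    rw [D.Y_zero, one_mul]
  | mul_left x hx y _ ih => exact step x hx y ih
  | inv_mul_cancel x hx y _ ih =>
    refine step x⁻¹ ?_ y ih
    rcases hx with ⟨i, hi, c, rfl⟩ | ⟨i, j, h, e, rfl⟩
    · exact Or.inl ⟨i, hi, -c, (D.Y_neg i c).symm⟩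
    · exact Or.inr ⟨i, j, h, -e, (D.Z_neg h e).symm⟩

lemma conj_T_NS {i j : ι} (hij : i ≠ j) (c : F) {q : Γ} (hq : q ∈ D.NS Finset.univ) :
    D.T hij c * q * (D.T hij c)⁻¹ ∈ D.NS Finset.univ := by
  refine conj_closure_mem _ ?_ hq
  rintro _ (⟨k, hk, z, rfl⟩ | ⟨k, l, hkl, d, rfl⟩)
  · by_cases h1 : k = j
    · subst h1
      rw [H.T_Y_same hij c z]
      exact mul_mem (mul_mem (D.Y_mem_NS (Finset.mem_univ _) _) (D.Z_mem_NS _ _ _))
        (D.Y_mem_NS (Finset.mem_univ _) _)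
    by_cases h2 : k = i
    · subst h2
      rw [(H.comm_YT hij z c).symm.eq, mul_inv_cancel_right]
      exact D.Y_mem_NS (Finset.mem_univ _) _
    · rw [show D.Y k z = D.Mf k (uu z) from rfl, (H.comm_T_Mf hij h2 h1 c _).eq, mul_inv_cancel_right]
      exact D.Y_mem_NS (Finset.mem_univ _) _
  · have h1 := H.T_Z_mem hij hkl c d
    refine (closure_le _).2 ?_ h1
    rintro _ ⟨i', j', h', e, rfl⟩
    exact D.Z_mem_NS _ _ _

lemma conj_lam_NS (l : SpecialLinearGroup ι F) {q : Γ} (hq : q ∈ D.NS Finset.univ) :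
    D.lam l * q * (D.lam l)⁻¹ ∈ D.NS Finset.univ := by
  haveI : Nontrivial ι := ⟨D.a, D.b, D.hab⟩
  revert q
  refine Cfsg.Agent.Lib.Classical.Transvections.transvection_induction
    (fun l => ∀ {q : Γ}, q ∈ D.NS Finset.univ → D.lam l * q * (D.lam l)⁻¹ ∈ D.NS Finset.univ) l ?_ ?_
  · intro i j hij c q hq
    exact H.conj_T_NS hij c hq
  · intro A B hA hB q hq
    have := hA (hB hq)
    rw [map_mul, conj_conj]
    exact this

lemma conj_Td_NS (S : Finset ι) (u : Fˣ) {q : Γ} (hq : q ∈ D.NS S) :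
    D.M (dd u) * q * (D.M (dd u))⁻¹ ∈ D.NS S := by
  refine conj_closure_mem _ ?_ hq
  have hM : ∀ g, D.M g = D.Mf D.b g := fun g => (D.Mf_b g).symm
  rintro _ (⟨k, hk, z, rfl⟩ | ⟨i, j, h, c, rfl⟩)
  · by_cases h1 : k = D.b
    · subst h1
      rw [show D.Y D.b z = D.M (uu z) from D.Mf_b (uu z), ← map_inv, ← map_mul, ← map_mul, dd_uu,
        ← D.Mf_b]
      exact D.Y_mem_NS hk _
    · rw [hM, (H.dd_Y h1 u z).eq, mul_inv_cancel_right]
      exact D.Y_mem_NS hk _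
  · by_cases h1 : j = D.b
    · subst h1
      rw [hM, H.dd_Z h u c]
      exact D.Z_mem_NS _ _ _
    by_cases h2 : i = D.b
    · subst h2
      rw [H.alt h c, hM, H.dd_Z h.symm u (-c)]
      exact D.Z_mem_NS _ _ _
    · rw [hM, (H.comm_Z_Mf h (Ne.symm h2) (Ne.symm h1) c _).symm.eq, mul_inv_cancel_right]
      exact D.Z_mem_NS _ _ _

lemma Td_lam (u : Fˣ) (l : SpecialLinearGroup ι F) :
    ∃ l', D.M (dd u) * D.lam l * (D.M (dd u))⁻¹ = D.lam l' := by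
  haveI : Nontrivial ι := ⟨D.a, D.b, D.hab⟩
  have hM : ∀ g, D.M g = D.Mf D.b g := fun g => (D.Mf_b g).symm
  refine Cfsg.Agent.Lib.Classical.Transvections.transvection_induction
    (fun l => ∃ l', D.M (dd u) * D.lam l * (D.M (dd u))⁻¹ = D.lam l') l ?_ ?_
  · intro i j hij c
    by_cases h1 : j = D.b
    · subst h1
      exact ⟨_, by rw [hM]; exact H.dd_T hij u c⟩
    by_cases h2 : i = D.b
    · subst h2
      exact ⟨_, by rw [hM]; exact H.dd_T' hij u c⟩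
    · refine ⟨TT hij c, ?_⟩
      rw [hM]
      have h3 := (H.comm_T_Mf hij (Ne.symm h2) (Ne.symm h1) c (dd u)).symm.eq
      change D.Mf D.b (dd u) * D.T hij c * (D.Mf D.b (dd u))⁻¹ = D.T hij c
      rw [h3, mul_inv_cancel_right]
  · rintro A B ⟨A', hA⟩ ⟨B', hB⟩
    refine ⟨A' * B', ?_⟩
    rw [map_mul, map_mul, ← hA, ← hB]
    group

/-- The decomposition of the parabolic. -/
lemma dec_Pt {p : Γ} (hp : p ∈ D.Pt) :
    ∃ q ∈ D.NS Finset.univ, ∃ (u : Fˣ) (l : SpecialLinearGroup ι F), p = q * D.M (dd u) * D.lam l := by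
  have step : ∀ x ∈ (Set.range D.lam ∪ {x | ∃ z : F, x = D.M (uu z)} ∪ {x | ∃ u : Fˣ, x = D.M (dd u)} : Set Γ),
      ∀ y : Γ, (∃ q ∈ D.NS Finset.univ, ∃ (u : Fˣ) (l : SpecialLinearGroup ι F), y = q * D.M (dd u) * D.lam l) →
      ∃ q ∈ D.NS Finset.univ, ∃ (u : Fˣ) (l : SpecialLinearGroup ι F), x * y = q * D.M (dd u) * D.lam l := by
    rintro x hx y ⟨q, hq, u, l, rfl⟩
    rcases hx with (⟨l₀, rfl⟩ | ⟨z, rfl⟩) | ⟨v, rfl⟩
    · obtain ⟨l', hl'⟩ := H.Td_lam u⁻¹ l₀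
      have e : D.lam l₀ * D.M (dd u) = D.M (dd u) * D.lam l' := by
        rw [← hl', dd_inv, map_inv]
        group
      refine ⟨D.lam l₀ * q * (D.lam l₀)⁻¹, H.conj_lam_NS l₀ hq, u, l' * l, ?_⟩
      rw [map_mul]
      calc D.lam l₀ * (q * D.M (dd u) * D.lam l)
          = D.lam l₀ * q * (D.lam l₀)⁻¹ * (D.lam l₀ * D.M (dd u)) * D.lam l := by group
        _ = _ := by rw [e]; group
    · refine ⟨D.M (uu z) * q, mul_mem ?_ hq, u, l, by group⟩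
      have := D.Y_mem_NS (Finset.mem_univ D.b) z
      rwa [show D.Y D.b z = D.M (uu z) from D.Mf_b (uu z)] at this
    · refine ⟨D.M (dd v) * q * (D.M (dd v))⁻¹, H.conj_Td_NS _ v hq, v * u, l, ?_⟩
      rw [dd_mul, map_mul]
      group
  induction hp using Subgroup.closure_induction_left with
  | one =>
    refine ⟨1, one_mem _, 1, 1, ?_⟩
    rw [dd_one]
    simp
  | mul_left x hx y _ ih => exact step x hx y ih
  | inv_mul_cancel x hx y _ ih =>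
    refine step x⁻¹ ?_ y ih
    rcases hx with (⟨l₀, rfl⟩ | ⟨z, rfl⟩) | ⟨v, rfl⟩
    · exact Or.inl (Or.inl ⟨l₀⁻¹, map_inv _ _⟩)
    · exact Or.inl (Or.inr ⟨-z, by rw [uu_neg, map_inv]⟩)
    · exact Or.inr ⟨v⁻¹, by rw [dd_inv, map_inv]⟩

/-- The decomposition of the unipotent radical. -/
lemma dec_Qt {q : Γ} (hq : q ∈ D.NS Finset.univ) :
    ∃ n ∈ D.NS (Finset.univ.erase D.b), ∃ z : F, q = n * D.M (uu z) := by
  have e : insert D.b (Finset.univ.erase D.b) = (Finset.univ : Finset ι) :=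
    Finset.insert_erase (Finset.mem_univ D.b)
  rw [← e] at hq
  obtain ⟨n, hn, z, rfl⟩ := H.dec_N (Finset.notMem_erase D.b _) hq
  exact ⟨n, hn, z, by rw [show D.Y D.b z = D.M (uu z) from D.Mf_b (uu z)]⟩

include h2

lemma Z_mem_Pt {i j : ι} (h : i ≠ j) (c : F) : D.Z h c ∈ D.Pt := by
  have h1 := H.Y_Y h (1 : F) (c / 2)
  have h3 : 2 * 1 * (c / 2) = c := by field_simp
  rw [h3] at h1
  have h4 : D.Z h c = D.Y j 1 * D.Y i (c / 2) * (D.Y j 1)⁻¹ * (D.Y i (c / 2))⁻¹ := by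
    rw [h1, mul_inv_cancel_right]
  rw [h4]
  exact mul_mem (mul_mem (mul_mem (D.Y_mem_Pt _ _) (D.Y_mem_Pt _ _)) (inv_mem (D.Y_mem_Pt _ _)))
    (inv_mem (D.Y_mem_Pt _ _))

lemma NS_le_Pt (S : Finset ι) : D.NS S ≤ D.Pt := by
  rw [BData.NS, closure_le]
  rintro _ (⟨k, hk, z, rfl⟩ | ⟨i, j, h, c, rfl⟩)
  · exact D.Y_mem_Pt _ _
  · exact H.Z_mem_Pt h2 h c

lemma Nt_le_Pt : D.Nt ≤ D.Pt := by
  rw [BData.Nt, closure_le]
  rintro _ ((⟨k, hk, z, rfl⟩ | ⟨i, j, h, c, rfl⟩) | ⟨k, h, y, rfl⟩)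
  · exact D.Y_mem_Pt _ _
  · exact H.Z_mem_Pt h2 h c
  · exact D.lam_mem_Pt _

omit h2

lemma conj_M_Nt (g : M2 F) {n : Γ} (hn : n ∈ D.Nt) : D.M g * n * (D.M g)⁻¹ ∈ D.Nt := by
  have hM : ∀ g, D.M g = D.Mf D.b g := fun g => (D.Mf_b g).symm
  refine conj_closure_mem _ ?_ hn
  rintro _ ((⟨k, hk, z, rfl⟩ | ⟨i, j, h, c, rfl⟩) | ⟨k, h, y, rfl⟩)
  · have hk' := Finset.ne_of_mem_erase hk
    rw [hM, ← D.Ek_Y hk', H.act]
    exact D.Ek_mem_Nt hk' _ _ _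
  · by_cases h1 : j = D.b
    · subst h1
      rw [hM, ← D.Ek_Z h, H.act]
      exact D.Ek_mem_Nt h _ _ _
    by_cases h2 : i = D.b
    · subst h2
      rw [H.alt h c, hM, ← D.Ek_Z h.symm, H.act]
      exact D.Ek_mem_Nt h.symm _ _ _
    · rw [hM, (H.comm_Z_Mf h (Ne.symm h2) (Ne.symm h1) c _).symm.eq, mul_inv_cancel_right]
      exact D.Z_mem_Nt _ _
  · rw [hM, ← D.Ek_T h, H.act]
    exact D.Ek_mem_Nt h _ _ _

include h2

/-- Moving the rank one group across the parabolic. -/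
lemma M_Pt (g : M2 F) {p : Γ} (hp : p ∈ D.Pt) :
    ∃ p₁ ∈ D.Pt, ∃ (g' : M2 F) (l : SpecialLinearGroup ι F), D.M g * p = p₁ * D.M g' * D.lam l := by
  obtain ⟨q, hq, u, l, rfl⟩ := H.dec_Pt hp
  obtain ⟨n, hn, z, rfl⟩ := H.dec_Qt hq
  refine ⟨D.M g * n * (D.M g)⁻¹, H.Nt_le_Pt h2 (H.conj_M_Nt g (D.NS_le_Nt hn)), g * uu z * dd u, l, ?_⟩
  rw [map_mul, map_mul]
  group

end BHyp

end Cfsg.Agent.Lib.OddStem
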