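import Cfsg.Agent.Lib.OddStem.Spin
import Cfsg.Agent.Lib.OddStem.Bound
import Cfsg.Agent.Lib.LocalBal.OmMain

/-!
# The stem extension `UsO → Ω` (module F)

Copy of `OmStem/Cover.lean` with `plusForm` replaced by the odd form, `om_stem_bound` by `odd_stem_bound`.
-/

set_option autoImplicit false

namespace Cfsg.Agent.Lib.OddStem

open Matrix Cfsg Subgroup Cfsg.Agent.Lib.OmStem Cfsg.Agent.Lib.PresOm Cfsg.Agent.Lib.PresSp.M2 Cfsg.Agent.Lib.PresSp.Mono
  Cfsg.Agent.Lib.PresSLn.TwoGen Cfsg.Agent.Lib.PresSp.Abs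

open scoped commutatorElement

section cover

universe u

variable {m : ℕ} {F : Type u} [Field F] [Fintype F]

instance finite_UsO : Finite (UsO m F) := by
  classical
  haveI : Finite (Omega F (quadFormOdd m F)) := by
    unfold Omega
    infer_instance
  infer_instance

/-- The map from the Clifford group to `Ω`. -/
private def piT : UtO m F →* Omega F (quadFormOdd m F) := (MonoidHom.fst _ _).comp (UtO m F).subtype

private lemma omega_perfect (h2 : (2 : F) ≠ 0) (hm : 3 ≤ m) : commutator (Omega F (quadFormOdd m F)) = ⊤ := by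
  have h := Cfsg.Agent.Lib.LocalBal.OmMain.perfect_omega (F := F) (ι := VO m)
    (Q := Cfsg.Agent.Lib.Orth.Forms.oddForm m F) (Cfsg.Agent.Lib.Orth.Forms.oddForm_nondeg m h2)
    (by simp [VO]; omega)
  exact h

/-- An element of `Ut` with trivial first coordinate is central in the product. -/
private lemma central_of_fst {p : Omega F (quadFormOdd m F) × GeneralLinearGroup (Bt m) F}
    (hp : p ∈ UtO m F) (h1 : p.1 = 1) (x : Omega F (quadFormOdd m F) × GeneralLinearGroup (Bt m) F) :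
    p * x = x * p := by
  obtain ⟨c, hc⟩ := utO_scalar hp h1
  rcases p with ⟨g, A⟩
  change g = 1 at h1
  subst h1
  refine Prod.ext (by simp) ?_
  apply Units.ext
  change (A : MS m F) * (x.2 : MS m F) = (x.2 : MS m F) * (A : MS m F)
  change (A : MS m F) = _ at hc
  rw [hc]
  simp

private lemma fst_mem_of_us (hm : 3 ≤ m) (h2 : (2 : F) ≠ 0) (g : Omega F (quadFormOdd m F)) :
    ∃ p ∈ UsO m F, p.1 = g := by
  have hsurj : (UsO m F).map (MonoidHom.fst _ _) = ⊤ := by
    have hU : (UtO m F).map (MonoidHom.fst _ _) = ⊤ := by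
      rw [eq_top_iff]
      intro g _
      obtain ⟨A, hA⟩ := utO_lift h2 hm g
      exact ⟨(g, A), hA, rfl⟩
    have := Subgroup.map_commutator (UtO m F) (UtO m F) (MonoidHom.fst (Omega F (quadFormOdd m F)) (GeneralLinearGroup (Bt m) F))
    rw [this, hU]
    exact omega_perfect h2 hm
  have hg : g ∈ (UsO m F).map (MonoidHom.fst _ _) := by rw [hsurj]; trivial
  obtain ⟨p, hp, rfl⟩ := hg
  exact ⟨p, hp, rfl⟩

theorem UsO_perfect (h2 : (2 : F) ≠ 0) (hm : 3 ≤ m) : commutator (UsO m F) = ⊤ := by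
  -- it suffices: `Us ≤ ⁅Us, Us⁆` inside the product
  have hle : UsO m F ≤ ⁅UsO m F, UsO m F⁆ := by
    refine Subgroup.commutator_le.2 ?_
    intro p hp p' hp'
    obtain ⟨q, hq, hq1⟩ := fst_mem_of_us hm h2 p.1
    obtain ⟨q', hq', hq1'⟩ := fst_mem_of_us hm h2 p'.1
    have hqU := UsO_le_UtO hq
    have hqU' := UsO_le_UtO hq'
    have hz : q⁻¹ * p ∈ UtO m F := mul_mem (inv_mem hqU) hp
    have hz' : q'⁻¹ * p' ∈ UtO m F := mul_mem (inv_mem hqU') hp'
    have hz1 : (q⁻¹ * p).1 = 1 := by simp [hq1]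
    have hz1' : (q'⁻¹ * p').1 = 1 := by simp [hq1']
    have hc := central_of_fst hz hz1
    have hc' := central_of_fst hz' hz1'
    have e : ⁅p, p'⁆ = ⁅q, q'⁆ := by
      have ep : p = q * (q⁻¹ * p) := by group
      have ep' : p' = q' * (q'⁻¹ * p') := by group
      rw [ep, ep', Cfsg.Agent.Lib.Schur.SLnStem.comm_central_left hc,
        Cfsg.Agent.Lib.Schur.SLnStem.comm_central_right hc']
    rw [e]
    exact Subgroup.commutator_mem_commutator hq hq'
  rw [eq_top_iff]
  rintro ⟨p, hp⟩ -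
  -- transfer along the subtype
  have hmap : (commutator (UsO m F)).map (UsO m F).subtype = ⁅UsO m F, UsO m F⁆ :=
    Subgroup.map_subtype_commutator _
  have hp2 := hle hp
  rw [← hmap] at hp2
  obtain ⟨x, hx, hxe⟩ := hp2
  have : x = ⟨p, hp⟩ := Subtype.ext hxe
  rwa [← this]

theorem piO_stem (h2 : (2 : F) ≠ 0) (hm : 3 ≤ m) (_hexc : ¬ (m = 3 ∧ Fintype.card F = 3)) : IsStemExtension (piO m F) := by
  refine ⟨?_, ?_, ?_⟩
  · intro g
    obtain ⟨p, hp, hpg⟩ := fst_mem_of_us hm h2 g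
    exact ⟨⟨p, hp⟩, hpg⟩
  · intro x hx
    rw [Subgroup.mem_center_iff]
    intro y
    apply Subtype.ext
    exact (central_of_fst (UsO_le_UtO x.2) hx y.1).symm
  · rw [UsO_perfect h2 hm]
    exact le_top

/-- The central element `(1,-1)`. -/
private def negU (h2 : (2 : F) ≠ 0) (hm : 3 ≤ m) : UsO m F := ⟨(1, -1), neg_mem_UsO h2 hm⟩

private lemma neg_ne_one_GL (h2 : (2 : F) ≠ 0) : (-1 : GeneralLinearGroup (Bt m) F) ≠ 1 := by
  intro h
  have h1 := congrArg (fun x : GeneralLinearGroup (Bt m) F => (x : MS m F)) h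
  have h3 := congrFun (congrFun h1 (fun _ => false)) (fun _ => false)
  have h4 : (-1 : F) = 1 := by simpa using h3
  apply h2
  have : (2 : F) = 1 - (-1) := by ring
  rw [this, h4, sub_self]

private lemma negU_ne (h2 : (2 : F) ≠ 0) (hm : 3 ≤ m) : negU h2 hm ≠ (1 : UsO m F) := by
  intro h
  have h1 := congrArg (fun x : UsO m F => (x : Omega F (quadFormOdd m F) × GeneralLinearGroup (Bt m) F).2) h
  exact neg_ne_one_GL h2 h1

private lemma negU_ker (h2 : (2 : F) ≠ 0) (hm : 3 ≤ m) : piO m F (negU h2 hm) = 1 := rfl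

private lemma eq_of_mem_zpowers {G : Type*} [Group G] {w x : G} (hw : w * w = 1) (hx : x ∈ zpowers w) :
    x = 1 ∨ x = w := by
  obtain ⟨k, rfl⟩ := hx
  have h2 : w ^ (2 : ℤ) = 1 := by
    rw [zpow_two, hw]
  have hk : k = 2 * (k / 2) + k % 2 := (Int.mul_ediv_add_emod k 2).symm
  change w ^ k = 1 ∨ w ^ k = w
  rcases Int.emod_two_eq_zero_or_one k with h | h
  · left
    rw [hk, h, _root_.zpow_add, _root_.zpow_mul, h2]; simp
  · right
    rw [hk, h, _root_.zpow_add, _root_.zpow_mul, h2]; simp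

private lemma ker_eq (h2 : (2 : F) ≠ 0) (hm : 3 ≤ m) (hexc : ¬ (m = 3 ∧ Fintype.card F = 3)) {x : UsO m F} (hx : piO m F x = 1) :
    x = 1 ∨ x = negU h2 hm := by
  obtain ⟨z, hzz, hker⟩ := odd_stem_bound hm h2 hexc (piO_stem h2 hm hexc)
  have hneg : negU h2 hm ∈ zpowers z := by
    rw [← hker]; exact negU_ker h2 hm
  have hz : z = negU h2 hm := by
    rcases eq_of_mem_zpowers hzz hneg with h | h
    · exact absurd h (negU_ne h2 hm)
    · exact h.symm
  have hx' : x ∈ zpowers z := by rw [← hker]; exact hx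
  rcases eq_of_mem_zpowers hzz hx' with h | h
  · exact Or.inl h
  · exact Or.inr (h.trans hz)

/-- The kernel of `piU`. -/
theorem piO_ker (h2 : (2 : F) ≠ 0) (hm : 3 ≤ m) (hexc : ¬ (m = 3 ∧ Fintype.card F = 3)) {x : UsO m F} (hx : piO m F x = 1) :
    (x : Omega F (quadFormOdd m F) × GeneralLinearGroup (Bt m) F).2 = 1 ∨ (x : Omega F (quadFormOdd m F) × GeneralLinearGroup (Bt m) F).2 = -1 := by
  rcases ker_eq h2 hm hexc hx with rfl | rfl
  · exact Or.inl rfl
  · exact Or.inr rfl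

theorem card_ker_piO (h2 : (2 : F) ≠ 0) (hm : 3 ≤ m) (hexc : ¬ (m = 3 ∧ Fintype.card F = 3)) : Nat.card (piO m F).ker = 2 := by
  rw [Nat.card_eq_two_iff]
  refine ⟨1, ⟨negU h2 hm, negU_ker h2 hm⟩, ?_, ?_⟩
  · intro h
    exact negU_ne h2 hm (congrArg Subtype.val h).symm
  · ext ⟨x, hx⟩
    simp only [Set.mem_insert_iff, Set.mem_singleton_iff, Set.mem_univ, iff_true]
    rcases ker_eq h2 hm hexc hx with rfl | rfl
    · exact Or.inl rfl
    · exact Or.inr rfl

/-- The spin group has no proper stem extensions. -/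
theorem stem_triv_UsO (h2 : (2 : F) ≠ 0) (hm : 3 ≤ m) (hexc : ¬ (m = 3 ∧ Fintype.card F = 3)) {Γ : Type u} [Group Γ] [Finite Γ] {τ : Γ →* UsO m F}
    (hτ : IsStemExtension τ) (z : Γ) (hz : τ z = 1) : z = 1 := by
  have hU := piO_stem h2 hm hexc
  have hΓ : commutator Γ = ⊤ := eq_top_iff.2 fun g _ =>
    Cfsg.Agent.Lib.Schur.SLnStem.mem_commutator_of_perfect' hτ (UsO_perfect h2 hm) g
  set σ : Γ →* Omega F (quadFormOdd m F) := (piO m F).comp τ with hσ
  have hs : Function.Surjective σ := hU.1.comp hτ.1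
  -- the kernel is central, by the three subgroups lemma
  have hcen : σ.ker ≤ center Γ := by
    have h1 : ⁅⁅σ.ker, (⊤ : Subgroup Γ)⁆, (⊤ : Subgroup Γ)⁆ = ⊥ := by
      rw [eq_bot_iff, Subgroup.commutator_le]
      intro c hc g _
      have hc' : c ∈ τ.ker := by
        have hle : ⁅σ.ker, (⊤ : Subgroup Γ)⁆ ≤ τ.ker := by
          rw [Subgroup.commutator_le]
          intro k hk g _
          rw [MonoidHom.mem_ker, map_commutatorElement]
          have hk' : τ k ∈ (piO m F).ker := hk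
          have := Subgroup.mem_center_iff.1 (hU.2.1 hk') (τ g)
          rw [commutatorElement_eq_one_iff_mul_comm]
          exact this.symm
        exact hle hc
      have := Subgroup.mem_center_iff.1 (hτ.2.1 hc') g
      rw [Subgroup.mem_bot, commutatorElement_eq_one_iff_mul_comm]
      exact this.symm
    have h2' : ⁅⁅(⊤ : Subgroup Γ), σ.ker⁆, (⊤ : Subgroup Γ)⁆ = ⊥ := by
      rw [Subgroup.commutator_comm (⊤ : Subgroup Γ) σ.ker]
      exact h1
    have h3 := Subgroup.commutator_commutator_eq_bot_of_rotate (H₁ := (⊤ : Subgroup Γ)) (H₂ := (⊤ : Subgroup Γ))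
      (H₃ := σ.ker) h2' h1
    have h4 : ⁅(⊤ : Subgroup Γ), (⊤ : Subgroup Γ)⁆ = ⊤ := hΓ
    rw [h4] at h3
    intro k hk
    rw [Subgroup.mem_center_iff]
    intro g
    have h5 : ⁅g, k⁆ ∈ ⁅(⊤ : Subgroup Γ), σ.ker⁆ := Subgroup.commutator_mem_commutator trivial hk
    rw [h3, Subgroup.mem_bot, commutatorElement_eq_one_iff_mul_comm] at h5
    exact h5
  have hst : IsStemExtension σ := ⟨hs, hcen, by rw [hΓ]; exact le_top⟩
  obtain ⟨w, hww, hker⟩ := odd_stem_bound hm h2 hexc hst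
  obtain ⟨x, hx⟩ := hτ.1 (negU h2 hm)
  have hxk : x ∈ zpowers w := by
    rw [← hker, MonoidHom.mem_ker, hσ, MonoidHom.comp_apply, hx]
    exact negU_ker h2 hm
  have hzk : z ∈ zpowers w := by
    rw [← hker, MonoidHom.mem_ker, hσ, MonoidHom.comp_apply, hz, map_one]
  have hxw : x = w := by
    rcases eq_of_mem_zpowers hww hxk with h | h
    · exfalso
      rw [h, map_one] at hx
      exact negU_ne h2 hm hx.symm
    · exact h
  rcases eq_of_mem_zpowers hww hzk with h | h
  · exact h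
  · exfalso
    rw [h, ← hxw, hx] at hz
    exact negU_ne h2 hm hz

end cover

end Cfsg.Agent.Lib.OddStem
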