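import Cfsg.Agent.Lib.OddStem.Emb
import Cfsg.Agent.Lib.Schur.Stem
import Cfsg.Agent.Lib.OmStem.Bound

/-!
# S2094: notation and generic stem lemmas

`GO m F = Ω_{2m+1}(F)`. `coprime_mem`: if the kernel is an `r`-group and `H ≤ G` has index prime to `r`, the kernel lies in the commutator subgroup of the preimage of `H`.
-/

set_option autoImplicit false

namespace Cfsg.Agent.Lib.OddStem

open Cfsg Subgroup

universe u

/-- `Ω_{2m+1}(F)`. -/
abbrev GO (m : ℕ) (F : Type u) [Field F] : Type u := Omega F (quadFormOdd m F)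

/-- The commutator subgroup of a subgroup, as a subgroup of the big group. -/
abbrev cmm {Γ : Type*} [Group Γ] (H : Subgroup Γ) : Subgroup Γ := ⁅H, H⁆

/-- The transfer lemma for a stem extension with kernel an `r`-group. -/
theorem coprime_mem {Γ G : Type*} [Group Γ] [Group G] [Finite Γ] {σ : Γ →* G} (hσ : IsStemExtension σ)
    {r : ℕ} [Fact r.Prime] (hA : IsPGroup r σ.ker) (H : Subgroup G) (hH : ¬ r ∣ H.index) {a : Γ} (ha : σ a = 1) :
    a ∈ cmm (H.comap σ) := by
  classical
  have hidx : (H.comap σ).index = H.index := Subgroup.index_comap_of_surjective _ hσ.1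
  have hord : ∃ k, orderOf a = r ^ k := by
    have h1 : IsPGroup r (zpowers a) := by
      have hle : zpowers a ≤ σ.ker := by
        rw [zpowers_le]; exact ha
      exact hA.to_le hle
    obtain ⟨k, hk⟩ := hA ⟨a, ha⟩
    have h2 : a ^ r ^ k = 1 := by simpa using congrArg Subtype.val hk
    obtain ⟨j, -, hj⟩ := (Nat.dvd_prime_pow (Fact.out : r.Prime)).1 (orderOf_dvd_of_pow_eq_one h2)
    exact ⟨j, hj⟩
  obtain ⟨k, hk⟩ := hord
  have hcop : Nat.Coprime (orderOf a) (H.comap σ).index := by
    rw [hk, hidx]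
    exact Nat.Coprime.pow_left _ ((Nat.Prime.coprime_iff_not_dvd Fact.out).2 hH)
  have h := Cfsg.Agent.Lib.Schur.Stem.mem_commutator_of_coprime (H.comap σ) (hσ.2.1 ha) (hσ.2.2 ha) hcop
  have hmap : (commutator (H.comap σ)).map (H.comap σ).subtype = cmm (H.comap σ) := Subgroup.map_subtype_commutator _
  rwa [hmap] at h

end Cfsg.Agent.Lib.OddStem
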