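import Cfsg.Agent.Lib.OddStem.Cover
import Cfsg.Agent.Lib.Classical.QuadEichBridge
import Cfsg.Agent.Lib.OmStem.Final

/-!
# The multiplier of `PΩ_{2m+1}(q)` (module G)

`Ω` has trivial centre (`QuadEichBridge.not_neg_of_odd_card`, `card_center_of_not_neg`, `oddForm m F`), so `π₂ : UsO → Ω → PΩ` has kernel `ker piO` of order `2`, cyclic.
Finish by `SLnStem.hasCyclic_of_cover π₂ hπ stem_triv_UsO UsO_perfect hker hcard`.
Copy of the odd rank part of `OmStem/Final.lean`.
-/

set_option autoImplicit false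

namespace Cfsg.Agent.Lib.OddStem

open Matrix Cfsg Subgroup

universe u

variable {F : Type u} [Field F] [Fintype F]

/-- The quotient map of `Ω` onto `PΩ`. -/
abbrev mkPO (m : ℕ) (F : Type u) [Field F] :
    Omega F (quadFormOdd m F) →* POmega F (quadFormOdd m F) :=
  QuotientGroup.mk' (center (Omega F (quadFormOdd m F)))

/-- The map `UsO → PΩ`. -/
noncomputable def piPO (m : ℕ) (F : Type u) [Field F] [Fintype F] : UsO m F →* POmega F (quadFormOdd m F) :=
  (mkPO m F).comp (piO m F)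

theorem mem_ker_piPO {m : ℕ} {x : UsO m F} :
    x ∈ (piPO m F).ker ↔ piO m F x ∈ center (Omega F (quadFormOdd m F)) := by
  rw [MonoidHom.mem_ker]
  change (mkPO m F) (piO m F x) = 1 ↔ _
  rw [QuotientGroup.mk'_apply, QuotientGroup.eq_one_iff]

theorem main_odd_dim {q : ℕ} (hF : Fintype.card F = q) (hq : Odd q) (m : ℕ) (hm : 3 ≤ m) (hexc : ¬ (m = 3 ∧ q = 3)) :
    Cfsg.HasCyclicSchurMultiplier (Cfsg.POmega F (Cfsg.quadFormOdd m F)) 2 := by
  have h2 : (2 : F) ≠ 0 := by
    intro h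
    have h5 := Cfsg.Agent.Lib.OmStem.even_card_of_two hF h
    have := Nat.odd_iff.1 hq
    omega
  have hexc' : ¬ (m = 3 ∧ Fintype.card F = 3) := by rwa [hF]
  have hnd := Cfsg.Agent.Lib.Orth.Forms.oddForm_nondeg (F := F) m h2
  have hcard7 : 7 ≤ Fintype.card (VO m) := by
    simp
    omega
  have hneg : ¬ ∃ g : isometryGroup F (quadFormOdd m F), g ∈ Omega F (quadFormOdd m F) ∧
      ((g : GeneralLinearGroup (VO m) F) : Matrix (VO m) (VO m) F) = -1 :=
    Cfsg.Agent.Lib.Classical.QuadEichBridge.not_neg_of_odd_card _ h2 (by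
      simp)
  have hcen : Nat.card (center (Omega F (quadFormOdd m F))) = 1 :=
    Cfsg.Agent.Lib.Classical.QuadEichBridge.card_center_of_not_neg (Cfsg.Agent.Lib.Orth.Forms.oddForm m F) hnd
      (by simp; omega) hneg
  have hstem0 := piO_stem (F := F) h2 hm hexc'
  have hker_eq : (piPO m F).ker = (center (Omega F (quadFormOdd m F))).comap (piO m F) := by
    ext x
    rw [mem_ker_piPO, Subgroup.mem_comap]
  have hperf := UsO_perfect (F := F) h2 hm
  have hstem : IsStemExtension (piPO m F) := by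
    refine ⟨(QuotientGroup.mk'_surjective _).comp hstem0.1, ?_, ?_⟩
    · intro x hx
      exact Cfsg.Agent.Lib.OmStem.mem_center_of_map_mem_center (piO m F) hstem0.2.1 hperf (mem_ker_piPO.1 hx)
    · rw [hperf]
      exact le_top
  have hk : Nat.card (piPO m F).ker = 2 := by
    rw [hker_eq, Cfsg.Agent.Lib.OmStem.card_comap_of_surjective _ hstem0.1, card_ker_piO h2 hm hexc', hcen]
  have : Fact (Nat.Prime 2) := ⟨Nat.prime_two⟩
  exact Cfsg.Agent.Lib.Schur.SLnStem.hasCyclic_of_cover (piPO m F) hstem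
    (fun Γ _ _ σ hσ z hz => stem_triv_UsO h2 hm hexc' hσ z hz) hperf (isCyclic_of_prime_card hk) hk

end Cfsg.Agent.Lib.OddStem
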