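import Cfsg.Agent.Lib.OddStem.Defs
import Cfsg.Agent.Lib.Schur.SLnStem2
import Cfsg.Agent.Lib.Schur.SpStem.Lift
import Cfsg.Agent.Lib.Classical.QuadOrders
import Cfsg.Agent.Lib.SemiSimple.Lift
import Cfsg.Agent.Lib.Classical.Transvections
import Cfsg.Agent.Lib.Orth.Closure
import Cfsg.Agent.Lib.Orth.Forms

/-!
# S2094 module Klein

Klein correspondence `SL₄(F) → Ω⁺₆(F)`, `q` odd: `X ↦ g X gᵀ` on the alternating `4 × 4` matrices, with the Pfaffian as
quadratic form. It is onto with kernel `±1`, so stem extensions of `Ω⁺₆` have kernel of order at most `2`.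
-/

set_option autoImplicit false

namespace Cfsg.Agent.Lib.OddStem

open Cfsg Subgroup

universe u

namespace KleinMap

open Matrix

variable {F : Type u} [Field F]

/-- The alternating matrix with the given coordinates. -/
def altM (v : Fin 3 ⊕ Fin 3 → F) : Matrix (Fin 4) (Fin 4) F :=
  !![0, v (.inl 0), v (.inl 1), v (.inl 2);
     -v (.inl 0), 0, v (.inr 2), -v (.inr 1);
     -v (.inl 1), -v (.inr 2), 0, v (.inr 0);
     -v (.inl 2), v (.inr 1), -v (.inr 0), 0]

/-- The coordinates of a matrix. -/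
def coordsM (X : Matrix (Fin 4) (Fin 4) F) : Fin 3 ⊕ Fin 3 → F :=
  Sum.elim ![X 0 1, X 0 2, X 0 3] ![X 2 3, -X 1 3, X 1 2]

theorem coords_alt (v : Fin 3 ⊕ Fin 3 → F) : coordsM (altM v) = v := by
  funext i
  rcases i with i | i <;> fin_cases i <;> simp [coordsM, altM]

theorem alt_coords (X : Matrix (Fin 4) (Fin 4) F) (h0 : ∀ i, X i i = 0) (h1 : ∀ i j, X j i = - X i j) :
    altM (coordsM X) = X := by
  ext i j
  fin_cases i <;> fin_cases j <;> simp [coordsM, altM, h0]
  all_goals first | rfl | (rw [h1]; done) | (rw [h1, neg_neg]; done)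

theorem altM_add (v w : Fin 3 ⊕ Fin 3 → F) : altM (v + w) = altM v + altM w := by
  ext i j
  fin_cases i <;> fin_cases j <;> simp [altM] <;> ring

theorem altM_smul (c : F) (v : Fin 3 ⊕ Fin 3 → F) : altM (c • v) = c • altM v := by
  ext i j
  fin_cases i <;> fin_cases j <;> simp [altM]

theorem coords_add (X Y : Matrix (Fin 4) (Fin 4) F) : coordsM (X + Y) = coordsM X + coordsM Y := by
  funext i
  rcases i with i | i <;> fin_cases i <;> simp [coordsM] <;> ring

theorem coords_smul (c : F) (X : Matrix (Fin 4) (Fin 4) F) : coordsM (c • X) = c • coordsM X := by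
  funext i
  rcases i with i | i <;> fin_cases i <;> simp [coordsM]

theorem altM_diag (v : Fin 3 ⊕ Fin 3 → F) (i : Fin 4) : altM v i i = 0 := by
  fin_cases i <;> simp [altM]

theorem altM_anti (v : Fin 3 ⊕ Fin 3 → F) (i j : Fin 4) : altM v j i = - altM v i j := by
  fin_cases i <;> fin_cases j <;> simp [altM]

theorem conj_diag (g X : Matrix (Fin 4) (Fin 4) F) (h0 : ∀ i, X i i = 0) (h1 : ∀ i j, X j i = - X i j)
    (i : Fin 4) : (g * X * gᵀ) i i = 0 := by
  have e0 := h0 0
  have e1 := h0 1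
  have e2 := h0 2
  have e3 := h0 3
  simp only [Matrix.mul_apply, Fin.sum_univ_four, transpose_apply]
  rw [h1 1 0, h1 2 0, h1 3 0, h1 2 1, h1 3 1, h1 3 2, e0, e1, e2, e3]
  ring

theorem conj_anti (g X : Matrix (Fin 4) (Fin 4) F) (h1 : ∀ i j, X j i = - X i j)
    (i j : Fin 4) : (g * X * gᵀ) j i = - (g * X * gᵀ) i j := by
  have : (g * X * gᵀ)ᵀ = - (g * X * gᵀ) := by
    have hX : Xᵀ = -X := by
      ext a b
      simp [h1 b a]
    simp [Matrix.transpose_mul, hX, Matrix.mul_assoc]
  have h2 := congrFun (congrFun this i) j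
  simpa using h2

/-- The action on coordinates. -/
noncomputable def klLin (g : Matrix (Fin 4) (Fin 4) F) : (Fin 3 ⊕ Fin 3 → F) →ₗ[F] (Fin 3 ⊕ Fin 3 → F) where
  toFun v := coordsM (g * altM v * gᵀ)
  map_add' v w := by rw [altM_add, mul_add, add_mul, coords_add]
  map_smul' c v := by
    rw [altM_smul, Matrix.mul_smul, Matrix.smul_mul, coords_smul]
    rfl

theorem klLin_apply (g : Matrix (Fin 4) (Fin 4) F) (v : Fin 3 ⊕ Fin 3 → F) :
    klLin g v = coordsM (g * altM v * gᵀ) := rfl

theorem alt_klLin (g : Matrix (Fin 4) (Fin 4) F) (v : Fin 3 ⊕ Fin 3 → F) :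
    altM (klLin g v) = g * altM v * gᵀ :=
  alt_coords _ (conj_diag g _ (altM_diag v) (altM_anti v)) (conj_anti g _ (altM_anti v))

theorem klLin_mul (g h : Matrix (Fin 4) (Fin 4) F) : klLin (g * h) = klLin g ∘ₗ klLin h := by
  apply LinearMap.ext
  intro v
  rw [LinearMap.comp_apply, klLin_apply, klLin_apply g, alt_klLin]
  congr 1
  simp [Matrix.transpose_mul, Matrix.mul_assoc]

theorem klLin_one : klLin (1 : Matrix (Fin 4) (Fin 4) F) = LinearMap.id := by
  apply LinearMap.ext
  intro v
  simp [klLin_apply, coords_alt]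

/-- The matrix of the action. -/
noncomputable def klM : Matrix (Fin 4) (Fin 4) F →* Matrix (Fin 3 ⊕ Fin 3) (Fin 3 ⊕ Fin 3) F where
  toFun g := LinearMap.toMatrix' (klLin g)
  map_one' := by rw [klLin_one, LinearMap.toMatrix'_id]
  map_mul' g h := by rw [klLin_mul, LinearMap.toMatrix'_comp]

theorem klM_mulVec (g : Matrix (Fin 4) (Fin 4) F) (v : Fin 3 ⊕ Fin 3 → F) :
    klM g *ᵥ v = coordsM (g * altM v * gᵀ) := by
  change LinearMap.toMatrix' (klLin g) *ᵥ v = _
  rw [LinearMap.toMatrix'_mulVec, klLin_apply]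

/-- The Pfaffian identity. -/
theorem pf_identity (g : Matrix (Fin 4) (Fin 4) F) (v : Fin 3 ⊕ Fin 3 → F) :
    quadFormPlus 3 F (coordsM (g * altM v * gᵀ)) = g.det * quadFormPlus 3 F v := by
  rw [Matrix.det_succ_row_zero]
  simp only [quadFormPlus, coordsM, Fin.sum_univ_three, Fin.sum_univ_four, Sum.elim_inl, Sum.elim_inr,
    Matrix.det_fin_three, Matrix.submatrix_apply, Matrix.mul_apply, transpose_apply, altM]
  simp [Fin.succAbove]
  ring

/-- The Klein map to the isometry group. -/
noncomputable def klIso : Matrix.SpecialLinearGroup (Fin 4) F →* isometryGroup F (quadFormPlus 3 F) :=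
  ((Units.map (klM (F := F))).comp (Matrix.SpecialLinearGroup.toGL)).codRestrict _ (by
    intro g
    rw [Cfsg.Agent.Lib.Orth.Bridge.mem_isometryGroup_iff]
    intro v
    change quadFormPlus 3 F (klM (g : Matrix (Fin 4) (Fin 4) F) *ᵥ v) = _
    rw [klM_mulVec, pf_identity, g.2, one_mul])

theorem klIso_mulVec (g : Matrix.SpecialLinearGroup (Fin 4) F) (v : Fin 3 ⊕ Fin 3 → F) :
    (((klIso g).1 : Matrix.GeneralLinearGroup (Fin 3 ⊕ Fin 3) F) : Matrix (Fin 3 ⊕ Fin 3) (Fin 3 ⊕ Fin 3) F) *ᵥ v =
      coordsM ((g : Matrix (Fin 4) (Fin 4) F) * altM v * (g : Matrix (Fin 4) (Fin 4) F)ᵀ) :=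
  klM_mulVec _ _

section Fin

variable [Fintype F]

/-- The Klein map to `Ω`. -/
noncomputable def klOm : Matrix.SpecialLinearGroup (Fin 4) F →* Omega F (quadFormPlus 3 F) :=
  (klIso (F := F)).codRestrict _ (by
    intro g
    have h : (commutator (Matrix.SpecialLinearGroup (Fin 4) F)).map (klIso (F := F)) ≤
        commutator (isometryGroup F (quadFormPlus 3 F)) := by
      rw [commutator_def, commutator_def, Subgroup.map_commutator]
      exact Subgroup.commutator_mono le_top le_top
    apply h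
    rw [Cfsg.Agent.Lib.Classical.Transvections.commutator_sl_eq_top (by simp)]
    exact ⟨g, trivial, rfl⟩)

omit [Fintype F] in
@[simp] theorem klOm_coe (g : Matrix.SpecialLinearGroup (Fin 4) F) :
    ((klOm g : Omega F (quadFormPlus 3 F)) : isometryGroup F (quadFormPlus 3 F)) = klIso g := rfl

end Fin

/-- `-1` in `SL₄`. -/
def negOne : Matrix.SpecialLinearGroup (Fin 4) F :=
  ⟨-1, by rw [Matrix.det_neg]; simp; ring⟩

theorem negOne_coe : ((negOne : Matrix.SpecialLinearGroup (Fin 4) F) : Matrix (Fin 4) (Fin 4) F) = -1 := rfl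

theorem negOne_sq : (negOne : Matrix.SpecialLinearGroup (Fin 4) F) * negOne = 1 := by
  apply Subtype.ext
  simp [negOne_coe]

theorem negOne_ne (h2 : (2 : F) ≠ 0) : (negOne : Matrix.SpecialLinearGroup (Fin 4) F) ≠ 1 := by
  intro h
  have h1 := congrArg (fun M : Matrix.SpecialLinearGroup (Fin 4) F => (M : Matrix (Fin 4) (Fin 4) F) 0 0) h
  simp [negOne_coe] at h1
  apply h2
  linear_combination -h1

/-- The wedge of two basis vectors. -/
def wd (a b : Fin 4) : Matrix (Fin 4) (Fin 4) F :=
  Matrix.single a b 1 - Matrix.single b a 1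

theorem wd_apply (a b p q : Fin 4) :
    wd a b p q = (if a = p ∧ b = q then (1 : F) else 0) - (if b = p ∧ a = q then (1 : F) else 0) := by
  simp [wd, Matrix.single_apply]

theorem conj_wd (g : Matrix (Fin 4) (Fin 4) F) (a b p q : Fin 4) :
    (g * wd (F := F) a b * gᵀ) p q = g p a * g q b - g p b * g q a := by
  fin_cases a <;> fin_cases b <;>
    simp [wd, Matrix.mul_apply, Matrix.single_apply, Fin.sum_univ_four, Matrix.mul_sub, Matrix.sub_mul] <;> ring

theorem wd_diag {a b : Fin 4} (hab : a ≠ b) (i : Fin 4) : wd (F := F) a b i i = 0 := by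
  rw [wd_apply]
  have h1 : ¬ (a = i ∧ b = i) := fun h => hab (h.1.trans h.2.symm)
  have h2 : ¬ (b = i ∧ a = i) := fun h => hab (h.2.trans h.1.symm)
  simp [h1, h2]

theorem wd_anti (a b i j : Fin 4) : wd (F := F) a b j i = - wd a b i j := by
  rw [wd_apply, wd_apply]
  fin_cases a <;> fin_cases b <;> fin_cases i <;> fin_cases j <;> simp

/-- The kernel of the action: matrices with `g X gᵀ = X` for all alternating `X` are `±1`. -/
theorem eq_of_fix (g : Matrix (Fin 4) (Fin 4) F)
    (hg : ∀ v, coordsM (g * altM v * gᵀ) = v) : g = 1 ∨ g = -1 := by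
  have hX : ∀ a b : Fin 4, a ≠ b → g * wd (F := F) a b * gᵀ = wd a b := by
    intro a b hab
    have h1 := alt_coords (wd (F := F) a b) (wd_diag hab) (wd_anti a b)
    have h2 := hg (coordsM (wd (F := F) a b))
    rw [h1] at h2
    have h3 := alt_coords (g * wd (F := F) a b * gᵀ) (conj_diag g _ (wd_diag hab) (wd_anti a b))
      (conj_anti g _ (wd_anti a b))
    rw [h2, h1] at h3
    exact h3.symm
  have hW : ∀ a b p q : Fin 4, a ≠ b → g p a * g q b - g p b * g q a = wd a b p q := by
    intro a b p q hab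
    rw [← conj_wd, hX a b hab]
  have hab1 : ∀ a b : Fin 4, a ≠ b → g a a * g b b - g a b * g b a = 1 := by
    intro a b hab
    rw [hW a b a b hab, wd_apply]
    simp [hab, hab.symm]
  have hoff : ∀ p a : Fin 4, p ≠ a → g p a = 0 := by
    intro p a hpa
    obtain ⟨b, hba, hbp⟩ : ∃ b : Fin 4, b ≠ a ∧ b ≠ p := by
      revert p a
      decide
    have e1 := hab1 a b hba.symm
    have e2 := hW a b p b hba.symm
    have e3 := hW a b p a hba.symm
    rw [wd_apply] at e2 e3
    simp only [hpa.symm, hbp, hba, hba.symm, hbp.symm, false_and, and_false, if_false, sub_zero] at e2 e3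
    have : g p a = g p a * (g a a * g b b - g a b * g b a) := by rw [e1, mul_one]
    rw [this]
    linear_combination (g a a) * e2 - (g b a) * e3
  have hdd : ∀ a b : Fin 4, a ≠ b → g a a * g b b = 1 := by
    intro a b hab
    have e1 := hab1 a b hab
    rw [hoff a b hab, zero_mul, sub_zero] at e1
    exact e1
  have h01 := hdd 0 1 (by decide)
  have h02 := hdd 0 2 (by decide)
  have h03 := hdd 0 3 (by decide)
  have h12 := hdd 1 2 (by decide)
  have h0 : g 0 0 ≠ 0 := left_ne_zero_of_mul_eq_one h01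
  have h1 : g 1 1 ≠ 0 := left_ne_zero_of_mul_eq_one h12
  have e2 : g 2 2 = g 1 1 := mul_left_cancel₀ h0 (h02.trans h01.symm)
  have e3 : g 3 3 = g 1 1 := mul_left_cancel₀ h0 (h03.trans h01.symm)
  have e0 : g 0 0 = g 1 1 := by
    apply mul_right_cancel₀ h1
    rw [h01]
    rw [e2] at h12
    exact h12.symm
  have hd2 : g 1 1 * g 1 1 = 1 := by rw [← e0, e0] at h01; exact h01
  have hd : g 1 1 = 1 ∨ g 1 1 = -1 := mul_self_eq_one_iff.1 hd2
  have hent : ∀ p q : Fin 4, g p q = if p = q then g 1 1 else 0 := by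
    intro p q
    by_cases hpq : p = q
    · subst hpq
      rw [if_pos rfl]
      fin_cases p
      · exact e0
      · rfl
      · exact e2
      · exact e3
    · rw [if_neg hpq, hoff p q hpq]
  rcases hd with hd | hd
  · left
    ext p q
    rw [hent, hd, Matrix.one_apply]
  · right
    ext p q
    rw [hent, hd, Matrix.neg_apply, Matrix.one_apply]
    split_ifs <;> simp

section Count

variable [Fintype F]

theorem klOm_eq_one_iff (g : Matrix.SpecialLinearGroup (Fin 4) F) : klOm g = 1 ↔ g = 1 ∨ g = negOne := by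
  constructor
  · intro h
    have h1 : klIso g = 1 := by
      have := congrArg (fun x : Omega F (quadFormPlus 3 F) => (x : isometryGroup F (quadFormPlus 3 F))) h
      simpa using this
    have h2 : ∀ v, coordsM ((g : Matrix (Fin 4) (Fin 4) F) * altM v * (g : Matrix (Fin 4) (Fin 4) F)ᵀ) = v := by
      intro v
      rw [← klIso_mulVec, h1]
      simp
    rcases eq_of_fix _ h2 with h3 | h3
    · left
      exact Subtype.ext h3
    · right
      exact Subtype.ext h3
  · rintro (rfl | rfl)
    · exact map_one _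
    · apply Subtype.ext
      apply Subtype.ext
      apply Units.ext
      apply Matrix.mulVec_injective
      funext v
      change (((klIso (negOne (F := F))).1 : Matrix.GeneralLinearGroup (Fin 3 ⊕ Fin 3) F) : Matrix (Fin 3 ⊕ Fin 3) (Fin 3 ⊕ Fin 3) F) *ᵥ v = _
      rw [klIso_mulVec, negOne_coe]
      simp [coords_alt]

theorem card_ker_klOm (h2 : (2 : F) ≠ 0) : Nat.card (klOm (F := F)).ker = 2 := by
  have hne := negOne_ne h2
  rw [Nat.card_eq_two_iff' (1 : (klOm (F := F)).ker)]
  refine ⟨⟨negOne, (klOm_eq_one_iff _).2 (Or.inr rfl)⟩, ?_, ?_⟩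
  · intro h
    exact hne (congrArg Subtype.val h)
  · rintro ⟨y, hy⟩ hy1
    rcases (klOm_eq_one_iff y).1 hy with h | h
    · exact absurd (Subtype.ext h) hy1
    · exact Subtype.ext h

theorem klOm_surjective {q : ℕ} (hF : Fintype.card F = q) (h2 : (2 : F) ≠ 0) :
    Function.Surjective (klOm (F := F)) := by
  classical
  have hq2 : 2 ≤ q := by
    rw [← hF]
    exact Fintype.one_lt_card
  have hSL : Nat.card (Matrix.SpecialLinearGroup (Fin (3 + 1)) F) = _ :=
    Cfsg.Agent.Lib.SemiSimple.Lift.card_SL_eq (F := F) (m := 3)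
  have hIso : Nat.card (isometryGroup F (quadFormPlus (2 + 1) F)) = _ :=
    Cfsg.Agent.Lib.Classical.QuadOrders.card_isometry_plus (F := F) (q := q)
      (by rw [Nat.card_eq_fintype_card, hF]) 2
  have hIdx : (Omega F (quadFormPlus 3 F)).index = 4 :=
    Cfsg.Agent.Lib.Orth.Closure.index_Omega_odd (Cfsg.Agent.Lib.Orth.Forms.plusForm 3 F) h2 (by simp)
      (Cfsg.Agent.Lib.Orth.Forms.plusForm_nondeg 3)
  have h1 := (Omega F (quadFormPlus 3 F)).index_mul_card
  rw [hIdx] at h1
  have h3 := (klOm (F := F)).ker.index_mul_card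
  rw [Subgroup.index_ker, card_ker_klOm h2] at h3
  rw [← MonoidHom.range_eq_top]
  apply Subgroup.eq_top_of_card_eq
  rw [hF] at hSL
  simp only [Finset.prod_range_succ, Finset.prod_range_zero, one_mul] at hSL hIso
  have e1 : Nat.card (isometryGroup F (quadFormPlus 3 F)) = 2 * Nat.card (Matrix.SpecialLinearGroup (Fin 4) F) := by
    change Nat.card (isometryGroup F (quadFormPlus (2 + 1) F)) = 2 * Nat.card (Matrix.SpecialLinearGroup (Fin (3 + 1)) F)
    rw [hIso, hSL]
    have hc : (3 + 1).choose 2 = 6 := by decide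
    rw [hc]
    norm_num
    ring
  omega

/-- The field has odd order. -/
theorem two_ne_of_odd {q : ℕ} (hF : Fintype.card F = q) (hq : Odd q) : (2 : F) ≠ 0 := by
  intro h
  have h1 : ringChar F = 2 := by
    have := CharP.ringChar_of_prime_eq_zero (R := F) Nat.prime_two (by exact_mod_cast h)
    exact this
  have h2 := FiniteField.even_card_of_char_two h1
  rw [hF] at h2
  exact (Nat.not_even_iff_odd.2 hq) (Nat.even_iff.2 h2)

end Count

end KleinMap

open KleinMap

variable {F : Type u} [Field F] [Fintype F]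

theorem plus3_perfect {q : ℕ} (hF : Fintype.card F = q) (hq : Odd q) :
    commutator (Omega F (quadFormPlus 3 F)) = ⊤ := by
  have hs := klOm_surjective hF (two_ne_of_odd hF hq)
  rw [eq_top_iff]
  intro x _
  obtain ⟨g, rfl⟩ := hs x
  have hg : g ∈ commutator (Matrix.SpecialLinearGroup (Fin 4) F) := by
    rw [Cfsg.Agent.Lib.Classical.Transvections.commutator_sl_eq_top (by simp)]
    trivial
  have h : (commutator (Matrix.SpecialLinearGroup (Fin 4) F)).map (klOm (F := F)) ≤
      commutator (Omega F (quadFormPlus 3 F)) := by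
    rw [commutator_def, commutator_def, Subgroup.map_commutator]
    exact Subgroup.commutator_mono le_top le_top
  exact h ⟨g, hg, rfl⟩

theorem plus3_bound {q : ℕ} (hF : Fintype.card F = q) (hq : Odd q)
    {Γ : Type u} [Group Γ] [Finite Γ] {σ : Γ →* Omega F (quadFormPlus 3 F)} (hσ : IsStemExtension σ) :
    ∃ z : Γ, z * z = 1 ∧ σ.ker = zpowers z := by
  have h2 := two_ne_of_odd hF hq
  have hs := klOm_surjective hF h2
  have hq2 : 2 ≤ q := by
    rw [← hF]
    exact Fintype.one_lt_card
  have hodd3 : Fintype.card F ≠ 2 := by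
    rw [hF]
    rintro rfl
    exact absurd hq (by decide)
  obtain ⟨s, hs2⟩ := Cfsg.Agent.Lib.Schur.SpStem.exists_section (ρ := klOm (F := F)) hσ.1 hσ.2.1
    (Cfsg.Agent.Lib.Classical.Transvections.commutator_sl_eq_top (by simp))
    (fun Δ _ _ τ hτ z hz => Cfsg.Agent.Lib.Schur.SLnStem.stem_sl_trivial hτ (by simp) (by simp) (fun _ => hodd3) hz)
  have hle := Cfsg.Agent.Lib.Schur.SLnStem.commutator_le_range_of_central (σ := σ) hσ.2.1 s (fun g => by
    obtain ⟨k, hk⟩ := hs (σ g)
    exact ⟨k, by rw [hs2, hk]⟩)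
  refine ⟨s negOne, ?_, ?_⟩
  · rw [← map_mul, negOne_sq, map_one]
  · ext a
    rw [MonoidHom.mem_ker]
    constructor
    · intro ha
      obtain ⟨k, rfl⟩ := hle (hσ.2.2 ha)
      rw [hs2] at ha
      rcases (klOm_eq_one_iff k).1 ha with rfl | rfl
      · rw [map_one]
        exact one_mem _
      · exact mem_zpowers _
    · intro ha
      obtain ⟨n, rfl⟩ := ha
      simp only [map_zpow, hs2]
      rw [(klOm_eq_one_iff negOne).2 (Or.inr rfl), one_zpow]

end Cfsg.Agent.Lib.OddStem
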