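import Cfsg.Agent.Lib.OddStem.Target
import Cfsg.Agent.Lib.PresOm.Fix

/-!
# The stabiliser of `e_b` centralises the rank one group at `b` (module L3)

`x ↦ ⁅lam x, M g⁆` has central values on the stabiliser (`levO_blk`). The stabiliser is generated by `T_kr`, `k, r ≠ b` (`fix2_mem`), each a commutator in the stabiliser:
`⁅T_ks(t), T_sr(1)⁆` if `m ≥ 4`, `⁅tt(k,r,u), T_kr(t/(u²-1))⁆` if `|F| > 3`. `comm_aux_theta`: if `⁅a,y⁆`, `⁅b,y⁆` are central, then `⁅a,b⁆` commutes with `y`.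
-/

set_option autoImplicit false

namespace Cfsg.Agent.Lib.OddStem

open Matrix Cfsg Subgroup Cfsg.Agent.Lib.PresOm Cfsg.Agent.Lib.PresSp.M2 Cfsg.Agent.Lib.PresSp.Mono
  Cfsg.Agent.Lib.PresSLn.TwoGen

universe u

section theta

/-- If `a`, `b` commute with `y` up to central elements, then the commutator of `a` and `b` commutes with `y`. -/
lemma comm_aux_theta {Γ : Type*} [Group Γ] {a b y : Γ} (ha : a * y * a⁻¹ * y⁻¹ ∈ center Γ)
    (hb : b * y * b⁻¹ * y⁻¹ ∈ center Γ) : Commute (a * b * a⁻¹ * b⁻¹) y := by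
  have cz : ∀ (g z w : Γ), z ∈ center Γ → g * (z * w) * g⁻¹ = z * (g * w * g⁻¹) := by
    intro g z w hz
    have h1 := mem_center_iff.1 hz g
    rw [← mul_assoc g, h1]
    group
  have cz' : ∀ (g z w : Γ), z ∈ center Γ → g⁻¹ * (z * w) * g = z * (g⁻¹ * w * g) := by
    intro g z w hz
    have := cz g⁻¹ z w hz
    simpa only [inv_inv] using this
  obtain ⟨za, hza⟩ : ∃ z, z = a * y * a⁻¹ * y⁻¹ := ⟨_, rfl⟩
  obtain ⟨zb, hzb⟩ : ∃ z, z = b * y * b⁻¹ * y⁻¹ := ⟨_, rfl⟩
  rw [← hza] at ha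
  rw [← hzb] at hb
  have hA : a * y * a⁻¹ = za * y := by
    rw [hza]
    group
  have hB : b * y * b⁻¹ = zb * y := by
    rw [hzb]
    group
  have hA' : a⁻¹ * y * a = za⁻¹ * y := by
    have h1 := cz' a za y ha
    rw [← hA] at h1
    have h2 : a⁻¹ * (a * y * a⁻¹) * a = y := by group
    rw [h2] at h1
    rw [eq_inv_mul_iff_mul_eq]
    exact h1.symm
  have hB' : b⁻¹ * y * b = zb⁻¹ * y := by
    have h1 := cz' b zb y hb
    rw [← hB] at h1
    have h2 : b⁻¹ * (b * y * b⁻¹) * b = y := by group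
    rw [h2] at h1
    rw [eq_inv_mul_iff_mul_eq]
    exact h1.symm
  have key : (a * b * a⁻¹ * b⁻¹) * y * (a * b * a⁻¹ * b⁻¹)⁻¹ = y := by
    calc (a * b * a⁻¹ * b⁻¹) * y * (a * b * a⁻¹ * b⁻¹)⁻¹
        = a * (b * (a⁻¹ * (b⁻¹ * y * b) * a) * b⁻¹) * a⁻¹ := by group
      _ = a * (b * (a⁻¹ * (zb⁻¹ * y) * a) * b⁻¹) * a⁻¹ := by rw [hB']
      _ = a * (b * (zb⁻¹ * (a⁻¹ * y * a)) * b⁻¹) * a⁻¹ := by rw [cz' a _ y (inv_mem hb)]
      _ = zb⁻¹ * (a * (b * (a⁻¹ * y * a) * b⁻¹) * a⁻¹) := by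
          rw [cz b _ _ (inv_mem hb), cz a _ _ (inv_mem hb)]
      _ = zb⁻¹ * (a * (b * (za⁻¹ * y) * b⁻¹) * a⁻¹) := by rw [hA']
      _ = zb⁻¹ * (za⁻¹ * (a * (b * y * b⁻¹) * a⁻¹)) := by
          rw [cz b _ _ (inv_mem ha), cz a _ _ (inv_mem ha)]
      _ = zb⁻¹ * (za⁻¹ * (a * (zb * y) * a⁻¹)) := by rw [hB]
      _ = zb⁻¹ * (za⁻¹ * (zb * (a * y * a⁻¹))) := by rw [cz a _ _ hb]
      _ = zb⁻¹ * (za⁻¹ * (zb * (za * y))) := by rw [hA]
      _ = y := by
          have h3 := mem_center_iff.1 hb za⁻¹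
          rw [← mul_assoc za⁻¹ zb, h3]
          group
  exact mul_inv_eq_iff_eq_mul.1 key

variable {m : ℕ} {F : Type u} [Field F] [Fintype F] {Γ : Type u} [Group Γ]
  {σ : Γ →* Omega F (quadFormOdd m F)}

/-- A unit with square different from one, if the field is large. -/
lemma exists_unit_sq_ne (h2 : (2 : F) ≠ 0) (hc : Fintype.card F ≠ 3) : ∃ u : Fˣ, (u : F) ^ 2 ≠ 1 := by
  classical
  by_contra hall
  push Not at hall
  have hsub : (Finset.univ : Finset F) ⊆ {0, 1, -1} := by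
    intro x _
    by_cases hx : x = 0
    · simp [hx]
    have h1 := hall (Units.mk0 x hx)
    have h3 : (x - 1) * (x + 1) = 0 := by
      have : x ^ 2 = 1 := h1
      linear_combination this
    rcases mul_eq_zero.1 h3 with h4 | h4
    · simp [sub_eq_zero.1 h4]
    · simp [eq_neg_of_add_eq_zero_left h4]
  have h5 := Finset.card_le_card hsub
  have h6 : ({0, 1, -1} : Finset F).card = 3 := by
    refine Finset.card_eq_three.2 ⟨0, 1, -1, zero_ne_one, ?_, ?_, rfl⟩
    · simp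
    · intro h
      apply h2
      have : (1 : F) + 1 = 0 := by
        nth_rw 1 [h]
        simp
      rw [← this]
      norm_num
  have h7 : ({0, 1, -1} : Finset F).card ≤ Fintype.card F := Finset.card_le_univ _
  rw [Finset.card_univ, h6] at h5
  rw [h6] at h7
  omega

/-- The stabiliser of `e_b` centralises the rank one group at `b`. -/
theorem lift_theta (hm : 3 ≤ m) (h2 : (2 : F) ≠ 0) (hexc : ¬ (m = 3 ∧ Fintype.card F = 3)) (hcen : σ.ker ≤ center Γ)
    (lam : SpecialLinearGroup (Fin m) F →* Γ) (hlam : ∀ l, iOm (σ (lam l)) = levO l) {b : Fin m} (M : M2 F →* Γ)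
    (hM : ∀ g, iOm (σ (M g)) = blk b g) (l : SpecialLinearGroup (Fin m) F) (h1 : l.1 *ᵥ Pi.single b 1 = Pi.single b 1)
    (h3 : Pi.single b 1 ᵥ* l.1 = Pi.single b 1) (g : M2 F) : Commute (lam l) (M g) := by
  classical
  have hA : ∀ x : SpecialLinearGroup (Fin m) F, Mv x b b 1 →
      lam x * M g * (lam x)⁻¹ * (M g)⁻¹ ∈ center Γ := by
    intro x hx
    apply hcen
    rw [MonoidHom.mem_ker]
    apply iOm_inj
    have hx' : Mu x b b 1 := Mu.of_Mv hx (by simp)
    have h4 := levO_blk h2 hx' g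
    rw [kp_one] at h4
    simp only [map_mul, map_inv, map_one, hlam, hM]
    rw [h4]
    group
  have hB : ∀ (k r : Fin m) (hkr : k ≠ r), k ≠ b → r ≠ b → ∀ t : F, Commute (lam (TT hkr t)) (M g) := by
    intro k r hkr hkb hrb t
    by_cases hc : Fintype.card F = 3
    · -- `m ≥ 4`
      have hm4 : 4 ≤ m := by
        by_contra hlt
        exact hexc ⟨by omega, hc⟩
      obtain ⟨s, hsk, hsr, hsb⟩ : ∃ s : Fin m, s ≠ k ∧ s ≠ r ∧ s ≠ b := by
        by_contra hcon
        push Not at hcon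
        have hsub : (Finset.univ : Finset (Fin m)) ⊆ {k, r, b} := by
          intro s _
          by_cases h5 : s = k
          · simp [h5]
          by_cases h6 : s = r
          · simp [h6]
          simp [hcon s h5 h6]
        have h7 := Finset.card_le_card hsub
        have h8 : ({k, r, b} : Finset (Fin m)).card ≤ 3 := Finset.card_le_three
        simp only [Finset.card_univ, Fintype.card_fin] at h7
        omega
      have hks : k ≠ s := hsk.symm
      have hsr' : s ≠ r := hsr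
      have e := T_conj_next hks hsr' hkr t 1
      rw [mul_one] at e
      have e2 : TT hkr t = TT hks t * TT hsr' 1 * (TT hks t)⁻¹ * (TT hsr' 1)⁻¹ := by
        rw [e]
        group
      rw [e2]
      simp only [map_mul, map_inv]
      exact comm_aux_theta (hA _ (Mv.T_fix hks hkb hsb.symm.symm t)) (hA _ (Mv.T_fix hsr' hsb hrb 1))
    · obtain ⟨u, hu⟩ := exists_unit_sq_ne h2 hc
      have hd : ((u : F) ^ 2 - 1) ≠ 0 := sub_ne_zero.2 hu
      have e := tt_conj_ab hkr u (t / ((u : F) ^ 2 - 1))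
      have e2 : TT hkr t = tt hkr u * TT hkr (t / ((u : F) ^ 2 - 1)) * (tt hkr u)⁻¹ * (TT hkr (t / ((u : F) ^ 2 - 1)))⁻¹ := by
        rw [e, ← TT_neg, ← TT_add]
        congr 1
        field_simp
        ring
      rw [e2]
      simp only [map_mul, map_inv]
      exact comm_aux_theta (hA _ (mv_tt_fix hkr u hkb.symm hrb.symm))
        (hA _ (Mv.T_fix hkr hkb hrb _))
  -- the stabiliser
  obtain ⟨p, hp, q, hq, hpq⟩ : ∃ p ∈ (Finset.univ.erase b : Finset (Fin m)), ∃ q ∈ (Finset.univ.erase b : Finset (Fin m)), p ≠ q := by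
    apply Finset.one_lt_card.1
    rw [Finset.card_erase_of_mem (Finset.mem_univ _), Finset.card_univ, Fintype.card_fin]
    omega
  have hpb : p ≠ b := (Finset.mem_erase.1 hp).1
  have hqb : q ≠ b := (Finset.mem_erase.1 hq).1
  let K : Subgroup (SpecialLinearGroup (Fin m) F) := (Subgroup.centralizer {M g}).comap lam
  have hK : l ∈ K := by
    refine fix2_mem (x := b) (y := b) hpq hpb hpb hqb hqb K ?_ (g := l) ?_ ?_
    · intro k r hkr hk _ hr _ t
      have := hB k r hkr hk hr t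
      rw [Subgroup.mem_comap, Subgroup.mem_centralizer_singleton_iff]
      exact this.eq
    · exact ⟨h1, h3, by simp⟩
    · exact ⟨h1, h3, by simp⟩
  rw [Subgroup.mem_comap, Subgroup.mem_centralizer_singleton_iff] at hK
  exact hK

end theta

end Cfsg.Agent.Lib.OddStem
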