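import Cfsg.Agent.Lib.OddStem.Defs
import Cfsg.Agent.Lib.OmStem.Cover

/-!
# S2094 module Lower

Lower bound: a stem extension of `Ω_{2m+1}(F)` with kernel of order 2, inside the Clifford group of the plus form of rank `m+1`.
`J : V → H^{m+1}`, `(x₀,x,y) ↦ (x,x₀;y,x₀)` is isometric; `ψ = extOm`. `Γ` is the part of `Ut` over the image of `ψ`, `C = ⁅Γ,Γ⁆ ≤ Us`, which maps onto `G` (`G` perfect), with kernel in `{1, (1,-1)}`;
`(1,-1) = ⁅X,Y⁆` with `X, Y ∈ Γ` the lifts of products of reflections in the vectors `e_i + f_i`, which are in the image of `J`.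
-/

set_option autoImplicit false

namespace Cfsg.Agent.Lib.OddStem

open Matrix Cfsg Subgroup QuadraticMap
open Cfsg.Agent.Lib.OmStem Cfsg.Agent.Lib.PresOm
open Cfsg.Agent.Lib.Orth.Bridge Cfsg.Agent.Lib.Orth.Refl Cfsg.Agent.Lib.Orth.Gen
  Cfsg.Agent.Lib.Orth.Spin Cfsg.Agent.Lib.Orth.Forms Cfsg.Agent.Lib.Orth.Closure

open scoped commutatorElement

universe u

namespace LowerAux

section ext

variable {ι ι' : Type} [Fintype ι] [DecidableEq ι] [Fintype ι'] [DecidableEq ι'] {F : Type*} [Field F]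

/-- The extension of a reflection is a reflection. -/
theorem ext_reflEl (Q' : QuadraticForm F (ι' → F)) (Q : QuadraticForm F (ι → F)) (E : IsoEmb (⇑Q') (⇑Q)) (w : ι' → F) :
    E.ext (reflEl Q' w) = reflEl Q (E.J w) := by
  have h0 : (⇑Q) 0 = 0 := map_zero Q
  have hQJ : ∀ x, Q (E.J x) = Q' x := E.Q_J h0
  have hpolJ : ∀ a b, polar (⇑Q) (E.J a) (E.J b) = polar (⇑Q') a b := by
    intro a b
    simp only [polar, ← map_add, hQJ]
  have hperp : ∀ x v, polar (⇑Q) (E.J x) (v - E.J (E.P v)) = 0 := by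
    intro x v
    have h1 : polar (⇑Q) (E.J x) (v - E.J (E.P v)) = Q (E.J x + (v - E.J (E.P v))) - Q (E.J x) - Q (v - E.J (E.P v)) := rfl
    rw [h1, E.split, hQJ]
    ring
  have hpol : ∀ v, polar (⇑Q') (E.P v) w = polar (⇑Q) v (E.J w) := by
    intro v
    have e : v = E.J (E.P v) + (v - E.J (E.P v)) := by abel
    have h1 : polar (⇑Q) v (E.J w) = polar (⇑Q) (E.J (E.P v)) (E.J w) + polar (⇑Q) (v - E.J (E.P v)) (E.J w) := by
      conv_lhs => rw [e]
      exact QuadraticMap.polar_add_left (Q := Q) _ _ _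
    rw [h1, hpolJ, polar_comm (⇑Q) (v - E.J (E.P v)), hperp, add_zero]
  apply Subtype.ext
  apply Units.ext
  apply Matrix.mulVec_injective
  funext v
  change (((E.ext (reflEl Q' w)).1 : GeneralLinearGroup ι F) : Matrix ι ι F) *ᵥ v =
    ((reflEl Q (E.J w) : isometryGroup F ⇑Q) : GeneralLinearGroup ι F).val *ᵥ v
  rw [E.ext_mulVec, reflEl_val, reflEl_val, reflectionMatrix_mulVec_eq, reflectionMatrix_mulVec_eq, refl_apply, refl_apply,
    hQJ, hpol]
  simp only [sub_sub_cancel_left, map_neg, map_smul]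
  abel

end ext

section cliff

variable {n : ℕ} {F : Type u} [Field F]

local notation "QQ" => Cfsg.Agent.Lib.Orth.Forms.plusForm n F

/-- An element of `Ut` with trivial first coordinate is central in the product. -/
lemma central_of_fst {p : Omega F (quadFormPlus n F) × GeneralLinearGroup (Bt n) F}
    (hp : p ∈ Ut n F) (h1 : p.1 = 1) (x : Omega F (quadFormPlus n F) × GeneralLinearGroup (Bt n) F) :
    p * x = x * p := by
  obtain ⟨c, hc⟩ := ut_scalar hp h1
  rcases p with ⟨g, A⟩
  change g = 1 at h1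
  subst h1
  refine Prod.ext (by simp) ?_
  apply Units.ext
  change (A : MS n F) * (x.2 : MS n F) = (x.2 : MS n F) * (A : MS n F)
  change (A : MS n F) = _ at hc
  rw [hc]
  simp

lemma neg_ne_one_GL (h2 : (2 : F) ≠ 0) : (-1 : GeneralLinearGroup (Bt n) F) ≠ 1 := by
  intro h
  have h1 := congrArg (fun x : GeneralLinearGroup (Bt n) F => (x : MS n F)) h
  have h3 := congrFun (congrFun h1 (fun _ => false)) (fun _ => false)
  have h4 : (-1 : F) = 1 := by simpa using h3
  apply h2
  have : (2 : F) = 1 - (-1) := by ring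
  rw [this, h4, sub_self]

open LiftAux in
/-- The two lifts with commutator `(1,-1)`. -/
theorem exists_neg_comm [Fintype F] (hn : 4 ≤ n) {i1 i2 i3 : Fin n} (h12 : i1 ≠ i2) (h23 : i2 ≠ i3) (h13 : i1 ≠ i3) :
    ∃ X Y : Omega F (quadFormPlus n F) × GeneralLinearGroup (Bt n) F, X ∈ Ut n F ∧ Y ∈ Ut n F ∧
      (X.1 : isometryGroup F (quadFormPlus n F)) = reflEl (QQ) (vv i1) * reflEl (QQ) (vv i2) ∧
      (Y.1 : isometryGroup F (quadFormPlus n F)) = reflEl (QQ) (vv i2) * reflEl (QQ) (vv i3) ∧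
      ⁅X, Y⁆ = ((1 : Omega F (quadFormPlus n F)), (-1 : GeneralLinearGroup (Bt n) F)) := by
  have hQ := plusForm_nondeg (F := F) n
  have hcard : Fintype.card F ≠ 2 ∨ Fintype.card (Fin n ⊕ Fin n) ≠ 4 := by
    right
    simp
    omega
  -- the reflections
  let r : Fin n → isometryGroup F (⇑(QQ)) := fun i => reflEl (QQ) (vv i)
  have hcomm : ∀ {i j : Fin n}, i ≠ j → Commute (r i) (r j) := by
    intro i j hij
    apply (toIso (QQ)).injective
    apply Subtype.ext
    simp only [map_mul, r, reflEl, MulEquiv.apply_symm_apply, Subgroup.coe_mul]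
    exact refl_comm_of_ortho (QQ) (polar_vv hij)
  -- the two elements of `Ω`
  have hmem : ∀ {i j : Fin n}, (r i * r j) ∈ Omega F (⇑(QQ)) := by
    intro i j
    refine (word_mem_Omega_iff (QQ) hQ hcard (r i * r j) [vv i, vv j] ?_ ?_).mpr ⟨by simp, ?_⟩
    · intro v hv
      simp only [List.mem_cons, List.not_mem_nil, or_false] at hv
      rcases hv with rfl | rfl <;> rw [Q_vv] <;> exact one_ne_zero
    · simp only [List.map_cons, List.map_nil, List.prod_cons, List.prod_nil, mul_one]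
      rw [← reflEl_val, ← reflEl_val]
      rfl
    · simp only [List.map_cons, List.map_nil, List.prod_cons, List.prod_nil, mul_one, Q_vv]
      exact ⟨1, by simp⟩
  let ω : Fin n → Fin n → Omega F (quadFormPlus n F) := fun i j => ⟨r i * r j, hmem⟩
  have hvs : ∀ i j : Fin n, ∀ v ∈ [vv i, vv j], (QQ) v ≠ 0 := by
    intro i j v hv
    simp only [List.mem_cons, List.not_mem_nil, or_false] at hv
    rcases hv with rfl | rfl <;> rw [Q_vv] <;> exact one_ne_zero
  have hlift : ∀ i j : Fin n, (ω i j, (isUnit_word [vv i, vv j] (hvs i j)).unit) ∈ Ut n F := by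
    intro i j
    refine lift_of_word (ω i j) [vv i, vv j] (hvs i j) (by simp) ?_
    intro u
    have : ((iO (ω i j) : GeneralLinearGroup (Fin n ⊕ Fin n) F) : Matrix (Fin n ⊕ Fin n) (Fin n ⊕ Fin n) F) =
        ((reflEl (QQ) (vv i) : isometryGroup F (⇑(QQ))) : GeneralLinearGroup (Fin n ⊕ Fin n) F).val *
          ((reflEl (QQ) (vv j) : isometryGroup F (⇑(QQ))) : GeneralLinearGroup (Fin n ⊕ Fin n) F).val := rfl
    rw [this, reflEl_val, reflEl_val, ← Matrix.mulVec_mulVec, reflectionMatrix_mulVec_eq,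
      reflectionMatrix_mulVec_eq]
    simp
  refine ⟨_, _, hlift i1 i2, hlift i2 i3, rfl, rfl, ?_⟩
  symm
  refine Prod.ext ?_ ?_
  · -- the `Ω` part
    have hC : Commute (ω i1 i2) (ω i2 i3) := by
      apply Subtype.ext
      exact Commute.mul_left (Commute.mul_right (hcomm h12) (hcomm h13))
        (Commute.mul_right (Commute.refl _) (hcomm h23))
    exact (commutatorElement_eq_one_iff_commute.mpr hC).symm
  · -- the matrix part
    have ha : OmStem.rho (vv i1 : Fin n ⊕ Fin n → F) * OmStem.rho (vv i2) = -(OmStem.rho (vv i2) * OmStem.rho (vv i1)) := rho_vv_anti h12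
    have hb : OmStem.rho (vv i2 : Fin n ⊕ Fin n → F) * OmStem.rho (vv i3) = -(OmStem.rho (vv i3) * OmStem.rho (vv i2)) := rho_vv_anti h23
    have hc' : OmStem.rho (vv i3 : Fin n ⊕ Fin n → F) * OmStem.rho (vv i1) = -(OmStem.rho (vv i1) * OmStem.rho (vv i3)) := rho_vv_anti h13.symm
    have hba : OmStem.rho (vv i2 : Fin n ⊕ Fin n → F) * OmStem.rho (vv i1) = -(OmStem.rho (vv i1) * OmStem.rho (vv i2)) := rho_vv_anti h12.symm
    have hbb : OmStem.rho (vv i2 : Fin n ⊕ Fin n → F) * OmStem.rho (vv i2) = 1 := rho_vv_sq i2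
    have key : OmStem.rho (vv i1 : Fin n ⊕ Fin n → F) * OmStem.rho (vv i2) * (OmStem.rho (vv i2) * OmStem.rho (vv i3)) =
        -(OmStem.rho (vv i2) * OmStem.rho (vv i3) * (OmStem.rho (vv i1) * OmStem.rho (vv i2))) := by
      generalize OmStem.rho (vv i1 : Fin n ⊕ Fin n → F) = a at ha hc' hba
      generalize OmStem.rho (vv i2 : Fin n ⊕ Fin n → F) = b at ha hb hba hbb
      generalize OmStem.rho (vv i3 : Fin n ⊕ Fin n → F) = c at hb hc'
      have h1 : b * c * (a * b) = -(a * c) := by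
        calc b * c * (a * b) = b * (c * a) * b := by simp only [mul_assoc]
          _ = -((b * a) * c * b) := by rw [hc']; simp only [mul_neg, neg_mul, mul_assoc]
          _ = a * (b * c) * b := by rw [hba]; simp only [mul_neg, neg_mul, mul_assoc, neg_neg]
          _ = -(a * c * (b * b)) := by rw [hb]; simp only [mul_neg, neg_mul, mul_assoc]
          _ = -(a * c) := by rw [hbb, mul_one]
      rw [h1, neg_neg]
      calc a * b * (b * c) = a * (b * b) * c := by simp only [mul_assoc]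
        _ = a * c := by rw [hbb, mul_one]
    have hXY : (isUnit_word [vv i1, vv i2] (hvs i1 i2)).unit * (isUnit_word [vv i2, vv i3] (hvs i2 i3)).unit =
        (-1) * ((isUnit_word [vv i2, vv i3] (hvs i2 i3)).unit * (isUnit_word [vv i1, vv i2] (hvs i1 i2)).unit) := by
      apply Units.ext
      simp only [Units.val_mul, IsUnit.unit_spec, Units.val_neg, Units.val_one, List.map_cons, List.map_nil,
        List.prod_cons, List.prod_nil, mul_one, neg_mul, one_mul]
      exact key
    change (-1 : GeneralLinearGroup (Bt n) F) = (isUnit_word [vv i1, vv i2] (hvs i1 i2)).unit *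
      (isUnit_word [vv i2, vv i3] (hvs i2 i3)).unit * ((isUnit_word [vv i1, vv i2] (hvs i1 i2)).unit)⁻¹ *
      ((isUnit_word [vv i2, vv i3] (hvs i2 i3)).unit)⁻¹
    rw [hXY]
    simp [mul_assoc]

lemma comm_central {P : Type*} [Group P] {c d s t : P} (hs : ∀ g, s * g = g * s) (ht : ∀ g, t * g = g * t) :
    ⁅c * s, d * t⁆ = ⁅c, d⁆ := by
  have hs' : s ∈ Subgroup.center P := Subgroup.mem_center_iff.2 fun g => (hs g).symm
  have ht' : t ∈ Subgroup.center P := Subgroup.mem_center_iff.2 fun g => (ht g).symm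
  have hsi : ∀ g, s⁻¹ * g = g * s⁻¹ := fun g => (Subgroup.mem_center_iff.1 (inv_mem hs') g).symm
  have hti : ∀ g, t⁻¹ * g = g * t⁻¹ := fun g => (Subgroup.mem_center_iff.1 (inv_mem ht') g).symm
  rw [commutatorElement_def, commutatorElement_def]
  have h1 : c * s * (d * t) * (c * s)⁻¹ * (d * t)⁻¹ = c * (s * d) * t * (s⁻¹ * c⁻¹) * (t⁻¹ * d⁻¹) := by group
  rw [h1, hs d]
  have h2 : c * (d * s) * t * (s⁻¹ * c⁻¹) * (t⁻¹ * d⁻¹) = c * d * (s * t * s⁻¹) * c⁻¹ * (t⁻¹ * d⁻¹) := by group
  rw [h2, hs t, mul_assoc t, mul_inv_cancel, mul_one]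
  have h3 : c * d * t * c⁻¹ * (t⁻¹ * d⁻¹) = c * d * (t * c⁻¹) * t⁻¹ * d⁻¹ := by group
  rw [h3, ht c⁻¹]
  group

/-- The cover, for any perfect group embedded in `Ω⁺` with an element of the kernel as a commutator. -/
theorem cover_of_embedding [Fintype F] (h2 : (2 : F) ≠ 0) (hn : 4 ≤ n) {G : Type u} [Group G] (hG : commutator G = ⊤)
    (ψ : G →* Omega F (quadFormPlus n F)) (hψ : Function.Injective ψ)
    (X Y : Omega F (quadFormPlus n F) × GeneralLinearGroup (Bt n) F) (hX : X ∈ Ut n F) (hY : Y ∈ Ut n F)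
    (hXr : X.1 ∈ ψ.range) (hYr : Y.1 ∈ ψ.range)
    (hXY : ⁅X, Y⁆ = ((1 : Omega F (quadFormPlus n F)), (-1 : GeneralLinearGroup (Bt n) F))) :
    ∃ (C : Type u) (_ : Group C) (_ : Finite C) (π : C →* G), IsStemExtension π ∧ Nat.card π.ker = 2 := by
  classical
  let fst' : (Omega F (quadFormPlus n F) × GeneralLinearGroup (Bt n) F) →* Omega F (quadFormPlus n F) := MonoidHom.fst _ _
  let Γ : Subgroup (Omega F (quadFormPlus n F) × GeneralLinearGroup (Bt n) F) := Ut n F ⊓ ψ.range.comap fst'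
  let C : Subgroup (Omega F (quadFormPlus n F) × GeneralLinearGroup (Bt n) F) := ⁅Γ, Γ⁆
  have hCΓ : C ≤ Γ := Subgroup.commutator_le.2 fun _ h₁ _ h₂ =>
    mul_mem (mul_mem (mul_mem h₁ h₂) (inv_mem h₁)) (inv_mem h₂)
  have hCU : C ≤ Us n F := Subgroup.commutator_mono inf_le_left inf_le_left
  haveI hfin : Finite C := Finite.of_injective (Subgroup.inclusion hCU) (Subgroup.inclusion_injective hCU)
  let e : G ≃* ψ.range := MonoidHom.ofInjective hψ
  let f : Γ →* ψ.range := (fst'.comp Γ.subtype).codRestrict ψ.range (fun x => x.2.2)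
  let φ : Γ →* G := e.symm.toMonoidHom.comp f
  have hφ : ∀ x : Γ, ψ (φ x) = (x : Omega F (quadFormPlus n F) × GeneralLinearGroup (Bt n) F).1 := by
    intro x
    have h1 : e (φ x) = f x := e.apply_symm_apply _
    exact congrArg Subtype.val h1
  have hφs : Function.Surjective φ := by
    intro g
    obtain ⟨p, hp⟩ := (piU_stem h2 hn).1 (ψ g)
    have hpU : (p : Omega F (quadFormPlus n F) × GeneralLinearGroup (Bt n) F) ∈ Ut n F := Us_le_Ut p.2
    have hpr : (p : Omega F (quadFormPlus n F) × GeneralLinearGroup (Bt n) F) ∈ Γ := ⟨hpU, ⟨g, hp.symm⟩⟩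
    refine ⟨⟨_, hpr⟩, hψ ?_⟩
    rw [hφ]
    exact hp
  let π : C →* G := φ.comp (Subgroup.inclusion hCΓ)
  have hπ : ∀ x : C, ψ (π x) = (x : Omega F (quadFormPlus n F) × GeneralLinearGroup (Bt n) F).1 := fun x => hφ _
  have hπs : Function.Surjective π := by
    intro g
    have hg : g ∈ (commutator Γ).map φ := by
      have h1 : (commutator Γ).map φ = ⊤ := by
        rw [commutator_def, Subgroup.map_commutator, (Subgroup.map_top_of_surjective φ hφs), ← commutator_def, hG]
      rw [h1]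
      trivial
    obtain ⟨y, hy, rfl⟩ := hg
    have hyC : (y : Omega F (quadFormPlus n F) × GeneralLinearGroup (Bt n) F) ∈ C := by
      have h1 : (commutator Γ).map Γ.subtype = C := Subgroup.map_subtype_commutator _
      rw [← h1]
      exact ⟨y, hy, rfl⟩
    refine ⟨⟨_, hyC⟩, ?_⟩
    change φ (Subgroup.inclusion hCΓ ⟨_, hyC⟩) = φ y
    congr 1
  have hker : ∀ x : C, π x = 1 → ((x : Omega F (quadFormPlus n F) × GeneralLinearGroup (Bt n) F) = 1 ∨
      (x : Omega F (quadFormPlus n F) × GeneralLinearGroup (Bt n) F) = ((1 : Omega F (quadFormPlus n F)), (-1 : GeneralLinearGroup (Bt n) F))) := by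
    intro x hx
    have h1 : (x : Omega F (quadFormPlus n F) × GeneralLinearGroup (Bt n) F).1 = 1 := by
      rw [← hπ, hx, map_one]
    rcases piU_ker (n := n) h2 hn (x := ⟨x.1, hCU x.2⟩) h1 with h3 | h3
    · left
      exact Prod.ext h1 h3
    · right
      exact Prod.ext h1 h3
  -- `C` is perfect
  have hle : C ≤ ⁅C, C⁆ := by
    have hcov : ∀ a ∈ Γ, ∃ c ∈ C, ∃ s ∈ Ut n F, s.1 = 1 ∧ a = c * s := by
      intro a ha
      obtain ⟨c, hc⟩ := hπs (φ ⟨a, ha⟩)
      have h1 : (c : Omega F (quadFormPlus n F) × GeneralLinearGroup (Bt n) F).1 = a.1 := by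
        rw [← hπ, hc, hφ]
      refine ⟨c, c.2, (c : Omega F (quadFormPlus n F) × GeneralLinearGroup (Bt n) F)⁻¹ * a,
        mul_mem (inv_mem (hCΓ c.2).1) ha.1, ?_, by group⟩
      change (c : Omega F (quadFormPlus n F) × GeneralLinearGroup (Bt n) F).1⁻¹ * a.1 = 1
      rw [h1, inv_mul_cancel]
    refine Subgroup.commutator_le.2 fun a ha b hb => ?_
    obtain ⟨c, hc, s, hs, hs1, rfl⟩ := hcov a ha
    obtain ⟨d, hd, t, ht, ht1, rfl⟩ := hcov b hb
    rw [comm_central (central_of_fst hs hs1) (central_of_fst ht ht1)]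
    exact Subgroup.commutator_mem_commutator hc hd
  have hXΓ : X ∈ Γ := ⟨hX, hXr⟩
  have hYΓ : Y ∈ Γ := ⟨hY, hYr⟩
  have hnegC : ((1 : Omega F (quadFormPlus n F)), (-1 : GeneralLinearGroup (Bt n) F)) ∈ C := by
    rw [← hXY]
    exact Subgroup.commutator_mem_commutator hXΓ hYΓ
  have hnegK : π ⟨_, hnegC⟩ = 1 := by
    apply hψ
    rw [hπ, map_one]
  refine ⟨C, inferInstance, hfin, π, ⟨hπs, ?_, ?_⟩, ?_⟩
  · intro x hx
    rw [Subgroup.mem_center_iff]
    intro y
    apply Subtype.ext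
    rcases hker x hx with h | h
    · change (y : Omega F (quadFormPlus n F) × GeneralLinearGroup (Bt n) F) * (x : Omega F (quadFormPlus n F) × GeneralLinearGroup (Bt n) F) = (x : Omega F (quadFormPlus n F) × GeneralLinearGroup (Bt n) F) * y
      rw [h]
      simp
    · change (y : Omega F (quadFormPlus n F) × GeneralLinearGroup (Bt n) F) * (x : Omega F (quadFormPlus n F) × GeneralLinearGroup (Bt n) F) = (x : Omega F (quadFormPlus n F) × GeneralLinearGroup (Bt n) F) * y
      rw [h]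
      refine Prod.ext (by simp) ?_
      simp
  · intro x _
    have h1 : (commutator C).map C.subtype = ⁅C, C⁆ := Subgroup.map_subtype_commutator _
    have h3 := hle x.2
    rw [← h1] at h3
    obtain ⟨y, hy, hye⟩ := h3
    have : y = x := Subtype.ext hye
    rwa [← this]
  · rw [Nat.card_eq_two_iff]
    refine ⟨1, ⟨⟨_, hnegC⟩, hnegK⟩, ?_, ?_⟩
    · intro h
      have h1 := congrArg (fun x : π.ker => ((x : C) : Omega F (quadFormPlus n F) × GeneralLinearGroup (Bt n) F).2) h
      exact neg_ne_one_GL h2 h1.symm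
    · ext ⟨x, hx⟩
      simp only [Set.mem_insert_iff, Set.mem_singleton_iff, Set.mem_univ, iff_true]
      rcases hker x hx with h | h
      · left
        exact Subtype.ext (Subtype.ext h)
      · right
        exact Subtype.ext (Subtype.ext h)

end cliff

section form

variable {m : ℕ} {F : Type u} [Field F]

/-- The embedding `(x₀,x,y) ↦ (x,x₀;y,x₀)`. -/
def jj (v : Unit ⊕ (Fin m ⊕ Fin m) → F) : Fin (m + 1) ⊕ Fin (m + 1) → F :=
  Sum.elim (fun i => Fin.lastCases (motive := fun _ => F) (v (.inl ())) (fun j => v (.inr (.inl j))) i)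
    (fun i => Fin.lastCases (motive := fun _ => F) (v (.inl ())) (fun j => v (.inr (.inr j))) i)

/-- The embedding, as a linear map. -/
def JJ : (Unit ⊕ (Fin m ⊕ Fin m) → F) →ₗ[F] (Fin (m + 1) ⊕ Fin (m + 1) → F) where
  toFun := jj
  map_add' := by
    intro a b
    funext x
    rcases x with i | i <;> induction i using Fin.lastCases <;> simp [jj]
  map_smul' := by
    intro c a
    funext x
    rcases x with i | i <;> induction i using Fin.lastCases <;> simp [jj]

theorem Q_JJ (v : Unit ⊕ (Fin m ⊕ Fin m) → F) :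
    plusForm (m + 1) F (JJ v) = oddForm m F v := by
  change quadFormPlus (m + 1) F (jj v) = quadFormOdd m F v
  simp only [quadFormPlus, quadFormOdd, jj, Sum.elim_inl, Sum.elim_inr]
  rw [Fin.sum_univ_castSucc]
  simp only [Fin.lastCases_castSucc, Fin.lastCases_last]
  ring

/-- The vector `e_a + f_a` of the odd space. -/
def ww (a : Fin m) : Unit ⊕ (Fin m ⊕ Fin m) → F :=
  Sum.elim (fun _ => 0) (Sum.elim (Pi.single a 1) (Pi.single a 1))

theorem Q_ww (a : Fin m) : oddForm m F (ww a) = 1 := by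
  change quadFormOdd m F (ww a) = 1
  simp only [quadFormOdd, ww, Sum.elim_inl, Sum.elim_inr]
  rw [Finset.sum_eq_single a]
  · simp
  · intro j _ hj
    simp [hj]
  · simp

theorem JJ_ww (a : Fin m) : (JJ (ww a : Unit ⊕ (Fin m ⊕ Fin m) → F) : Fin (m + 1) ⊕ Fin (m + 1) → F) = LiftAux.vv a.castSucc := by
  funext x
  change jj (ww a) x = _
  rcases x with i | i <;> induction i using Fin.lastCases with
  | last => simp [jj, ww, LiftAux.vv, Pi.single_apply, (Fin.castSucc_lt_last a).ne]
  | cast j => simp [jj, ww, LiftAux.vv, Pi.single_apply, Fin.castSucc_inj]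

end form

end LowerAux

open LowerAux

variable {F : Type u} [Field F] [Fintype F]

theorem exists_cover {q : ℕ} (hF : Fintype.card F = q) (hq : Odd q) (m : ℕ) (hm : 3 ≤ m) :
    ∃ (C : Type u) (_ : Group C) (_ : Finite C) (π : C →* GO m F), IsStemExtension π ∧ Nat.card π.ker = 2 := by
  classical
  have h2 : (2 : F) ≠ 0 := by
    intro h
    have h1 : ringChar F = 2 := by
      have := CharP.ringChar_of_prime_eq_zero (R := F) (p := 2) Nat.prime_two (by exact_mod_cast h)
      exact this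
    have h3 := FiniteField.even_card_iff_char_two.1 h1
    rw [hF] at h3
    rcases hq with ⟨k, rfl⟩
    omega
  have hQ' := oddForm_nondeg (F := F) m h2
  obtain ⟨E, hE⟩ := exists_isoEmb (oddForm m F) (plusForm (m + 1) F) hQ' JJ Q_JJ
  have hG : commutator (GO m F) = ⊤ :=
    Cfsg.Agent.Lib.LocalBal.OmMain.perfect_omega (F := F) (ι := Unit ⊕ (Fin m ⊕ Fin m)) (Q := oddForm m F) hQ'
      (by simp; omega)
  let a0 : Fin m := ⟨0, by omega⟩
  let a1 : Fin m := ⟨1, by omega⟩
  let a2 : Fin m := ⟨2, by omega⟩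
  have h01 : a0.castSucc ≠ a1.castSucc := by simp [a0, a1, Fin.ext_iff]
  have h12 : a1.castSucc ≠ a2.castSucc := by simp [a1, a2, Fin.ext_iff]
  have h02 : a0.castSucc ≠ a2.castSucc := by simp [a0, a2, Fin.ext_iff]
  obtain ⟨X, Y, hX, hY, hX1, hY1, hXY⟩ := exists_neg_comm (n := m + 1) (F := F) (by omega) h01 h12 h02
  -- elements of the image
  have hcard : Fintype.card F ≠ 2 ∨ Fintype.card (Unit ⊕ (Fin m ⊕ Fin m)) ≠ 4 := by
    right
    simp
    omega
  let r' : Fin m → isometryGroup F (⇑(oddForm m F)) := fun a => reflEl (oddForm m F) (ww a)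
  have hmem : ∀ a b : Fin m, r' a * r' b ∈ Omega F (⇑(oddForm m F)) := by
    intro a b
    refine (word_mem_Omega_iff (oddForm m F) hQ' hcard (r' a * r' b) [ww a, ww b] ?_ ?_).mpr ⟨by simp, ?_⟩
    · intro v hv
      simp only [List.mem_cons, List.not_mem_nil, or_false] at hv
      rcases hv with rfl | rfl <;> rw [Q_ww] <;> exact one_ne_zero
    · simp only [List.map_cons, List.map_nil, List.prod_cons, List.prod_nil, mul_one]
      rw [← reflEl_val, ← reflEl_val]
      rfl
    · simp only [List.map_cons, List.map_nil, List.prod_cons, List.prod_nil, mul_one, Q_ww]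
      exact ⟨1, by simp⟩
  have hrange : ∀ (a b : Fin m) (Z : Omega F (quadFormPlus (m + 1) F)),
      (Z : isometryGroup F (quadFormPlus (m + 1) F)) = reflEl (plusForm (m + 1) F) (LiftAux.vv a.castSucc) * reflEl (plusForm (m + 1) F) (LiftAux.vv b.castSucc) →
      Z ∈ (E.extOm).range := by
    intro a b Z hZ
    refine ⟨⟨r' a * r' b, hmem a b⟩, ?_⟩
    apply Subtype.ext
    rw [hZ]
    change E.ext (r' a * r' b) = _
    rw [map_mul]
    change E.ext (reflEl (oddForm m F) (ww a)) * E.ext (reflEl (oddForm m F) (ww b)) = _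
    rw [ext_reflEl, ext_reflEl, hE, JJ_ww, JJ_ww]
  exact cover_of_embedding h2 (by omega) hG E.extOm E.extOm_injective X Y hX hY (hrange _ _ _ hX1) (hrange _ _ _ hY1) hXY

end Cfsg.Agent.Lib.OddStem
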