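import Cfsg.Agent.Lib.OddStem.Defs


/-!
# S2094 module PPart (STUB: owner replaces the sorry)

p-part: see forum plan.
-/

set_option autoImplicit false

namespace Cfsg.Agent.Lib.OddStem

open Cfsg Subgroup

universe u

variable {F : Type u} [Field F] [Fintype F]

theorem p_part {q : ℕ} (hF : Fintype.card F = q) (hq : Odd q) (m : ℕ) (hm : 3 ≤ m) (hexc : ¬ (m = 3 ∧ q = 3))
    {Γ : Type u} [Group Γ] [Finite Γ] {σ : Γ →* GO m F} (hσ : IsStemExtension σ)
    {r : ℕ} [Fact r.Prime] (hr : r ∣ q) (hA : IsPGroup r σ.ker) (a : Γ) (ha : σ a = 1) : a = 1 := by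
  sorry

end Cfsg.Agent.Lib.OddStem
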