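import Cfsg.Agent.Lib.OddStem.Defs


/-!
# S2094 module RCyc

odd r with q of order 2m modulo r: cyclic Sylow r-subgroup.

Every `r`-subgroup of `GL_{2m+1}(q)` is cyclic when `q` has order `2m` modulo `r`
(fixed point counts and the field `F[z]` for a central `z` of order `r`); hence the preimage of a Sylow
`r`-subgroup in a stem extension is abelian, and `coprime_mem` finishes.
-/

set_option autoImplicit false

namespace Cfsg.Agent.Lib.OddStem

open Cfsg Subgroup

universe u

namespace RCycAux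

open Module

section Lin

variable {F V : Type*} [Field F] [Fintype F] [AddCommGroup V] [Module F V] [FiniteDimensional F V]

/-- Fixed point count for a linear map of order dividing `r` on an invariant subspace. -/
theorem finrank_modEq {r : ℕ} [hr : Fact r.Prime] (z : V →ₗ[F] V) (hz : z ^ r = 1) (W : Submodule F V)
    (hW : ∀ w ∈ W, z w ∈ W) :
    Fintype.card F ^ finrank F W ≡ Fintype.card F ^ finrank F ↥(W ⊓ LinearMap.ker (z - 1)) [MOD r] := by
  classical
  haveI : Finite V := Module.finite_of_finite F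
  haveI : Fintype V := Fintype.ofFinite V
  let f : Function.End ↥W := fun w => ⟨z w, hW _ w.2⟩
  have hpow : ∀ (n : ℕ) (w : ↥W), (((f ^ n : Function.End ↥W) w : ↥W) : V) = (z ^ n) (w : V) := by
    intro n
    induction n with
    | zero => intro w; rfl
    | succ n ih =>
      intro w
      rw [pow_succ, pow_succ]
      have h1 : ((f ^ n * f : Function.End ↥W) w) = (f ^ n : Function.End ↥W) (f w) := rfl
      rw [h1, ih]
      rfl
  have hf : f ^ r ^ 1 = 1 := by
    rw [pow_one]
    funext w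
    apply Subtype.ext
    rw [hpow, hz]
    rfl
  have h := Equiv.Perm.card_fixedPoints_modEq (f := f) hf
  have h1 : Fintype.card ↥W = Fintype.card F ^ finrank F W := Module.card_eq_pow_finrank
  have h2 : Fintype.card (Function.fixedPoints f) =
      Fintype.card F ^ finrank F ↥(W ⊓ LinearMap.ker (z - 1)) := by
    rw [← Module.card_eq_pow_finrank (K := F) (V := ↥(W ⊓ LinearMap.ker (z - 1)))]
    refine Fintype.card_congr ?_
    refine
      { toFun := fun w => ⟨w.1.1, w.1.2, ?_⟩
        invFun := fun w => ⟨⟨w.1, w.2.1⟩, ?_⟩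
        left_inv := fun w => rfl
        right_inv := fun w => rfl }
    · have h3 : f w.1 = w.1 := w.2
      have h4 : z w.1.1 = w.1.1 := congrArg Subtype.val h3
      exact LinearMap.mem_ker.2 (by rw [LinearMap.sub_apply, Module.End.one_apply, h4, sub_self])
    · have h3 : (z - 1) w.1 = 0 := LinearMap.mem_ker.1 w.2.2
      rw [LinearMap.sub_apply, Module.End.one_apply, sub_eq_zero] at h3
      exact Subtype.ext h3
  rw [h1, h2] at h
  exact h

/-- From congruence of powers to congruence of exponents. -/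
theorem exp_modEq {r q a b d : ℕ} (hord : orderOf ((q : ℕ) : ZMod r) = d) (hd : 0 < d)
    (h : q ^ a ≡ q ^ b [MOD r]) : a ≡ b [MOD d] := by
  have h1 : IsOfFinOrder ((q : ℕ) : ZMod r) := orderOf_pos_iff.1 (hord ▸ hd)
  obtain ⟨u, hu⟩ := h1.isUnit
  have h2 : orderOf u = d := by
    rw [← orderOf_units, hu, hord]
  have h3 : ((q ^ a : ℕ) : ZMod r) = ((q ^ b : ℕ) : ZMod r) := (ZMod.natCast_eq_natCast_iff _ _ _).2 h
  have h4 : u ^ a = u ^ b := by
    apply Units.ext
    push_cast at h3 ⊢
    rw [hu]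
    exact h3
  rw [pow_eq_pow_iff_modEq, h2] at h4
  exact h4

/-- Elements commuting with `z` commute with polynomials in `z`. -/
theorem comm_aeval {A : Type*} [Ring A] [Algebra F A] {x z : A} (h : x * z = z * x) (f : Polynomial F) :
    x * Polynomial.aeval z f = Polynomial.aeval z f * x := by
  induction f using Polynomial.induction_on' with
  | add p q hp hq => rw [map_add, mul_add, add_mul, hp, hq]
  | monomial n a =>
    rw [Polynomial.aeval_monomial]
    have h1 : x * z ^ n = z ^ n * x := ((Commute.pow_right (show Commute x z from h) n)).eq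
    calc x * (algebraMap F A a * z ^ n) = (x * algebraMap F A a) * z ^ n := by rw [mul_assoc]
      _ = (algebraMap F A a * x) * z ^ n := by rw [Algebra.commutes a x]
      _ = algebraMap F A a * (x * z ^ n) := mul_assoc _ _ _
      _ = algebraMap F A a * (z ^ n * x) := by rw [h1]
      _ = (algebraMap F A a * z ^ n) * x := (mul_assoc _ _ _).symm

/-- A nontrivial `r`-group has a central element of order `r`. -/
theorem exists_central {P : Type*} [Group P] [Finite P] [Nontrivial P] {r : ℕ} [hr : Fact r.Prime] (hP : IsPGroup r P) :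
    ∃ z : P, orderOf z = r ∧ ∀ y : P, y * z = z * y := by
  haveI := hP.center_nontrivial
  have h1 : IsPGroup r (center P) := IsPGroup.to_subgroup hP _
  have h2 : r ∣ Nat.card (center P) := by
    obtain ⟨k, hk⟩ := IsPGroup.iff_card.1 h1
    rcases k with _ | k
    · exfalso
      rw [pow_zero] at hk
      exact (Finite.one_lt_card (α := center P)).ne' hk
    · rw [hk]; exact dvd_pow_self _ (Nat.succ_ne_zero k)
  obtain ⟨x, hx⟩ := exists_prime_orderOf_dvd_card' r h2
  refine ⟨x, by rw [← Subgroup.orderOf_coe] at hx; exact hx, fun y => ?_⟩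
  exact (Subgroup.mem_center_iff.1 x.2 y)

section Even

variable {r m : ℕ} [hr : Fact r.Prime]

/-- The `F[z]`-span of a vector. -/
noncomputable def spanZ (z : V →ₗ[F] V) (w : V) : Submodule F V :=
  LinearMap.range ((LinearMap.applyₗ w : (V →ₗ[F] V) →ₗ[F] V) ∘ₗ (Polynomial.aeval z : Polynomial F →ₐ[F] (V →ₗ[F] V)).toLinearMap)

theorem mem_spanZ {z : V →ₗ[F] V} {w v : V} : v ∈ spanZ z w ↔ ∃ f : Polynomial F, Polynomial.aeval z f w = v := by
  simp [spanZ]

theorem spanZ_inv (z : V →ₗ[F] V) (w : V) : ∀ v ∈ spanZ z w, z v ∈ spanZ z w := by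
  intro v hv
  obtain ⟨f, rfl⟩ := mem_spanZ.1 hv
  refine mem_spanZ.2 ⟨Polynomial.X * f, ?_⟩
  simp

theorem self_mem_spanZ (z : V →ₗ[F] V) (w : V) : w ∈ spanZ z w :=
  mem_spanZ.2 ⟨1, by simp⟩

/-- `r`-groups acting faithfully in dimension `2m` are cyclic, when `q` has order `2m` mod `r`. -/
theorem cyclic_of_rank_eq (hm : 1 ≤ m) (hord : orderOf ((Fintype.card F : ℕ) : ZMod r) = 2 * m)
    (hU : finrank F V = 2 * m) {P : Type*} [Group P] [Finite P] (hP : IsPGroup r P)
    (ρ : P →* (V →ₗ[F] V)) (hρ : Function.Injective ρ) : IsCyclic P := by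
  classical
  rcases subsingleton_or_nontrivial P with hs | hs
  · exact isCyclic_of_subsingleton
  obtain ⟨z, hzo, hzc⟩ := exists_central hP
  set Z := ρ z with hZ
  have hZr : Z ^ r = 1 := by
    rw [hZ, ← map_pow, ← hzo, pow_orderOf_eq_one, map_one]
  have hz1 : z ≠ 1 := by
    rintro rfl
    rw [orderOf_one] at hzo
    exact hr.out.one_lt.ne hzo
  have hZ1 : Z ≠ 1 := fun h => hz1 (hρ (by rw [map_one]; exact h))
  have hdpos : 0 < 2 * m := by omega
  have hd : ∀ W : Submodule F V, (∀ w ∈ W, Z w ∈ W) →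
      finrank F W ≡ finrank F ↥(W ⊓ LinearMap.ker (Z - 1)) [MOD 2 * m] :=
    fun W hW => exp_modEq hord hdpos (finrank_modEq Z hZr W hW)
  -- no fixed points
  have hker : LinearMap.ker (Z - 1) = ⊥ := by
    have h1 := hd ⊤ (fun _ _ => Submodule.mem_top)
    rw [finrank_top, hU, top_inf_eq] at h1
    have h2 : finrank F ↥(LinearMap.ker (Z - 1)) ≤ 2 * m := hU ▸ Submodule.finrank_le _
    have h3 : 2 * m ∣ finrank F ↥(LinearMap.ker (Z - 1)) :=
      (Nat.modEq_zero_iff_dvd).1 (h1.symm.trans (by simp [Nat.ModEq]))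
    rcases Nat.eq_zero_or_pos (finrank F ↥(LinearMap.ker (Z - 1))) with h4 | h4
    · exact Submodule.finrank_eq_zero.1 h4
    · exfalso
      have h5 := Nat.le_of_dvd h4 h3
      have h6 : LinearMap.ker (Z - 1) = ⊤ :=
        Submodule.eq_top_of_finrank_eq (by rw [hU]; omega)
      apply hZ1
      have h7 : Z - 1 = 0 := LinearMap.ker_eq_top.1 h6
      exact sub_eq_zero.1 h7
  -- every nonzero vector generates
  have hgen : ∀ w : V, w ≠ 0 → spanZ Z w = ⊤ := by
    intro w hw
    have h1 := hd (spanZ Z w) (spanZ_inv Z w)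
    rw [hker, inf_bot_eq, finrank_bot] at h1
    have h2 : finrank F ↥(spanZ Z w) ≤ 2 * m := hU ▸ Submodule.finrank_le _
    have h3 : 2 * m ∣ finrank F ↥(spanZ Z w) := (Nat.modEq_zero_iff_dvd).1 h1
    have h4 : 0 < finrank F ↥(spanZ Z w) := by
      rw [Nat.pos_iff_ne_zero]
      intro h5
      have h6 := Submodule.finrank_eq_zero.1 h5
      have h7 := self_mem_spanZ Z w
      rw [h6, Submodule.mem_bot] at h7
      exact hw h7
    have h5 := Nat.le_of_dvd h4 h3
    exact Submodule.eq_top_of_finrank_eq (by rw [hU]; omega)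
  have hVnt : Nontrivial V := by
    apply Module.nontrivial_of_finrank_pos (R := F)
    omega
  obtain ⟨w₀, hw₀⟩ := exists_ne (0 : V)
  -- the ring
  let R : Subalgebra F (V →ₗ[F] V) := Algebra.adjoin F {Z}
  letI instCR : CommRing R := Algebra.adjoinCommRingOfComm F (by
    intro a ha b hb
    rw [Set.mem_singleton_iff] at ha hb
    rw [ha, hb])
  have hRmem : ∀ a : V →ₗ[F] V, a ∈ R ↔ ∃ f : Polynomial F, Polynomial.aeval Z f = a := by
    intro a
    have : R = (Polynomial.aeval Z : Polynomial F →ₐ[F] (V →ₗ[F] V)).range :=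
      Algebra.adjoin_singleton_eq_range_aeval F Z
    rw [this]
    rfl
  have hRcomm : ∀ a ∈ R, a * Z = Z * a := by
    intro a ha
    obtain ⟨f, rfl⟩ := (hRmem a).1 ha
    exact (comm_aeval (x := Z) (z := Z) rfl f).symm
  -- an element of the ring vanishing at a nonzero vector vanishes
  have hvan : ∀ a ∈ R, ∀ w : V, w ≠ 0 → a w = 0 → a = 0 := by
    intro a ha w hw haw
    apply LinearMap.ext
    intro v
    have h1 : v ∈ spanZ Z w := by rw [hgen w hw]; trivial
    obtain ⟨f, rfl⟩ := mem_spanZ.1 h1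
    have h2 := comm_aeval (hRcomm a ha) f
    have h3 := congrArg (fun t : V →ₗ[F] V => t w) h2
    simp only [Module.End.mul_apply, haw, map_zero] at h3
    rw [h3]
    rfl
  haveI instNZ : NoZeroDivisors R := by
    refine ⟨?_⟩
    intro a b hab
    by_contra hne
    push_neg at hne
    obtain ⟨ha, hb⟩ := hne
    have hb' : (b : V →ₗ[F] V) ≠ 0 := fun h => hb (Subtype.ext h)
    have ha' : (a : V →ₗ[F] V) ≠ 0 := fun h => ha (Subtype.ext h)
    obtain ⟨v, hv⟩ : ∃ v, (b : V →ₗ[F] V) v ≠ 0 := by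
      by_contra hno
      push_neg at hno
      exact hb' (LinearMap.ext hno)
    have h1 : (a : V →ₗ[F] V) ((b : V →ₗ[F] V) v) = 0 := by
      have h2 : ((a * b : R) : V →ₗ[F] V) = 0 := by rw [hab]; rfl
      have h3 := congrArg (fun t : V →ₗ[F] V => t v) h2
      exact h3
    exact ha' (hvan _ a.2 _ hv h1)
  haveI instNT : Nontrivial R := by
    refine ⟨⟨0, 1, ?_⟩⟩
    intro h
    have h1 := congrArg Subtype.val h
    have h2 : (0 : V →ₗ[F] V) = 1 := h1
    exact zero_ne_one h2
  haveI instD : IsDomain R := NoZeroDivisors.to_isDomain R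
  -- the representation lands in the ring
  have hPR : ∀ y : P, ρ y ∈ R := by
    intro y
    have hc : ρ y * Z = Z * ρ y := by
      rw [hZ, ← map_mul, ← map_mul, hzc y]
    have h1 : ρ y w₀ ∈ spanZ Z w₀ := by rw [hgen w₀ hw₀]; trivial
    obtain ⟨f, hf⟩ := mem_spanZ.1 h1
    refine (hRmem _).2 ⟨f, ?_⟩
    apply LinearMap.ext
    intro v
    have h2 : v ∈ spanZ Z w₀ := by rw [hgen w₀ hw₀]; trivial
    obtain ⟨g, rfl⟩ := mem_spanZ.1 h2
    have h3 := comm_aeval hc g
    have h4 := congrArg (fun t : V →ₗ[F] V => t w₀) h3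
    simp only [Module.End.mul_apply] at h4
    rw [h4, ← hf]
    have h5 : Polynomial.aeval Z f * Polynomial.aeval Z g = Polynomial.aeval Z g * Polynomial.aeval Z f := by
      rw [← map_mul, ← map_mul, mul_comm]
    have h6 := congrArg (fun t : V →ₗ[F] V => t w₀) h5
    simpa only [Module.End.mul_apply] using h6
  let φ : P →* R :=
    { toFun := fun y => ⟨ρ y, hPR y⟩
      map_one' := Subtype.ext (map_one ρ)
      map_mul' := fun a b => Subtype.ext (map_mul ρ a b) }
  refine isCyclic_of_injective_ringHom φ ?_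
  intro a b hab
  exact hρ (congrArg Subtype.val hab)

/-- The same in dimension `2m+1`. -/
theorem cyclic_of_rank_succ (hm : 1 ≤ m) (hord : orderOf ((Fintype.card F : ℕ) : ZMod r) = 2 * m)
    (hV : finrank F V = 2 * m + 1) {P : Type*} [Group P] [Finite P] (hP : IsPGroup r P)
    (ρ : P →* (V →ₗ[F] V)) (hρ : Function.Injective ρ) : IsCyclic P := by
  classical
  rcases subsingleton_or_nontrivial P with hs | hs
  · exact isCyclic_of_subsingleton
  obtain ⟨z, hzo, hzc⟩ := exists_central hP
  set Z := ρ z with hZ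
  have hZr : Z ^ r = 1 := by
    rw [hZ, ← map_pow, ← hzo, pow_orderOf_eq_one, map_one]
  have hz1 : z ≠ 1 := by
    rintro rfl
    rw [orderOf_one] at hzo
    exact hr.out.one_lt.ne hzo
  have hZ1 : Z ≠ 1 := fun h => hz1 (hρ (by rw [map_one]; exact h))
  have hdpos : 0 < 2 * m := by omega
  have hd : ∀ W : Submodule F V, (∀ w ∈ W, Z w ∈ W) →
      finrank F W ≡ finrank F ↥(W ⊓ LinearMap.ker (Z - 1)) [MOD 2 * m] :=
    fun W hW => exp_modEq hord hdpos (finrank_modEq Z hZr W hW)
  set C := LinearMap.ker (Z - 1) with hC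
  set I := LinearMap.range (Z - 1) with hI
  have hrank : finrank F I + finrank F C = 2 * m + 1 := by
    rw [← hV]; exact LinearMap.finrank_range_add_finrank_ker _
  -- `dim C = 1`
  have hC1 : finrank F C = 1 := by
    have h1 := hd ⊤ (fun _ _ => Submodule.mem_top)
    rw [finrank_top, hV, top_inf_eq] at h1
    have h2 : finrank F C ≤ 2 * m + 1 := hV ▸ Submodule.finrank_le _
    have h3 : finrank F C ≠ 2 * m + 1 := by
      intro h4
      apply hZ1
      have h5 : C = ⊤ := Submodule.eq_top_of_finrank_eq (by rw [hV]; exact h4)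
      have h7 : Z - 1 = 0 := LinearMap.ker_eq_top.1 h5
      exact sub_eq_zero.1 h7
    have h4 : finrank F C < 2 * m + 1 := lt_of_le_of_ne h2 h3
    have h5 : (2 * m + 1) % (2 * m) = finrank F C % (2 * m) := h1
    rw [Nat.add_mod_left] at h5
    have h6 : 1 % (2 * m) = 1 := Nat.mod_eq_of_lt (by omega)
    rw [h6] at h5
    rcases Nat.lt_or_ge (finrank F C) (2 * m) with h7 | h7
    · rw [Nat.mod_eq_of_lt h7] at h5
      exact h5.symm
    · have h8 : finrank F C = 2 * m := by omega
      rw [h8, Nat.mod_self] at h5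
      omega
  have hI2 : finrank F I = 2 * m := by omega
  have hZI : ∀ w ∈ I, Z w ∈ I := by
    rintro _ ⟨v, rfl⟩
    refine ⟨Z v, ?_⟩
    simp only [LinearMap.sub_apply, Module.End.one_apply, map_sub]
  -- `I ∩ C = 0`
  have hIC : I ⊓ C = ⊥ := by
    have h1 := hd I hZI
    rw [hI2] at h1
    have h2 : finrank F ↥(I ⊓ C) ≤ 1 := by
      rw [← hC1]; exact Submodule.finrank_mono inf_le_right
    have h3 : 2 * m ∣ finrank F ↥(I ⊓ C) :=
      (Nat.modEq_zero_iff_dvd).1 (h1.symm.trans (by simp [Nat.ModEq]))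
    rcases Nat.eq_zero_or_pos (finrank F ↥(I ⊓ C)) with h4 | h4
    · exact Submodule.finrank_eq_zero.1 h4
    · have h5 := Nat.le_of_dvd h4 h3
      omega
  have hcomm : ∀ y : P, ρ y * Z = Z * ρ y := fun y => by
    rw [hZ, ← map_mul, ← map_mul, hzc y]
  have hIinv : ∀ y : P, ∀ w ∈ I, ρ y w ∈ I := by
    rintro y _ ⟨v, rfl⟩
    refine ⟨ρ y v, ?_⟩
    have h1 := congrArg (fun t : V →ₗ[F] V => t v) (hcomm y)
    simp only [Module.End.mul_apply] at h1
    simp only [LinearMap.sub_apply, Module.End.one_apply, map_sub, h1]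
  have hCinv : ∀ y : P, ∀ w ∈ C, ρ y w ∈ C := by
    intro y w hw
    have h0 : Z w = w := by
      have := LinearMap.mem_ker.1 hw
      rw [LinearMap.sub_apply, Module.End.one_apply, sub_eq_zero] at this
      exact this
    have h1 := congrArg (fun t : V →ₗ[F] V => t w) (hcomm y)
    simp only [Module.End.mul_apply, h0] at h1
    refine LinearMap.mem_ker.2 ?_
    rw [LinearMap.sub_apply, Module.End.one_apply, ← h1, sub_self]
  -- the restriction
  let ρ' : P →* (↥I →ₗ[F] ↥I) :=
    { toFun := fun y => (ρ y).restrict (hIinv y)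
      map_one' := by
        apply LinearMap.ext
        intro w
        apply Subtype.ext
        simp
      map_mul' := fun a b => by
        apply LinearMap.ext
        intro w
        apply Subtype.ext
        simp }
  have hρ'val : ∀ (y : P) (w : ↥I), ((ρ' y w : ↥I) : V) = ρ y w := fun _ _ => rfl
  refine cyclic_of_rank_eq hm hord hI2 hP ρ' ?_
  -- injectivity: elements trivial on `I` are trivial on `C`
  rw [injective_iff_map_eq_one]
  intro y hy
  apply hρ
  rw [map_one]
  have hyI : ∀ w ∈ I, ρ y w = w := by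
    intro w hw
    have h1 := hρ'val y ⟨w, hw⟩
    rw [hy] at h1
    exact h1.symm
  -- order of `y`
  obtain ⟨k, hk⟩ := hP y
  have hCne : C ≠ ⊥ := by
    intro h
    rw [h, finrank_bot] at hC1
    omega
  obtain ⟨v₀, hv₀, hv₀ne⟩ := Submodule.exists_mem_ne_zero_of_ne_bot hCne
  have hyC : ∀ w ∈ C, ρ y w = w := by
    have hfr : finrank F (Submodule.span F {v₀}) = 1 := finrank_span_singleton hv₀ne
    have hsp : Submodule.span F {v₀} = C := by
      apply Submodule.eq_of_le_of_finrank_eq
      · rw [Submodule.span_singleton_le_iff_mem]; exact hv₀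
      · rw [hfr, hC1]
    have hv : ρ y v₀ ∈ Submodule.span F {v₀} := by
      rw [hsp]; exact hCinv y v₀ hv₀
    obtain ⟨c, hc⟩ := Submodule.mem_span_singleton.1 hv
    have hpow : ∀ n : ℕ, (ρ y ^ n) v₀ = c ^ n • v₀ := by
      intro n
      induction n with
      | zero => simp
      | succ n ih =>
        rw [pow_succ, Module.End.mul_apply, ← hc, map_smul, ih, pow_succ, mul_comm, mul_smul]
    have hy1 : ρ y ^ r ^ k = 1 := by
      rw [← map_pow]
      have : y ^ r ^ k = 1 := hk
      rw [this, map_one]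
    have hcr : c ^ r ^ k = 1 := by
      have h1 := hpow (r ^ k)
      rw [hy1, Module.End.one_apply] at h1
      have h2 : (c ^ r ^ k - 1) • v₀ = 0 := by
        rw [sub_smul, ← h1, one_smul, sub_self]
      rcases smul_eq_zero.1 h2 with h3 | h3
      · exact sub_eq_zero.1 h3
      · exact absurd h3 hv₀ne
    have hc0 : c ≠ 0 := by
      rintro rfl
      rw [zero_pow (pow_ne_zero _ hr.out.ne_zero)] at hcr
      exact zero_ne_one hcr
    have hcq := FiniteField.pow_card_sub_one_eq_one c hc0
    have hrq : ¬ r ∣ Fintype.card F - 1 := by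
      intro hdvd
      have hq1 : 1 ≤ Fintype.card F := Fintype.card_pos
      have h1 : ((Fintype.card F : ℕ) : ZMod r) = 1 := by
        have h2 : ((Fintype.card F - 1 : ℕ) : ZMod r) = 0 := (ZMod.natCast_eq_zero_iff _ _).2 hdvd
        rw [Nat.cast_sub hq1, sub_eq_zero] at h2
        simpa using h2
      rw [h1, orderOf_one] at hord
      omega
    have hcop : Nat.Coprime (r ^ k) (Fintype.card F - 1) :=
      Nat.Coprime.pow_left _ ((Nat.Prime.coprime_iff_not_dvd hr.out).2 hrq)
    have hc1 : c = 1 := by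
      have h := pow_gcd_eq_one.2 ⟨hcr, hcq⟩
      rw [hcop.gcd_eq_one, pow_one] at h
      exact h
    have hyv : ρ y v₀ = v₀ := by
      rw [← hc, hc1, one_smul]
    intro w hw
    rw [← hsp] at hw
    obtain ⟨s, rfl⟩ := Submodule.mem_span_singleton.1 hw
    rw [map_smul, hyv]
  have hsup : I ⊔ C = ⊤ := by
    have h1 := Submodule.finrank_sup_add_finrank_inf_eq I C
    rw [hIC, finrank_bot, add_zero, hrank] at h1
    exact Submodule.eq_top_of_finrank_eq (by rw [hV, h1])
  apply LinearMap.ext
  intro v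
  have hv : v ∈ I ⊔ C := by rw [hsup]; trivial
  obtain ⟨i, hi, c, hc, rfl⟩ := Submodule.mem_sup.1 hv
  rw [map_add, hyI i hi, hyC c hc]
  rfl

end Even

end Lin

end RCycAux

variable {F : Type u} [Field F] [Fintype F]

/-- The linear representation of `Ω_{2m+1}(F)`. -/
noncomputable def goRep (m : ℕ) (F : Type u) [Field F] [Fintype F] :
    GO m F →* ((Unit ⊕ (Fin m ⊕ Fin m) → F) →ₗ[F] (Unit ⊕ (Fin m ⊕ Fin m) → F)) where
  toFun g := Matrix.toLin' ((g.1.1 : Matrix.GeneralLinearGroup _ F) : Matrix _ _ F)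
  map_one' := by
    simp
    rfl
  map_mul' a b := by
    simp [Matrix.toLin'_mul]
    rfl

theorem goRep_injective (m : ℕ) : Function.Injective (goRep m F) := by
  intro a b hab
  apply Subtype.ext
  apply Subtype.ext
  apply Units.ext
  exact Matrix.toLin'.injective hab

theorem r_cyc {q : ℕ} (hF : Fintype.card F = q) (hq : Odd q) (m : ℕ) (hm : 3 ≤ m)
    {Γ : Type u} [Group Γ] [Finite Γ] {σ : Γ →* GO m F} (hσ : IsStemExtension σ)
    {r : ℕ} [Fact r.Prime] (hr2 : r ≠ 2) (hord : orderOf ((q : ZMod r)) = 2 * m) (hA : IsPGroup r σ.ker) (a : Γ) (ha : σ a = 1) :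
    a = 1 := by
  classical
  subst hF
  haveI : Finite (GO m F) := inferInstance
  let S : Sylow r (GO m F) := Classical.arbitrary _
  have hrank : Module.finrank F (Unit ⊕ (Fin m ⊕ Fin m) → F) = 2 * m + 1 := by
    rw [Module.finrank_fintype_fun_eq_card]
    simp
    ring
  have hcyc : IsCyclic (S : Subgroup (GO m F)) :=
    RCycAux.cyclic_of_rank_succ (by omega) hord hrank S.isPGroup'
      ((goRep m F).comp (S : Subgroup (GO m F)).subtype)
      ((goRep_injective m).comp (Subgroup.subtype_injective _))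
  have hmem := coprime_mem hσ hA (S : Subgroup (GO m F)) S.not_dvd_index ha
  -- the preimage of a cyclic group under a central extension is abelian
  obtain ⟨g, hg⟩ := hcyc.exists_generator
  obtain ⟨c, hc⟩ := hσ.1 (g : GO m F)
  have hform : ∀ x ∈ (S : Subgroup (GO m F)).comap σ, ∃ k : ℤ, ∃ κ ∈ σ.ker, x = c ^ k * κ := by
    intro x hx
    have h1 : (⟨σ x, hx⟩ : (S : Subgroup (GO m F))) ∈ zpowers g := hg _
    obtain ⟨k, hk⟩ := mem_zpowers_iff.1 h1
    have h2 : (g : GO m F) ^ k = σ x := congrArg Subtype.val hk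
    refine ⟨k, (c ^ k)⁻¹ * x, ?_, by group⟩
    rw [MonoidHom.mem_ker, map_mul, map_inv, map_zpow, hc, h2, inv_mul_cancel]
  have hcomm : ∀ x ∈ (S : Subgroup (GO m F)).comap σ, ∀ y ∈ (S : Subgroup (GO m F)).comap σ, x * y = y * x := by
    intro x hx y hy
    obtain ⟨k, κ, hκ, rfl⟩ := hform x hx
    obtain ⟨l, τ, hτ, rfl⟩ := hform y hy
    have hκc := Subgroup.mem_center_iff.1 (hσ.2.1 hκ)
    have hτc := Subgroup.mem_center_iff.1 (hσ.2.1 hτ)
    have hcc : c ^ k * c ^ l = c ^ l * c ^ k := (Commute.zpow_zpow_self c k l).eq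
    have e1 : κ * (c ^ l * τ) = (c ^ l * τ) * κ := (hκc _).symm
    have e2 : c ^ k * τ = τ * c ^ k := hτc _
    calc c ^ k * κ * (c ^ l * τ) = c ^ k * (κ * (c ^ l * τ)) := by simp only [mul_assoc]
      _ = c ^ k * ((c ^ l * τ) * κ) := by rw [e1]
      _ = (c ^ k * c ^ l) * τ * κ := by simp only [mul_assoc]
      _ = (c ^ l * c ^ k) * τ * κ := by rw [hcc]
      _ = c ^ l * (c ^ k * τ) * κ := by simp only [mul_assoc]
      _ = c ^ l * (τ * c ^ k) * κ := by rw [e2]
      _ = c ^ l * τ * (c ^ k * κ) := by simp only [mul_assoc]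
  have hbot : cmm ((S : Subgroup (GO m F)).comap σ) = ⊥ := by
    rw [eq_bot_iff, commutator_le]
    intro x hx y hy
    rw [commutatorElement_def, hcomm x hx y hy]
    simp
  rw [hbot] at hmem
  exact Subgroup.mem_bot.1 hmem

end Cfsg.Agent.Lib.OddStem
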