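import Cfsg.Agent.Lib.OddStem.Defs


/-!
# S2094 module RWr (STUB: owner replaces the sorry)

odd r with q of order 2e modulo r, e ≥ 2, m = e t, t ≥ 3 odd: blocks.
-/

set_option autoImplicit false

namespace Cfsg.Agent.Lib.OddStem

open Cfsg Subgroup

universe u

variable {F : Type u} [Field F] [Fintype F]

theorem r_wr {q : ℕ} (hF : Fintype.card F = q) (hq : Odd q) (m e t : ℕ) (he : 2 ≤ e) (ht : 3 ≤ t) (hodd : Odd t) (hmet : m = e * t)
    {Γ : Type u} [Group Γ] [Finite Γ] {σ : Γ →* GO m F} (hσ : IsStemExtension σ)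
    {r : ℕ} [Fact r.Prime] (hr2 : r ≠ 2) (hord : orderOf ((q : ZMod r)) = 2 * e) (hA : IsPGroup r σ.ker) (a : Γ) (ha : σ a = 1) :
    a = 1 := by
  sorry

end Cfsg.Agent.Lib.OddStem
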