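import Cfsg.Agent.Lib.OddStem.PlusBound
import Cfsg.Agent.Lib.OddStem.Lower
import Cfsg.Agent.Lib.OddStem.PPart
import Cfsg.Agent.Lib.OddStem.CaseA
import Cfsg.Agent.Lib.OddStem.CaseB
import Cfsg.Agent.Lib.OddStem.CaseB3
import Cfsg.Agent.Lib.OddStem.RSU
import Cfsg.Agent.Lib.OddStem.RCyc
import Cfsg.Agent.Lib.OddStem.RWr
import Cfsg.Agent.Lib.Schur.SLnStem2
import Cfsg.Agent.Lib.Classical.QuadEichBridge

/-!
# S2094: assembly (transfer plan)

`odd_part`, `two_part` dispatch the parts. `stem_dvd`: the kernel of a stem extension of `Ω_{2m+1}(q)` has order dividing two: if an odd prime `r` divides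
its order, the quotient by the `r'`-part is a stem extension with kernel a nontrivial `r`-group. `main_T`: `SLnStem.hasCyclic_of_cover`.
-/

set_option autoImplicit false

namespace Cfsg.Agent.Lib.OddStem

open Cfsg Subgroup

open scoped commutatorElement

universe u

variable {F : Type u} [Field F] [Fintype F]

/-- The prime-to-`r` part of the kernel can be factored out. -/
theorem exists_pquot {G : Type u} [Group G] {Γ : Type u} [Group Γ] [Finite Γ] {σ : Γ →* G} (hσ : IsStemExtension σ)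
    {r : ℕ} [Fact r.Prime] (hr : r ∣ Nat.card σ.ker) :
    ∃ (Δ : Type u) (_ : Group Δ) (_ : Finite Δ) (τ : Δ →* G), IsStemExtension τ ∧ IsPGroup r τ.ker ∧ ∃ z : Δ, τ z = 1 ∧ z ≠ 1 := by
  classical
  have hrp : r.Prime := Fact.out
  have hn0 : Nat.card σ.ker ≠ 0 := Nat.card_pos.ne'
  obtain ⟨v, k, hk, hnk⟩ := Nat.exists_eq_pow_mul_and_not_dvd hn0 r hrp.ne_one
  have hcen : ∀ x y : Γ, σ x = 1 → x * y = y * x := fun x y hx => (mem_center_iff.1 (hσ.2.1 hx) y).symm
  let B : Subgroup Γ :=
    { carrier := {x | σ x = 1 ∧ x ^ k = 1}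
      one_mem' := by simp
      mul_mem' := by
        rintro a b ⟨ha, ha'⟩ ⟨hb, hb'⟩
        refine ⟨by simp [ha, hb], ?_⟩
        have hc : Commute a b := hcen a b ha
        rw [hc.mul_pow, ha', hb', one_mul]
      inv_mem' := by
        rintro a ⟨ha, ha'⟩
        exact ⟨by simp [ha], by simp [ha']⟩ }
  have hBn : B.Normal := ⟨fun x hx g => by
    have h1 : g * x * g⁻¹ = x := by
      rw [← hcen x g hx.1, mul_inv_cancel_right]
    rw [h1]; exact hx⟩
  have hBker : B ≤ σ.ker := fun x hx => hx.1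
  let τ : (Γ ⧸ B) →* G := QuotientGroup.lift B σ hBker
  have hτ : ∀ x : Γ, τ (x : Γ ⧸ B) = σ x := fun x => rfl
  have hst : IsStemExtension τ := by
    refine ⟨?_, ?_, ?_⟩
    · intro g
      obtain ⟨x, hx⟩ := hσ.1 g
      exact ⟨(x : Γ ⧸ B), hx⟩
    · intro y hy
      obtain ⟨x, rfl⟩ := QuotientGroup.mk_surjective y
      rw [mem_center_iff]
      intro w
      obtain ⟨w, rfl⟩ := QuotientGroup.mk_surjective w
      rw [← QuotientGroup.mk_mul, ← QuotientGroup.mk_mul, hcen x w hy]
    · intro y hy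
      obtain ⟨x, rfl⟩ := QuotientGroup.mk_surjective y
      have hx : x ∈ commutator Γ := hσ.2.2 hy
      have h2 : (commutator Γ).map (QuotientGroup.mk' B) ≤ commutator (Γ ⧸ B) := by
        rw [commutator_def, commutator_def, Subgroup.map_commutator]
        exact Subgroup.commutator_mono le_top le_top
      exact h2 ⟨x, hx, rfl⟩
  have hcardpow : ∀ x : Γ, σ x = 1 → (x ^ r ^ v) ^ k = 1 := by
    intro x hx
    have h1 : (⟨x, hx⟩ : σ.ker) ^ Nat.card σ.ker = 1 := pow_card_eq_one'
    have h2 : x ^ Nat.card σ.ker = 1 := congrArg Subtype.val h1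
    rw [← pow_mul, ← hnk, h2]
  refine ⟨Γ ⧸ B, inferInstance, inferInstance, τ, hst, ?_, ?_⟩
  · rw [IsPGroup]
    rintro ⟨y, hy⟩
    obtain ⟨x, rfl⟩ := QuotientGroup.mk_surjective y
    have hx : σ x = 1 := hy
    refine ⟨v, Subtype.ext ?_⟩
    change ((x : Γ ⧸ B)) ^ r ^ v = 1
    rw [← QuotientGroup.mk_pow, QuotientGroup.eq_one_iff]
    exact ⟨by simp [hx], hcardpow x hx⟩
  · obtain ⟨a, ha⟩ := exists_prime_orderOf_dvd_card' (G := σ.ker) r hr
    refine ⟨((a.1 : Γ) : Γ ⧸ B), a.2, ?_⟩
    intro h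
    rw [QuotientGroup.eq_one_iff] at h
    have h3 : orderOf a ∣ k := by
      apply orderOf_dvd_of_pow_eq_one
      exact Subtype.ext h.2
    rw [ha] at h3
    exact hk h3

/-- Odd primes. -/
theorem odd_part {q : ℕ} (hF : Fintype.card F = q) (hq : Odd q) (m : ℕ) (hm : 3 ≤ m) (hexc : ¬ (m = 3 ∧ q = 3))
    {Γ : Type u} [Group Γ] [Finite Γ] {σ : Γ →* GO m F} (hσ : IsStemExtension σ)
    {r : ℕ} [Fact r.Prime] (hr2 : r ≠ 2) (hA : IsPGroup r σ.ker) (a : Γ) (ha : σ a = 1) : a = 1 := by
  have hrp : r.Prime := Fact.out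
  by_cases hrq : r ∣ q
  · exact p_part hF hq m hm hexc hσ hrq hA a ha
  by_cases hrm : r ∣ q ^ m + 1
  · by_cases hr1 : r ∣ q + 1
    · -- `m` is odd
      have hodd : Odd m := by
        by_contra hne
        rw [Nat.not_odd_iff_even] at hne
        obtain ⟨k, hk⟩ := hne
        have h1 : ((q : ZMod r)) + 1 = 0 := by
          have := (ZMod.natCast_eq_zero_iff (q + 1) r).2 hr1
          push_cast at this
          exact this
        have h2 : ((q : ZMod r)) = -1 := eq_neg_of_add_eq_zero_left h1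
        have h3 : ((q ^ m + 1 : ℕ) : ZMod r) = 0 := (ZMod.natCast_eq_zero_iff _ r).2 hrm
        push_cast at h3
        rw [h2, hk, ← two_mul, pow_mul] at h3
        norm_num at h3
        have h4 : ((2 : ℕ) : ZMod r) = 0 := by exact_mod_cast h3
        rw [ZMod.natCast_eq_zero_iff] at h4
        exact hr2 ((Nat.prime_dvd_prime_iff_eq hrp Nat.prime_two).1 h4)
      exact r_su hF hq m hm hodd hσ hr2 hr1 hA a ha
    · -- the order of `q` modulo `r`
      haveI : NeZero r := ⟨hrp.ne_zero⟩
      have h3 : ((q : ZMod r)) ^ m = -1 := by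
        have h := (ZMod.natCast_eq_zero_iff (q ^ m + 1) r).2 hrm
        push_cast at h
        exact eq_neg_of_add_eq_zero_left h
      have hne : (-1 : ZMod r) ≠ 1 := by
        intro h
        have h4 : ((2 : ℕ) : ZMod r) = 0 := by
          have : (2 : ZMod r) = 1 - (-1) := by ring
          push_cast
          rw [this, h, sub_self]
        rw [ZMod.natCast_eq_zero_iff] at h4
        exact hr2 ((Nat.prime_dvd_prime_iff_eq hrp Nat.prime_two).1 h4)
      set o := orderOf ((q : ZMod r)) with ho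
      have h2m : o ∣ 2 * m := by
        apply orderOf_dvd_of_pow_eq_one
        rw [mul_comm, pow_mul, h3]; norm_num
      have hom : ¬ o ∣ m := by
        intro h
        apply hne
        rw [← h3]
        exact orderOf_dvd_iff_pow_eq_one.1 h
      have ho2 : 2 ∣ o := by
        by_contra h
        have h5 : Nat.Coprime o 2 := ((Nat.Prime.coprime_iff_not_dvd Nat.prime_two).2 h).symm
        exact hom (h5.dvd_of_dvd_mul_left h2m)
      obtain ⟨e, he⟩ := ho2
      have hem : e ∣ m := by
        rw [he] at h2m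
        exact Nat.dvd_of_mul_dvd_mul_left (by norm_num) h2m
      obtain ⟨t, ht⟩ := hem
      have htodd : Odd t := by
        by_contra h
        rw [Nat.not_odd_iff_even] at h
        obtain ⟨s, hs⟩ := h
        apply hom
        rw [he, ht, hs]
        exact ⟨s, by ring⟩
      have hm0 : 0 < m := by omega
      have he0 : 0 < e := by
        rcases Nat.eq_zero_or_pos e with h | h
        · rw [h] at ht; omega
        · exact h
      have he2 : 2 ≤ e := by
        by_contra h
        have h1 : e = 1 := by omega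
        have h5 : ((q : ZMod r)) ^ 2 = 1 := by
          rw [← orderOf_dvd_iff_pow_eq_one, ← ho, he, h1]
        have h6 : (((q : ZMod r)) - 1) * (((q : ZMod r)) + 1) = 0 := by linear_combination h5
        rcases mul_eq_zero.1 h6 with h7 | h7
        · have h8 : o = 1 := by
            rw [ho, orderOf_eq_one_iff]
            exact sub_eq_zero.1 h7
          rw [he, h1] at h8
          omega
        · apply hr1
          rw [← ZMod.natCast_eq_zero_iff]
          push_cast
          exact h7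
      rcases Nat.lt_or_ge t 2 with h | h
      · have ht1 : t = 1 := by
          rcases htodd with ⟨s, hs⟩
          omega
        rw [ht1, mul_one] at ht
        exact r_cyc hF hq m hm hσ hr2 (by rw [← ho, he, ht]) hA a ha
      · have ht3 : 3 ≤ t := by
          rcases htodd with ⟨s, hs⟩
          omega
        exact r_wr hF hq m e t he2 ht3 htodd ht hσ hr2 (by rw [← ho, he]) hA a ha
  · exact caseA_odd hF hq m hm hσ hr2 hrq hrm hA a ha

/-- The prime two. -/
theorem two_part {q : ℕ} (hF : Fintype.card F = q) (hq : Odd q) (m : ℕ) (hm : 3 ≤ m) (hexc : ¬ (m = 3 ∧ q = 3))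
    {Γ : Type u} [Group Γ] [Finite Γ] {σ : Γ →* GO m F} (hσ : IsStemExtension σ)
    (hA : IsPGroup 2 σ.ker) : Nat.card σ.ker ∣ 2 := by
  have hqm : Odd (q ^ m) := hq.pow
  have h14 : q ^ m % 4 = 1 ∨ q ^ m % 4 = 3 := by
    rcases hqm with ⟨s, hs⟩
    omega
  rcases h14 with h1 | h3
  · exact caseA_two hF hq m hm h1 hσ hA
  · have hq4 : q % 4 = 1 ∨ q % 4 = 3 := by
      rcases hq with ⟨s, hs⟩
      omega
    have hq3 : q % 4 = 3 := by
      rcases hq4 with h | h
      · exfalso
        have : q ^ m % 4 = 1 := by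
          rw [Nat.pow_mod, h]; simp
        omega
      · exact h
    have hmodd : Odd m := by
      by_contra hne
      rw [Nat.not_odd_iff_even] at hne
      obtain ⟨k, rfl⟩ := hne
      have : q ^ (k + k) % 4 = 1 := by
        rw [← two_mul, pow_mul, Nat.pow_mod]
        have h9 : q ^ 2 % 4 = 1 := by
          rw [Nat.pow_mod, hq3]
        rw [h9]; simp
      omega
    rcases Nat.lt_or_ge m 5 with h | h
    · obtain rfl : m = 3 := by
        rcases hmodd with ⟨s, hs⟩
        omega
      have h7 : 7 ≤ q := by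
        by_contra hlt
        have : q = 3 := by omega
        exact hexc ⟨rfl, this⟩
      exact caseB3 hF hq3 h7 hσ hA
    · exact caseB hF hq3 m h hmodd hσ hA

/-- The kernel of a stem extension of `Ω_{2m+1}(q)` has order at most two. -/
theorem stem_dvd {q : ℕ} (hF : Fintype.card F = q) (hq : Odd q) (m : ℕ) (hm : 3 ≤ m) (hexc : ¬ (m = 3 ∧ q = 3))
    {Γ : Type u} [Group Γ] [Finite Γ] {σ : Γ →* GO m F} (hσ : IsStemExtension σ) : Nat.card σ.ker ∣ 2 := by
  classical
  apply two_part hF hq m hm hexc hσ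
  have hall : ∀ r : ℕ, r.Prime → r ∣ Nat.card σ.ker → r = 2 := by
    intro r hr hd
    by_contra hr2
    haveI : Fact r.Prime := ⟨hr⟩
    obtain ⟨Δ, _, _, τ, hτ, hp, z, hz, hz1⟩ := exists_pquot hσ hd
    exact hz1 (odd_part hF hq m hm hexc hτ hr2 hp z hz)
  have hn0 : Nat.card σ.ker ≠ 0 := Nat.card_pos.ne'
  have hpow : ∃ k, Nat.card σ.ker = 2 ^ k := by
    refine ⟨(Nat.card σ.ker).primeFactorsList.length, ?_⟩
    exact Nat.eq_prime_pow_of_unique_prime_dvd hn0 (fun {d} hd hdv => hall d hd hdv)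
  obtain ⟨k, hk⟩ := hpow
  exact IsPGroup.of_card hk

/-- The multiplier. -/
theorem main_T {q : ℕ} (hF : Fintype.card F = q) (hq : Odd q) (m : ℕ) (hm : 3 ≤ m) (hexc : ¬ (m = 3 ∧ q = 3)) :
    HasCyclicSchurMultiplier (POmega F (quadFormOdd m F)) 2 := by
  classical
  have h2 : (2 : F) ≠ 0 := two_ne_of_odd hF hq
  obtain ⟨C, _, _, π, hπ, hcard⟩ := exists_cover hF hq m hm
  have hQ := Cfsg.Agent.Lib.Orth.Forms.oddForm_nondeg (F := F) m h2
  have hn : 5 ≤ Fintype.card (Unit ⊕ (Fin m ⊕ Fin m)) := by simp; omega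
  have hoddc : Odd (Fintype.card (Unit ⊕ (Fin m ⊕ Fin m))) := by
    simp only [Fintype.card_sum, Fintype.card_unit, Fintype.card_fin]
    exact ⟨m, by ring⟩
  have hcen : Nat.card (center (GO m F)) = 1 :=
    Cfsg.Agent.Lib.Classical.QuadEichBridge.card_center_of_not_neg (Cfsg.Agent.Lib.Orth.Forms.oddForm m F) hQ hn
      (Cfsg.Agent.Lib.Classical.QuadEichBridge.not_neg_of_odd_card _ h2 hoddc)
  have hcenb : center (GO m F) = ⊥ := by
    exact Subgroup.eq_bot_of_card_eq _ hcen
  have hGp : commutator (GO m F) = ⊤ := Cfsg.Agent.Lib.LocalBal.OmMain.perfect_omega (F := F) (ι := Unit ⊕ (Fin m ⊕ Fin m))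
      (Q := Cfsg.Agent.Lib.Orth.Forms.oddForm m F) hQ (by simp; omega)
  have hCp : commutator C = ⊤ := by
    rw [eq_top_iff]
    intro x _
    have h1 : π x ∈ commutator (GO m F) := by rw [hGp]; trivial
    have h3 : (commutator C).map π = commutator (GO m F) := by
      rw [_root_.commutator_def, _root_.commutator_def, Subgroup.map_commutator, ← MonoidHom.range_eq_map,
        MonoidHom.range_eq_top.2 hπ.1]
    rw [← h3] at h1
    obtain ⟨y, hy, hyx⟩ := h1
    have h4 : y⁻¹ * x ∈ π.ker := by simp [MonoidHom.mem_ker, hyx]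
    have h5 := hπ.2.2 h4
    have : x = y * (y⁻¹ * x) := by group
    rw [this]
    exact mul_mem hy h5
  let ρ : C →* POmega F (quadFormOdd m F) := (QuotientGroup.mk' _).comp π
  have hρ : ∀ x, ρ x = 1 ↔ π x = 1 := by
    intro x
    change ((π x : GO m F) : GO m F ⧸ center (GO m F)) = 1 ↔ _
    rw [QuotientGroup.eq_one_iff, hcenb, Subgroup.mem_bot]
  have hρs : IsStemExtension ρ := by
    refine ⟨(QuotientGroup.mk'_surjective _).comp hπ.1, ?_, ?_⟩
    · intro x hx
      exact hπ.2.1 ((hρ x).1 hx)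
    · intro x hx
      exact hπ.2.2 ((hρ x).1 hx)
  have hkerρ : ρ.ker = π.ker := by
    ext x
    exact hρ x
  have hcardρ : Nat.card ρ.ker = 2 := by rw [hkerρ]; exact hcard
  have hcyc : IsCyclic ρ.ker := by
    exact isCyclic_of_prime_card (p := 2) (hp := ⟨Nat.prime_two⟩) hcardρ
  refine Cfsg.Agent.Lib.Schur.SLnStem.hasCyclic_of_cover ρ hρs ?_ hCp hcyc hcardρ
  -- stem extensions of `C` are trivial
  intro Δ _ _ τ hτ z hz
  have hΔ : commutator Δ = ⊤ := eq_top_iff.2 fun g _ =>
    Cfsg.Agent.Lib.Schur.SLnStem.mem_commutator_of_perfect' hτ hCp g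
  set κ : Δ →* GO m F := π.comp τ with hκ
  have hs : Function.Surjective κ := hπ.1.comp hτ.1
  have hcenκ : κ.ker ≤ center Δ := by
    have h1 : ⁅⁅κ.ker, (⊤ : Subgroup Δ)⁆, (⊤ : Subgroup Δ)⁆ = ⊥ := by
      rw [eq_bot_iff, Subgroup.commutator_le]
      intro c hc g _
      have hc' : c ∈ τ.ker := by
        have hle : ⁅κ.ker, (⊤ : Subgroup Δ)⁆ ≤ τ.ker := by
          rw [Subgroup.commutator_le]
          intro k hk g _
          rw [MonoidHom.mem_ker, map_commutatorElement]
          have hk' : τ k ∈ π.ker := hk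
          have := Subgroup.mem_center_iff.1 (hπ.2.1 hk') (τ g)
          rw [commutatorElement_eq_one_iff_mul_comm]
          exact this.symm
        exact hle hc
      have := Subgroup.mem_center_iff.1 (hτ.2.1 hc') g
      rw [Subgroup.mem_bot, commutatorElement_eq_one_iff_mul_comm]
      exact this.symm
    have h2' : ⁅⁅(⊤ : Subgroup Δ), κ.ker⁆, (⊤ : Subgroup Δ)⁆ = ⊥ := by
      rw [Subgroup.commutator_comm (⊤ : Subgroup Δ) κ.ker]
      exact h1
    have h3 := Subgroup.commutator_commutator_eq_bot_of_rotate (H₁ := (⊤ : Subgroup Δ)) (H₂ := (⊤ : Subgroup Δ))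
      (H₃ := κ.ker) h2' h1
    have h4 : ⁅(⊤ : Subgroup Δ), (⊤ : Subgroup Δ)⁆ = ⊤ := hΔ
    rw [h4] at h3
    intro k hk
    rw [Subgroup.mem_center_iff]
    intro g
    have h5 : ⁅g, k⁆ ∈ ⁅(⊤ : Subgroup Δ), κ.ker⁆ := Subgroup.commutator_mem_commutator trivial hk
    rw [h3, Subgroup.mem_bot, commutatorElement_eq_one_iff_mul_comm] at h5
    exact h5
  have hst : IsStemExtension κ := ⟨hs, hcenκ, by rw [hΔ]; exact le_top⟩
  have hdvd := stem_dvd hF hq m hm hexc hst
  -- `ker κ` has at most two elements and surjects onto the two elements of `ker π`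
  by_contra hz1
  have hcard2 : 1 < Nat.card π.ker := by omega
  haveI : Nontrivial π.ker := Finite.one_lt_card_iff_nontrivial.1 hcard2
  obtain ⟨w₀, hw₀⟩ := exists_ne (1 : π.ker)
  obtain ⟨w, hw⟩ := hτ.1 w₀.1
  have hwκ : κ w = 1 := by
    rw [hκ, MonoidHom.comp_apply, hw]
    exact w₀.2
  have hzκ : κ z = 1 := by
    rw [hκ, MonoidHom.comp_apply, hz, map_one]
  have hw1 : w ≠ 1 := by
    rintro rfl
    rw [map_one] at hw
    exact hw₀ (Subtype.ext hw.symm)
  have hwz : w ≠ z := by
    rintro rfl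
    rw [hz] at hw
    exact hw₀ (Subtype.ext hw.symm)
  have hcardle : Nat.card κ.ker ≤ 2 := Nat.le_of_dvd (by norm_num) hdvd
  -- three distinct elements
  let f : Fin 3 → κ.ker := ![1, ⟨z, hzκ⟩, ⟨w, hwκ⟩]
  have hf : Function.Injective f := by
    intro i j hij
    fin_cases i <;> fin_cases j <;> simp only [f, Fin.isValue, Fin.zero_eta, Matrix.cons_val_zero, Fin.mk_one, Matrix.cons_val_one, Fin.reduceFinMk, Matrix.cons_val] at hij ⊢ <;>
      first
      | rfl
      | (exfalso; have h := congrArg Subtype.val hij; simp at h; first | exact hz1 h.symm | exact hw1 h.symm | exact hz1 h | exact hw1 h | exact hwz h | exact hwz h.symm)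
  have h9 := Nat.card_le_card_of_injective f hf
  rw [Nat.card_fin] at h9
  omega

end Cfsg.Agent.Lib.OddStem
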