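import Mathlib

/-!
# Lifts of a root group with a full scaling commute (Hua), and the canonical lift

Pure group theory, used by `Lift.lean` and `Rel.lean`.
-/

set_option autoImplicit false

namespace Cfsg.Agent.Lib.OddStem.RootComm

open Subgroup

section basics

variable {Γ : Type*} [Group Γ]

theorem cen_comm {c : Γ} (hc : c ∈ center Γ) (y : Γ) : c * y = y * c :=
  (Subgroup.mem_center_iff.mp hc y).symm

/-- The commutator is unchanged when multiplying by central elements. -/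
theorem comm_central {a a' b b' : Γ} (h1 : a⁻¹ * a' ∈ center Γ) (h2 : b⁻¹ * b' ∈ center Γ) :
    a' * b' * a'⁻¹ * b'⁻¹ = a * b * a⁻¹ * b⁻¹ := by
  set c := a⁻¹ * a' with hc
  set d := b⁻¹ * b' with hd
  have ea : a' = a * c := by rw [hc]; group
  have eb : b' = b * d := by rw [hd]; group
  have hc' := cen_comm h1
  have hd' := cen_comm h2
  rw [ea, eb]
  calc a * c * (b * d) * (a * c)⁻¹ * (b * d)⁻¹
      = a * (c * (b * d)) * c⁻¹ * a⁻¹ * d⁻¹ * b⁻¹ := by group
    _ = a * ((b * d) * c) * c⁻¹ * a⁻¹ * d⁻¹ * b⁻¹ := by rw [hc']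
    _ = a * b * (d * a⁻¹) * d⁻¹ * b⁻¹ := by group
    _ = a * b * (a⁻¹ * d) * d⁻¹ * b⁻¹ := by rw [hd']
    _ = a * b * a⁻¹ * b⁻¹ := by group

/-- The commutator of two elements commuting with `y` up to central elements commutes with `y`. -/
theorem comm_of_comm {a b y : Γ} (ha : a * y * a⁻¹ * y⁻¹ ∈ center Γ) (hb : b * y * b⁻¹ * y⁻¹ ∈ center Γ) :
    Commute (a * b * a⁻¹ * b⁻¹) y := by
  set c := a * y * a⁻¹ * y⁻¹ with hc
  set d := b * y * b⁻¹ * y⁻¹ with hd
  have hc' := cen_comm ha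
  have hd' := cen_comm hb
  have e1 : a * y = c * y * a := by rw [hc]; group
  have e2 : b * y = d * y * b := by rw [hd]; group
  have e3 : a * c = c * a := (hc' a).symm
  have e4 : b * c = c * b := (hc' b).symm
  have e5 : a * d = d * a := (hd' a).symm
  have e6 : b * d = d * b := (hd' b).symm
  -- conjugation formulas
  have f1 : a⁻¹ * y = c⁻¹ * y * a⁻¹ := by
    have : y * a⁻¹ = a⁻¹ * (c * y) := by
      calc y * a⁻¹ = a⁻¹ * (a * y) * a⁻¹ := by group
        _ = a⁻¹ * (c * y * a) * a⁻¹ := by rw [e1]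
        _ = a⁻¹ * (c * y) := by group
    have h2 : a⁻¹ * (c * y) = c * (a⁻¹ * y) := by
      have : a⁻¹ * c = c * a⁻¹ := (hc' a⁻¹).symm
      rw [← mul_assoc, this, mul_assoc]
    rw [h2] at this
    calc a⁻¹ * y = c⁻¹ * (c * (a⁻¹ * y)) := by group
      _ = c⁻¹ * (y * a⁻¹) := by rw [this]
      _ = c⁻¹ * y * a⁻¹ := by group
  have f2 : b⁻¹ * y = d⁻¹ * y * b⁻¹ := by
    have : y * b⁻¹ = b⁻¹ * (d * y) := by
      calc y * b⁻¹ = b⁻¹ * (b * y) * b⁻¹ := by group
        _ = b⁻¹ * (d * y * b) * b⁻¹ := by rw [e2]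
        _ = b⁻¹ * (d * y) := by group
    have h2 : b⁻¹ * (d * y) = d * (b⁻¹ * y) := by
      have : b⁻¹ * d = d * b⁻¹ := (hd' b⁻¹).symm
      rw [← mul_assoc, this, mul_assoc]
    rw [h2] at this
    calc b⁻¹ * y = d⁻¹ * (d * (b⁻¹ * y)) := by group
      _ = d⁻¹ * (y * b⁻¹) := by rw [this]
      _ = d⁻¹ * y * b⁻¹ := by group
  have hdi : ∀ z, d⁻¹ * z = z * d⁻¹ := fun z => by
    have := cen_comm (inv_mem hb) z; exact this
  have hci : ∀ z, c⁻¹ * z = z * c⁻¹ := fun z => by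
    have := cen_comm (inv_mem ha) z; exact this
  show a * b * a⁻¹ * b⁻¹ * y = y * (a * b * a⁻¹ * b⁻¹)
  calc a * b * a⁻¹ * b⁻¹ * y = a * b * a⁻¹ * (b⁻¹ * y) := by group
    _ = a * b * a⁻¹ * (d⁻¹ * y * b⁻¹) := by rw [f2]
    _ = a * b * (a⁻¹ * d⁻¹) * y * b⁻¹ := by group
    _ = a * b * (d⁻¹ * a⁻¹) * y * b⁻¹ := by rw [hdi a⁻¹]
    _ = a * (b * d⁻¹) * (a⁻¹ * y) * b⁻¹ := by group
    _ = a * (d⁻¹ * b) * (a⁻¹ * y) * b⁻¹ := by rw [hdi b]
    _ = a * (d⁻¹ * b) * (c⁻¹ * y * a⁻¹) * b⁻¹ := by rw [f1]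
    _ = a * d⁻¹ * (b * c⁻¹) * y * a⁻¹ * b⁻¹ := by group
    _ = a * d⁻¹ * (c⁻¹ * b) * y * a⁻¹ * b⁻¹ := by rw [hci b]
    _ = a * d⁻¹ * c⁻¹ * (b * y) * a⁻¹ * b⁻¹ := by group
    _ = a * d⁻¹ * c⁻¹ * (d * y * b) * a⁻¹ * b⁻¹ := by rw [e2]
    _ = a * (d⁻¹ * (c⁻¹ * d)) * y * b * a⁻¹ * b⁻¹ := by group
    _ = a * (d⁻¹ * (d * c⁻¹)) * y * b * a⁻¹ * b⁻¹ := by rw [hci d]
    _ = (a * c⁻¹) * y * b * a⁻¹ * b⁻¹ := by group
    _ = (c⁻¹ * a) * y * b * a⁻¹ * b⁻¹ := by rw [hci a]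
    _ = c⁻¹ * (a * y) * b * a⁻¹ * b⁻¹ := by group
    _ = c⁻¹ * (c * y * a) * b * a⁻¹ * b⁻¹ := by rw [e1]
    _ = y * (a * b * a⁻¹ * b⁻¹) := by group

/-- A defect killed by scaling. -/
theorem scale_eq {A : Type*} [Add A] {f f' : A → Γ} (hf : ∀ t, f (t + t) = f t * f t)
    (hf' : ∀ t, f' (t + t) = f' t * f' t)
    (hc : ∀ t, (f t)⁻¹ * f' t ∈ center Γ) {s : Γ} (hs : ∀ t, s * f t * s⁻¹ = f (t + t))
    (hs' : ∀ t, s * f' t * s⁻¹ = f' (t + t)) (t : A) : f t = f' t := by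
  set d := (f t)⁻¹ * f' t with hd
  have hdc : ∀ y, d * y = y * d := cen_comm (hc t)
  have h1 : s * d * s⁻¹ = d := by
    rw [← hdc s]; group
  have h2 : s * d * s⁻¹ = (s * f t * s⁻¹)⁻¹ * (s * f' t * s⁻¹) := by
    rw [hd]; group
  rw [hs, hs', hf, hf'] at h2
  have h3 : (f t * f t)⁻¹ * (f' t * f' t) = d * d := by
    have : f' t = f t * d := by rw [hd]; group
    calc (f t * f t)⁻¹ * (f' t * f' t) = (f t)⁻¹ * (f t)⁻¹ * (f t * d * (f t * d)) := by
          rw [← this]; group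
      _ = (f t)⁻¹ * (d * f t) * d := by group
      _ = (f t)⁻¹ * (f t * d) * d := by rw [hdc (f t)]
      _ = d * d := by group
  rw [h3, h1] at h2
  have h4 : d = 1 := by
    have : d * 1 = d * d := by rw [mul_one]; exact h2
    exact (mul_left_cancel this).symm
  rw [hd] at h4
  exact inv_mul_eq_one.mp h4

end basics

section root

variable {Γ G : Type*} [Group Γ] [Group G] {π : Γ →* G} {F : Type*} [Field F]

/-- Lifts of a root group with a full scaling commute. -/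
theorem root_comm (hcen : π.ker ≤ center Γ) (h2 : (2 : F) ≠ 0) {X : F → G}
    (hadd : ∀ s t, X (s + t) = X s * X t)
    (hr : ∀ t, X t ∈ π.range) (hs : ∀ u : Fˣ, ∃ s : Γ, ∀ t, π s * X t * (π s)⁻¹ = X ((u : F) * t))
    {a b : Γ} {s t : F} (ha : π a = X s) (hb : π b = X t) : Commute a b := by
  classical
  choose x hx using hr
  have hXc : ∀ s t, X s * X t = X t * X s := fun s t => by
    rw [← hadd, ← hadd, add_comm]
  have hker : ∀ a a' : Γ, π a = π a' → a⁻¹ * a' ∈ center Γ := by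
    intro a a' h
    apply hcen
    rw [MonoidHom.mem_ker, map_mul, map_inv, h, inv_mul_cancel]
  have hκc : ∀ (a b : Γ) (s t : F), π a = X s → π b = X t → a * b * a⁻¹ * b⁻¹ ∈ center Γ := by
    intro a b s t ha hb
    apply hcen
    rw [MonoidHom.mem_ker]
    simp only [map_mul, map_inv, ha, hb]
    rw [hXc s t]
    group
  set κ : F → F → Γ := fun s t => x s * x t * (x s)⁻¹ * (x t)⁻¹ with hκ
  have hκl : ∀ {a b : Γ} {s t : F}, π a = X s → π b = X t → a * b * a⁻¹ * b⁻¹ = κ s t := by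
    intro a b s t ha hb
    exact comm_central (hker _ _ ((hx s).trans ha.symm)) (hker _ _ ((hx t).trans hb.symm))
  have hκcen : ∀ s t, κ s t ∈ center Γ := fun s t => hκc _ _ _ _ (hx s) (hx t)
  have hκcomm : ∀ s t s' t', κ s t * κ s' t' = κ s' t' * κ s t := fun s t s' t' =>
    cen_comm (hκcen s t) _
  -- biadditive in the first argument
  have hadd1 : ∀ s s' t, κ (s + s') t = κ s t * κ s' t := by
    intro s s' t
    have h1 : π (x s * x s') = X (s + s') := by rw [map_mul, hx, hx, hadd]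
    have h3 := hκl h1 (hx t)
    rw [← h3]
    have h4 : x s' * x t * (x s')⁻¹ * (x t)⁻¹ = κ s' t := rfl
    have h5 := cen_comm (hκcen s' t)
    calc x s * x s' * x t * (x s * x s')⁻¹ * (x t)⁻¹
        = x s * (x s' * x t * (x s')⁻¹ * (x t)⁻¹) * x t * (x s)⁻¹ * (x t)⁻¹ := by group
      _ = x s * κ s' t * x t * (x s)⁻¹ * (x t)⁻¹ := by rw [h4]
      _ = (x s * κ s' t) * (x t * (x s)⁻¹ * (x t)⁻¹) := by group
      _ = (κ s' t * x s) * (x t * (x s)⁻¹ * (x t)⁻¹) := by rw [h5 (x s)]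
      _ = κ s' t * κ s t := by simp only [hκ]; group
      _ = κ s t * κ s' t := hκcomm _ _ _ _
  have halt : ∀ s t, κ t s = (κ s t)⁻¹ := by
    intro s t
    simp only [hκ]; group
  -- scaling
  have hscale : ∀ (u : Fˣ) s t, κ ((u : F) * s) ((u : F) * t) = κ s t := by
    intro u s t
    obtain ⟨σ, hσ⟩ := hs u
    have h1 : π (σ * x s * σ⁻¹) = X ((u : F) * s) := by
      rw [map_mul, map_mul, map_inv, hx, hσ]
    have h3 : π (σ * x t * σ⁻¹) = X ((u : F) * t) := by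
      rw [map_mul, map_mul, map_inv, hx, hσ]
    rw [← hκl h1 h3]
    have h4 := cen_comm (hκcen s t)
    calc σ * x s * σ⁻¹ * (σ * x t * σ⁻¹) * (σ * x s * σ⁻¹)⁻¹ * (σ * x t * σ⁻¹)⁻¹
        = σ * κ s t * σ⁻¹ := by simp only [hκ]; group
      _ = κ s t := by rw [← h4 σ]; group
  -- the function `g`
  set g : F → Γ := fun y => κ y 1 with hg
  have gadd : ∀ y z, g (y + z) = g y * g z := fun y z => hadd1 y z 1
  have gcomm : ∀ y z, g y * g z = g z * g y := fun y z => hκcomm _ _ _ _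
  have g1 : g 1 = 1 := by simp only [hg, hκ]; group
  have g0 : g 0 = 1 := by
    have := gadd 0 0
    rw [add_zero] at this
    have h3 : g 0 * 1 = g 0 * g 0 := by rw [mul_one]; exact this
    exact (mul_left_cancel h3).symm
  have ginv : ∀ y : F, y ≠ 0 → g y⁻¹ = (g y)⁻¹ := by
    intro y hy
    have h3 := hscale (Units.mk0 y hy) y⁻¹ 1
    simp only [Units.val_mk0, mul_inv_cancel₀ hy, mul_one] at h3
    show κ y⁻¹ 1 = (κ y 1)⁻¹
    rw [← h3]
    exact halt y 1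
  have gsq : ∀ y : F, g (y * y) = g y := by
    intro y
    by_cases hy0 : y = 0
    · subst hy0; simp
    by_cases hy1 : y = 1
    · subst hy1; simp
    have hy1' : 1 - y ≠ 0 := sub_ne_zero.mpr (Ne.symm hy1)
    set w := y - y * y with hw
    have hw0 : w ≠ 0 := by
      have : w = y * (1 - y) := by rw [hw]; ring
      rw [this]; exact mul_ne_zero hy0 hy1'
    have hwinv : w⁻¹ = y⁻¹ + (1 - y)⁻¹ := by
      have : w = y * (1 - y) := by rw [hw]; ring
      rw [this]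
      field_simp
      ring
    have h1' : g y * g (1 - y) = 1 := by
      rw [← gadd, add_sub_cancel, g1]
    have hgw : g w = 1 := by
      have h3 := ginv w hw0
      rw [hwinv, gadd, ginv y hy0, ginv _ hy1'] at h3
      have h4 : g w = g (1 - y) * g y := by
        have h5 : g w = ((g y)⁻¹ * (g (1 - y))⁻¹)⁻¹ := by
          rw [h3]; simp
        rw [h5]; group
      rw [h4, gcomm, h1']
    have hy2 : y = w + y * y := by rw [hw]; ring
    have h3 := gadd w (y * y)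
    rw [← hy2, hgw, one_mul] at h3
    exact h3.symm
  have gtriv : ∀ y, g y = 1 := by
    have gtwo : ∀ y, g y * g y = 1 := by
      intro y
      have h3 := gsq y
      have h4 := gsq (-y)
      rw [neg_mul_neg, h3] at h4
      have h5 := gadd y (-y)
      rw [add_neg_cancel, g0] at h5
      rw [← h4] at h5
      exact h5.symm
    intro y
    have h3 : y = 2⁻¹ * y + 2⁻¹ * y := by
      field_simp
      ring
    rw [h3, gadd]
    exact gtwo _
  have hκ1 : κ s t = 1 := by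
    by_cases ht : t = 0
    · subst ht
      have h0s : κ 0 s = 1 := by
        have h3 := hadd1 0 0 s
        rw [add_zero] at h3
        have h4 : κ 0 s * 1 = κ 0 s * κ 0 s := by rw [mul_one]; exact h3
        exact (mul_left_cancel h4).symm
      have h5 : κ s 0 = (κ 0 s)⁻¹ := halt 0 s
      rw [h5, h0s, inv_one]
    · have h3 := hscale (Units.mk0 t ht) (t⁻¹ * s) 1
      simp only [Units.val_mk0, mul_one] at h3
      rw [mul_inv_cancel_left₀ ht] at h3
      rw [h3]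
      exact gtriv _
  have hfinal := hκl ha hb
  rw [hκ1] at hfinal
  show a * b = b * a
  have h3 : a * b * a⁻¹ = b := by
    have := congrArg (· * b) hfinal
    simpa using this
  calc a * b = a * b * a⁻¹ * a := by group
    _ = b * a := by rw [h3]

/-- The canonical lift of a root group. -/
theorem can_root (hcen : π.ker ≤ center Γ) (h2 : (2 : F) ≠ 0) {X : F → G}
    (hadd : ∀ s t, X (s + t) = X s * X t)
    (hr : ∀ t, X t ∈ π.range) (hs : ∀ u : Fˣ, ∃ s : Γ, ∀ t, π s * X t * (π s)⁻¹ = X ((u : F) * t))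
    {h : Γ} (hh : ∀ t, π h * X t * (π h)⁻¹ = X (-t)) :
    ∃ x : F → Γ, (∀ t, π (x t) = X t) ∧ (∀ s t, x (s + t) = x s * x t) ∧
      ∀ (g : Γ) (c : F), Commute g h → (∀ t, π g * X t * (π g)⁻¹ = X (c * t)) →
        ∀ t, g * x t * g⁻¹ = x (c * t) := by
  classical
  choose xt hxt using hr
  have hker : ∀ a a' : Γ, π a = π a' → a⁻¹ * a' ∈ center Γ := by
    intro a a' h
    apply hcen
    rw [MonoidHom.mem_ker, map_mul, map_inv, h, inv_mul_cancel]
  have hRC : ∀ {a b : Γ} {s t : F}, π a = X s → π b = X t → Commute a b := fun ha hb =>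
    root_comm hcen h2 hadd (fun t => ⟨xt t, hxt t⟩) hs ha hb
  have hX0 : X 0 = 1 := by
    have := hadd 0 0
    rw [add_zero] at this
    have h3 : X 0 * 1 = X 0 * X 0 := by rw [mul_one]; exact this
    exact (mul_left_cancel h3).symm
  have hXneg : ∀ t, (X t)⁻¹ = X (-t) := by
    intro t
    have := hadd t (-t)
    rw [add_neg_cancel, hX0] at this
    exact inv_eq_of_mul_eq_one_right this.symm
  -- the defect
  let D : Γ → Γ := fun a => h * a * h⁻¹ * a⁻¹
  have hD : ∀ {a a' : Γ}, π a = π a' → D a' = D a := by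
    intro a a' haa
    have hc := hker a a' haa
    set c := a⁻¹ * a' with hcdef
    have ea : a' = a * c := by rw [hcdef]; group
    have hc' := cen_comm hc
    show h * a' * h⁻¹ * a'⁻¹ = h * a * h⁻¹ * a⁻¹
    rw [ea]
    calc h * (a * c) * h⁻¹ * (a * c)⁻¹ = h * a * (c * h⁻¹) * c⁻¹ * a⁻¹ := by group
      _ = h * a * (h⁻¹ * c) * c⁻¹ * a⁻¹ := by rw [hc']
      _ = h * a * h⁻¹ * a⁻¹ := by group
  have h2' : (2 : F) ≠ 0 := h2
  refine ⟨fun t => D (xt (-(t / 2))), ?_, ?_, ?_⟩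
  · intro t
    show π (h * xt (-(t / 2)) * h⁻¹ * (xt (-(t / 2)))⁻¹) = X t
    rw [map_mul, map_mul, map_mul, map_inv, map_inv, hxt, hh, hXneg, neg_neg, ← hadd]
    congr 1
    field_simp
    ring
  · intro s t
    set a := xt (-(s / 2)) with ha
    set b := xt (-(t / 2)) with hb
    have hab : π (a * b) = π (xt (-((s + t) / 2))) := by
      rw [map_mul, hxt, hxt, hxt, ← hadd]
      congr 1
      ring
    have h3 : D (xt (-((s + t) / 2))) = D (a * b) := hD hab
    show D (xt (-((s + t) / 2))) = D a * D b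
    rw [h3]
    have c1 : Commute a b := hRC (hxt _) (hxt _)
    have hhb : π (h * b * h⁻¹) = X (t / 2) := by
      rw [map_mul, map_mul, map_inv, hb, hxt, hh, neg_neg]
    have c2 : Commute a (h * b * h⁻¹) := hRC (hxt _) hhb
    have c3 : Commute a⁻¹ (h * b * h⁻¹ * b⁻¹) :=
      (c2.mul_right c1.inv_right).inv_left
    show h * (a * b) * h⁻¹ * (a * b)⁻¹ = (h * a * h⁻¹ * a⁻¹) * (h * b * h⁻¹ * b⁻¹)
    calc h * (a * b) * h⁻¹ * (a * b)⁻¹
        = (h * a * h⁻¹) * ((h * b * h⁻¹ * b⁻¹) * a⁻¹) := by group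
      _ = (h * a * h⁻¹) * (a⁻¹ * (h * b * h⁻¹ * b⁻¹)) := by rw [c3.eq]
      _ = (h * a * h⁻¹ * a⁻¹) * (h * b * h⁻¹ * b⁻¹) := by group
  · intro g c hgh hgs t
    set a := xt (-(t / 2)) with ha
    have hga : π (g * a * g⁻¹) = π (xt (-(c * t / 2))) := by
      rw [map_mul, map_mul, map_inv, hxt, hxt, hgs]
      congr 1
      ring
    have h3 : D (xt (-(c * t / 2))) = D (g * a * g⁻¹) := hD hga
    show g * D a * g⁻¹ = D (xt (-(c * t / 2)))
    rw [h3]
    show g * (h * a * h⁻¹ * a⁻¹) * g⁻¹ = h * (g * a * g⁻¹) * h⁻¹ * (g * a * g⁻¹)⁻¹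
    have e1 : g * h = h * g := hgh
    have e2 : g * h⁻¹ = h⁻¹ * g := (hgh.inv_right).eq
    calc g * (h * a * h⁻¹ * a⁻¹) * g⁻¹ = (g * h) * a * h⁻¹ * a⁻¹ * g⁻¹ := by group
      _ = (h * g) * a * h⁻¹ * a⁻¹ * g⁻¹ := by rw [e1]
      _ = h * g * a * (g⁻¹ * g) * h⁻¹ * a⁻¹ * g⁻¹ := by group
      _ = h * g * a * g⁻¹ * (g * h⁻¹) * a⁻¹ * g⁻¹ := by group
      _ = h * g * a * g⁻¹ * (h⁻¹ * g) * a⁻¹ * g⁻¹ := by rw [e2]
      _ = h * (g * a * g⁻¹) * h⁻¹ * (g * a * g⁻¹)⁻¹ := by group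

end root

end Cfsg.Agent.Lib.OddStem.RootComm

namespace Cfsg.Agent.Lib.OddStem.RootComm

open Subgroup

section weyl

variable {Γ G : Type*} [Group Γ] [Group G] {π : Γ →* G} {F : Type*} [Field F]

/-- The Weyl relation for lifted root groups negated by a common element. -/
theorem w_rel (hcen : π.ker ≤ center Γ) (h2 : (2 : F) ≠ 0) {x y : F → Γ}
    (hxa : ∀ s t, x (s + t) = x s * x t) (hya : ∀ s t, y (s + t) = y s * y t) {h : Γ}
    (hhx : ∀ u, h * x u * h⁻¹ = x (-u)) (hhy : ∀ u, h * y u * h⁻¹ = y (-u)) (t : F)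
    (hpi : ∀ u, π ((x t * y (-t⁻¹) * x t) * x u * (x t * y (-t⁻¹) * x t)⁻¹) = π (y (-(t⁻¹ ^ 2 * u))))
    (hsq : π ((x t * y (-t⁻¹) * x t) * (x t * y (-t⁻¹) * x t)) = 1) (u : F) :
    (x t * y (-t⁻¹) * x t) * x u * (x t * y (-t⁻¹) * x t)⁻¹ = y (-(t⁻¹ ^ 2 * u)) := by
  have hx0 : x 0 = 1 := by
    have := hxa 0 0
    rw [add_zero] at this
    exact (mul_eq_left.1 this.symm)
  have hy0 : y 0 = 1 := by
    have := hya 0 0
    rw [add_zero] at this
    exact (mul_eq_left.1 this.symm)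
  have hxn : ∀ s, x (-s) = (x s)⁻¹ := by
    intro s
    have := hxa s (-s)
    rw [add_neg_cancel, hx0] at this
    exact eq_inv_of_mul_eq_one_right this.symm
  have hyn : ∀ s, y (-s) = (y s)⁻¹ := by
    intro s
    have := hya s (-s)
    rw [add_neg_cancel, hy0] at this
    exact eq_inv_of_mul_eq_one_right this.symm
  set c : F := t⁻¹ ^ 2 with hc
  set ω : Γ := x t * y (-t⁻¹) * x t with hω
  have hker : ∀ a a' : Γ, π a = π a' → a⁻¹ * a' ∈ center Γ := by
    intro a a' h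
    apply hcen
    rw [MonoidHom.mem_ker, map_mul, map_inv, h, inv_mul_cancel]
  let e : F → Γ := fun u => (y (-(c * u)))⁻¹ * (ω * x u * ω⁻¹)
  have hecen : ∀ u, e u ∈ center Γ := fun u => hker _ _ (hpi u).symm
  have hecomm : ∀ u g, e u * g = g * e u := fun u g => cen_comm (hecen u) g
  have heq : ∀ u, ω * x u * ω⁻¹ = y (-(c * u)) * e u := by
    intro u
    show ω * x u * ω⁻¹ = y (-(c * u)) * ((y (-(c * u)))⁻¹ * (ω * x u * ω⁻¹))
    group
  have headd : ∀ a b, e (a + b) = e a * e b := by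
    intro a b
    have h1 : ω * x (a + b) * ω⁻¹ = (ω * x a * ω⁻¹) * (ω * x b * ω⁻¹) := by
      rw [hxa]; group
    have h3 : y (-(c * (a + b))) = y (-(c * a)) * y (-(c * b)) := by
      rw [← hya]; congr 1; ring
    show (y (-(c * (a + b))))⁻¹ * (ω * x (a + b) * ω⁻¹) = e a * e b
    rw [h1, h3, heq a, heq b]
    calc (y (-(c * a)) * y (-(c * b)))⁻¹ * (y (-(c * a)) * e a * (y (-(c * b)) * e b))
        = (y (-(c * b)))⁻¹ * (e a * y (-(c * b))) * e b := by group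
      _ = (y (-(c * b)))⁻¹ * (y (-(c * b)) * e a) * e b := by rw [hecomm]
      _ = e a * e b := by group
  have he0 : e 0 = 1 := by
    have := headd 0 0
    rw [add_zero] at this
    exact (mul_eq_left.1 this.symm)
  have hen : ∀ a, e (-a) = (e a)⁻¹ := by
    intro a
    have := headd a (-a)
    rw [add_neg_cancel, he0] at this
    exact eq_inv_of_mul_eq_one_right this.symm
  -- `h` inverts `ω`
  have hhω : h * ω * h⁻¹ = ω⁻¹ := by
    have h1 : h * ω * h⁻¹ = (h * x t * h⁻¹) * (h * y (-t⁻¹) * h⁻¹) * (h * x t * h⁻¹) := by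
      rw [hω]; group
    rw [h1, hhx, hhy, neg_neg, hxn, show y t⁻¹ = (y (-t⁻¹))⁻¹ by rw [← hyn, neg_neg], hω]
    group
  -- conjugate by `h`
  have hconj : ∀ u, ω⁻¹ * x u * ω = y (-(c * u)) * (e u)⁻¹ := by
    intro u
    have h1 := heq (-u)
    have h3 : h * (ω * x (-u) * ω⁻¹) * h⁻¹ = ω⁻¹ * x u * ω := by
      have : h * (ω * x (-u) * ω⁻¹) * h⁻¹ = (h * ω * h⁻¹) * (h * x (-u) * h⁻¹) * (h * ω * h⁻¹)⁻¹ := by
        group
      rw [this, hhω, hhx, neg_neg, inv_inv]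
    have h4 : h * (y (-(c * -u)) * e (-u)) * h⁻¹ = y (-(c * u)) * e (-u) := by
      have : h * (y (-(c * -u)) * e (-u)) * h⁻¹ = (h * y (-(c * -u)) * h⁻¹) * (h * e (-u) * h⁻¹) := by
        group
      rw [this, hhy, ← hecomm (-u) h]
      have e1 : -(-(c * -u)) = -(c * u) := by ring
      rw [e1]
      group
    rw [← h3, h1, h4, hen]
  -- `ω²` is central
  have hω2 : ω * ω ∈ center Γ := by
    apply hcen
    rw [MonoidHom.mem_ker]
    exact hsq
  have hcomm2 : ∀ u, ω * x u * ω⁻¹ = ω⁻¹ * x u * ω := by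
    intro u
    have h1 := cen_comm hω2 (x u)
    calc ω * x u * ω⁻¹ = ω⁻¹ * (ω * ω * x u) * ω⁻¹ := by group
      _ = ω⁻¹ * (x u * (ω * ω)) * ω⁻¹ := by rw [h1]
      _ = ω⁻¹ * x u * ω := by group
  have hesq : ∀ u, e u * e u = 1 := by
    intro u
    have h1 := hcomm2 u
    rw [heq, hconj] at h1
    have h3 : e u = (e u)⁻¹ := mul_left_cancel h1
    calc e u * e u = e u * (e u)⁻¹ := by rw [← h3]
      _ = 1 := mul_inv_cancel _
  have hetriv : e u = 1 := by
    have h1 : u = u / 2 + u / 2 := by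
      field_simp
      ring
    rw [h1, headd]
    exact hesq _
  rw [heq, hetriv, mul_one]

end weyl

end Cfsg.Agent.Lib.OddStem.RootComm
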