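import Cfsg.Agent.Lib.OddStem.Target
import Cfsg.Agent.Lib.OmStem.Lift

/-!
# The spin group in odd dimension (module S)

Copy of `OmStem/Spin.lean` (only `Ut`, `Us`, `piU`, `ut_scalar`, `Us_le_Ut`; no form `B` is needed) and `OmStem/Lift.lean`, with `rhoO v = v₀ • gam + rho (rest)` acting on the Fock space of rank `m`.
`rhoO_sq`: `gam * gam = 1`, `gam_rho`, `rho_sq`. `rhoO_anti`: polarise (`polar (oddForm) u v` or written out).
`utO_scalar`: `A` commutes with all `rhoO v`, in particular with `rhoO (inr v) = rho v`: `scalar_of_comm`.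
`utO_lift`: as `ut_lift`: `Orth.Bridge.hgen` with `oddForm m F` (`oddForm_nondeg`), `word_mem_Omega_iff`, `rho_refl` with `rhoO`.
`neg_mem_UsO`: `vv i = e_i + f_i`, `i = 0, 1, 2`, as `neg_mem_Us`.
-/

set_option autoImplicit false

namespace Cfsg.Agent.Lib.OddStem

open Matrix Cfsg Subgroup Cfsg.Agent.Lib.OmStem

section spin

variable {m : ℕ} {F : Type*} [Field F]

/-- The Clifford map. -/
def rhoO (v : VO m → F) : MS m F := v (Sum.inl ()) • gam F + rho (fun r => v (Sum.inr r))

lemma rhoO_add (u v : VO m → F) : rhoO (u + v) = rhoO u + rhoO v := by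
  have h : (fun r => (u + v) (Sum.inr r)) = (fun r => u (Sum.inr r)) + (fun r => v (Sum.inr r)) := rfl
  unfold rhoO
  rw [h, rho_add, Pi.add_apply, add_smul]
  abel

lemma rhoO_smul (c : F) (v : VO m → F) : rhoO (c • v) = c • rhoO v := by
  have h : (fun r => (c • v) (Sum.inr r)) = c • (fun r => v (Sum.inr r)) := rfl
  unfold rhoO
  rw [h, rho_smul, Pi.smul_apply, smul_add, smul_eq_mul, mul_smul]

theorem rhoO_sq (v : VO m → F) : rhoO v * rhoO v = quadFormOdd m F v • (1 : MS m F) := by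
  set r : Fin m ⊕ Fin m → F := fun r => v (Sum.inr r) with hr
  set a : F := v (Sum.inl ()) with ha
  have h1 : gam F * rho r = -(rho r * gam F) := gam_rho r
  have h2 : gam F * gam F = (1 : MS m F) := gam_sq
  have h3 : rho r * rho r = quadFormPlus m F r • (1 : MS m F) := rho_sq r
  have h4 : quadFormOdd m F v = a * a + quadFormPlus m F r := by
    simp only [quadFormOdd, quadFormPlus, hr, ha]
    ring
  show (a • gam F + rho r) * (a • gam F + rho r) = _
  rw [h4, add_smul, add_mul, mul_add, mul_add, smul_mul_assoc, smul_mul_assoc, mul_smul_comm,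
    mul_smul_comm, h2, h1, h3, smul_smul]
  simp only [smul_neg]
  abel

variable (m F)

/-- The `Ω`-Clifford group: pairs `(g, A)` with `A ρ(v) A⁻¹ = ρ(g v)`. -/
def UtO : Subgroup (Omega F (quadFormOdd m F) × GeneralLinearGroup (Bt m) F) where
  carrier := {p | ∀ v : VO m → F, (p.2 : MS m F) * rhoO v = rhoO ((iOm p.1 : GeneralLinearGroup _ F).1 *ᵥ v) * (p.2 : MS m F)}
  one_mem' := by
    intro v
    simp
  mul_mem' := by
    rintro ⟨g, A⟩ ⟨g', A'⟩ hp hq v
    change ((A * A' : GeneralLinearGroup (Bt m) F) : MS m F) * rhoO v =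
      rhoO ((iOm (g * g') : GeneralLinearGroup _ F).1 *ᵥ v) * ((A * A' : GeneralLinearGroup (Bt m) F) : MS m F)
    have h1 := hq v
    have h2 := hp ((iOm g' : GeneralLinearGroup _ F).1 *ᵥ v)
    change (A' : MS m F) * rhoO v = rhoO ((iOm g' : GeneralLinearGroup _ F).1 *ᵥ v) * (A' : MS m F) at h1
    change (A : MS m F) * rhoO ((iOm g' : GeneralLinearGroup _ F).1 *ᵥ v) =
      rhoO ((iOm g : GeneralLinearGroup _ F).1 *ᵥ ((iOm g' : GeneralLinearGroup _ F).1 *ᵥ v)) * (A : MS m F) at h2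
    rw [map_mul, Units.val_mul, Units.val_mul, ← mulVec_mulVec, mul_assoc, h1, ← mul_assoc, h2, mul_assoc]
  inv_mem' := by
    rintro ⟨g, A⟩ hp v
    change ((A⁻¹ : GeneralLinearGroup (Bt m) F) : MS m F) * rhoO v =
      rhoO ((iOm g⁻¹ : GeneralLinearGroup _ F).1 *ᵥ v) * ((A⁻¹ : GeneralLinearGroup (Bt m) F) : MS m F)
    have h2 := hp ((iOm g⁻¹ : GeneralLinearGroup _ F).1 *ᵥ v)
    change (A : MS m F) * rhoO ((iOm g⁻¹ : GeneralLinearGroup _ F).1 *ᵥ v) =
      rhoO ((iOm g : GeneralLinearGroup _ F).1 *ᵥ ((iOm g⁻¹ : GeneralLinearGroup _ F).1 *ᵥ v)) * (A : MS m F) at h2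
    have e : (iOm g : GeneralLinearGroup _ F).1 *ᵥ ((iOm g⁻¹ : GeneralLinearGroup _ F).1 *ᵥ v) = v := by
      rw [mulVec_mulVec, ← Units.val_mul, ← map_mul, mul_inv_cancel, map_one, Units.val_one, one_mulVec]
    rw [e] at h2
    have h3 : ((A⁻¹ : GeneralLinearGroup (Bt m) F) : MS m F) * (A : MS m F) = 1 := by
      rw [← Units.val_mul, inv_mul_cancel, Units.val_one]
    have h4 : (A : MS m F) * ((A⁻¹ : GeneralLinearGroup (Bt m) F) : MS m F) = 1 := by
      rw [← Units.val_mul, mul_inv_cancel, Units.val_one]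
    calc ((A⁻¹ : GeneralLinearGroup (Bt m) F) : MS m F) * rhoO v
        = ((A⁻¹ : GeneralLinearGroup (Bt m) F) : MS m F) * (rhoO v * ((A : MS m F) * ((A⁻¹ : GeneralLinearGroup (Bt m) F) : MS m F))) := by
          rw [h4, mul_one]
      _ = ((A⁻¹ : GeneralLinearGroup (Bt m) F) : MS m F) * ((A : MS m F) * rhoO ((iOm g⁻¹ : GeneralLinearGroup _ F).1 *ᵥ v)) * ((A⁻¹ : GeneralLinearGroup (Bt m) F) : MS m F) := by
          rw [h2]
          simp only [mul_assoc]
      _ = _ := by
          rw [← mul_assoc (((A⁻¹ : GeneralLinearGroup (Bt m) F) : MS m F)), h3, one_mul]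

/-- The spin group. -/
abbrev UsO : Subgroup (Omega F (quadFormOdd m F) × GeneralLinearGroup (Bt m) F) := ⁅UtO m F, UtO m F⁆

/-- The projection. -/
def piO : UsO m F →* Omega F (quadFormOdd m F) := (MonoidHom.fst _ _).comp (UsO m F).subtype

variable {m F}

theorem utO_scalar {p : Omega F (quadFormOdd m F) × GeneralLinearGroup (Bt m) F} (hp : p ∈ UtO m F) (h1 : p.1 = 1) :
    ∃ c : F, (p.2 : MS m F) = c • (1 : MS m F) := by
  have hcomm : ∀ v, (p.2 : MS m F) * rho v = rho v * (p.2 : MS m F) := by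
    intro v
    have h := hp (Sum.elim 0 v)
    rw [h1, map_one, Units.val_one, one_mulVec] at h
    have h2 : rhoO (Sum.elim 0 v : VO m → F) = rho v := by
      show ((0 : Unit → F) ()) • gam F + rho v = rho v
      simp
    rwa [h2] at h
  exact scalar_of_comm hcomm

lemma UsO_le_UtO : UsO m F ≤ UtO m F := by
  rw [UsO, Subgroup.commutator_le]
  intro a ha b hb
  exact mul_mem (mul_mem (mul_mem ha hb) (inv_mem ha)) (inv_mem hb)

section liftO

open Cfsg.Agent.Lib.Orth.Bridge Cfsg.Agent.Lib.Orth.Refl Cfsg.Agent.Lib.Orth.Gen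
  Cfsg.Agent.Lib.Orth.Spin Cfsg.Agent.Lib.Orth.Forms Cfsg.Agent.Lib.Orth.Closure QuadraticMap

local notation "QQ" => Cfsg.Agent.Lib.Orth.Forms.oddForm m F

namespace LiftO

lemma rhoO_anti (u v : VO m → F) :
    rhoO u * rhoO v + rhoO v * rhoO u = polar (⇑(QQ)) u v • (1 : MS m F) := by
  have h1 := rhoO_sq (u + v)
  rw [rhoO_add, add_mul, mul_add, mul_add, rhoO_sq u, rhoO_sq v] at h1
  have h3 : polar (⇑(QQ)) u v = quadFormOdd m F (u + v) - quadFormOdd m F u - quadFormOdd m F v := rfl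
  rw [h3, sub_smul, sub_smul, ← h1]
  abel

lemma rhoO_sub_smul (u v : VO m → F) (c : F) :
    rhoO (u - c • v) = rhoO u - c • rhoO v := by
  have : u - c • v = u + (-c) • v := by
    rw [sub_eq_add_neg, neg_smul]
  rw [this, rhoO_add, rhoO_smul, neg_smul, sub_eq_add_neg]

/-- The basic reflection relation. -/
lemma rhoO_refl (v u : VO m → F) (hv : (QQ) v ≠ 0) :
    rhoO v * rhoO u = -(rhoO (refl (QQ) v u) * rhoO v) := by
  have h1 := rhoO_anti (m := m) (F := F) u v
  have h2 := rhoO_sq v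
  rw [refl_apply, rhoO_sub_smul, sub_mul, smul_mul_assoc, h2, smul_smul]
  have hq : ((QQ) v)⁻¹ * polar (⇑(QQ)) u v * quadFormOdd m F v = polar (⇑(QQ)) u v := by
    have : quadFormOdd m F v = (QQ) v := rfl
    rw [this]
    field_simp
  rw [hq, ← h1]
  noncomm_ring

/-- Words in `rhoO`. -/
lemma word_rhoO (vs : List (VO m → F)) (hvs : ∀ v ∈ vs, (QQ) v ≠ 0) (u : VO m → F) :
    (vs.map rhoO).prod * rhoO u = ((-1 : F) ^ vs.length) • (rhoO ((vs.map (refl (QQ))).prod u) * (vs.map rhoO).prod) := by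
  induction vs generalizing u with
  | nil => simp
  | cons v vs ih =>
    have hv := hvs v List.mem_cons_self
    simp only [List.map_cons, List.prod_cons, List.length_cons]
    rw [mul_assoc, ih (fun w hw => hvs w (List.mem_cons_of_mem _ hw)), mul_smul_comm, ← mul_assoc,
      rhoO_refl v _ hv]
    change _ = _ • (rhoO (refl (QQ) v ((vs.map (refl (QQ))).prod u)) * _)
    rw [pow_succ, mul_smul, neg_mul, smul_neg, mul_assoc]
    simp [mul_smul]

lemma isUnit_rhoO (v : VO m → F) (hv : (QQ) v ≠ 0) : IsUnit (rhoO v) := by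
  have h := rhoO_sq v
  have hv' : quadFormOdd m F v ≠ 0 := hv
  refine IsUnit.of_mul_eq_one ((quadFormOdd m F v)⁻¹ • rhoO v) ?_
  rw [mul_smul_comm, h, smul_smul, inv_mul_cancel₀ hv', one_smul]

lemma isUnit_word (vs : List (VO m → F)) (hvs : ∀ v ∈ vs, (QQ) v ≠ 0) :
    IsUnit (vs.map rhoO).prod := by
  apply List.prod_isUnit
  intro a ha
  obtain ⟨v, hv, rfl⟩ := List.mem_map.mp ha
  exact isUnit_rhoO v (hvs v hv)

/-- A word of even length lifts. -/
lemma lift_of_word (g : Omega F (quadFormOdd m F)) (vs : List (VO m → F))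
    (hvs : ∀ v ∈ vs, (QQ) v ≠ 0) (hev : Even vs.length)
    (hg : ∀ u, ((iOm g : GeneralLinearGroup _ F) : Matrix _ _ F) *ᵥ u = (vs.map (refl (QQ))).prod u) :
    (g, (isUnit_word vs hvs).unit) ∈ UtO m F := by
  intro u
  change (vs.map rhoO).prod * rhoO u = rhoO _ * (vs.map rhoO).prod
  rw [word_rhoO vs hvs, hev.neg_one_pow, one_smul, hg]

end LiftO

open LiftO

theorem utO_lift [Fintype F] (h2 : (2 : F) ≠ 0) (hm : 3 ≤ m) (g : Omega F (quadFormOdd m F)) :
    ∃ A : GeneralLinearGroup (Bt m) F, (g, A) ∈ UtO m F := by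
  have hQ := oddForm_nondeg (F := F) m h2
  have hcard : Fintype.card F ≠ 2 ∨ Fintype.card (VO m) ≠ 4 := by
    right
    simp
    omega
  have hW := hgen (QQ) hQ hcard _ (toIso (QQ) g.1).2
  obtain ⟨vs, hvs, hprod⟩ := exists_list_of_mem_W hW
  have hmat : ((g.1.1 : GeneralLinearGroup (VO m) F) : Matrix (VO m) (VO m) F) =
      (vs.map (fun v => reflectionMatrix (⇑(QQ)) v)).prod := by
    apply Cfsg.Agent.Lib.Orth.Words.mat_eq_of_mulVec
    intro x
    rw [word_mulVec, hprod]
    rfl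
  have hmem := (word_mem_Omega_iff (QQ) hQ hcard g.1 vs hvs hmat).mp g.2
  refine ⟨(isUnit_word vs hvs).unit, lift_of_word g vs hvs hmem.1 ?_⟩
  intro u
  rw [hprod]
  rfl

namespace LiftO

/-- The vectors `e_i + f_i`. -/
def vv (i : Fin m) : VO m → F := Sum.elim 0 (Sum.elim (Pi.single i 1) (Pi.single i 1))

lemma Q_vv (i : Fin m) : (QQ) (vv i) = 1 := by
  change quadFormOdd m F (vv i) = 1
  simp only [quadFormOdd, vv, Sum.elim_inl, Sum.elim_inr, Pi.zero_apply]
  rw [Finset.sum_eq_single i]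
  · simp
  · intro j _ hj
    simp [hj]
  · simp

lemma polar_vv {i j : Fin m} (h : i ≠ j) : polar (⇑(QQ)) (vv i) (vv j) = 0 := by
  have h3 : polar (⇑(QQ)) (vv i) (vv j) =
      quadFormOdd m F (vv i + vv j) - quadFormOdd m F (vv i) - quadFormOdd m F (vv j) := rfl
  have h4 : quadFormOdd m F (vv i : VO m → F) = 1 := Q_vv i
  have h5 : quadFormOdd m F (vv j : VO m → F) = 1 := Q_vv j
  have h6 : quadFormOdd m F (vv i + vv j : VO m → F) = 2 := by
    simp only [quadFormOdd, vv, Pi.add_apply, Sum.elim_inl, Sum.elim_inr, Pi.zero_apply]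
    have : ∀ k : Fin m, ((Pi.single i 1 : Fin m → F) k + (Pi.single j 1 : Fin m → F) k) *
        ((Pi.single i 1 : Fin m → F) k + (Pi.single j 1 : Fin m → F) k) =
        (Pi.single i 1 : Fin m → F) k + (Pi.single j 1 : Fin m → F) k := by
      intro k
      by_cases h1 : k = i
      · subst h1
        simp [Pi.single_apply, h]
      · by_cases h2 : k = j
        · subst h2
          simp [Pi.single_apply, h1]
        · simp [Pi.single_apply, h1, h2]
    rw [Finset.sum_congr rfl (fun k _ => this k), Finset.sum_add_distrib]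
    simp
    norm_num
  rw [h3, h4, h5, h6]
  norm_num

lemma rho_vv_sq (i : Fin m) : rhoO (vv i : VO m → F) * rhoO (vv i) = 1 := by
  rw [rhoO_sq]
  have : quadFormOdd m F (vv i) = 1 := Q_vv i
  rw [this, one_smul]

lemma rho_vv_anti {i j : Fin m} (h : i ≠ j) :
    rhoO (vv i : VO m → F) * rhoO (vv j) = -(rhoO (vv j) * rhoO (vv i)) := by
  have h1 := rhoO_anti (m := m) (F := F) (vv i) (vv j)
  rw [polar_vv h, zero_smul] at h1
  exact eq_neg_of_add_eq_zero_left h1

end LiftO

theorem neg_mem_UsO [Fintype F] (h2 : (2 : F) ≠ 0) (hm : 3 ≤ m) :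
    ((1 : Omega F (quadFormOdd m F)), (-1 : GeneralLinearGroup (Bt m) F)) ∈ UsO m F := by
  have hQ := oddForm_nondeg (F := F) m h2
  have hcard : Fintype.card F ≠ 2 ∨ Fintype.card (VO m) ≠ 4 := by
    right
    simp
    omega
  let i1 : Fin m := ⟨0, by omega⟩
  let i2 : Fin m := ⟨1, by omega⟩
  let i3 : Fin m := ⟨2, by omega⟩
  have h12 : i1 ≠ i2 := by simp [i1, i2, Fin.ext_iff]
  have h23 : i2 ≠ i3 := by simp [i2, i3, Fin.ext_iff]
  have h13 : i1 ≠ i3 := by simp [i1, i3, Fin.ext_iff]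
  -- the reflections
  let r : Fin m → isometryGroup F (⇑(QQ)) := fun i => reflEl (QQ) (vv i)
  have hcomm : ∀ {i j : Fin m}, i ≠ j → Commute (r i) (r j) := by
    intro i j hij
    apply (toIso (QQ)).injective
    apply Subtype.ext
    simp only [map_mul, r, reflEl, MulEquiv.apply_symm_apply, Subgroup.coe_mul]
    exact refl_comm_of_ortho (QQ) (polar_vv hij)
  -- the two elements of `Ω`
  have hmem : ∀ {i j : Fin m}, (r i * r j) ∈ Omega F (⇑(QQ)) := by
    intro i j
    refine (word_mem_Omega_iff (QQ) hQ hcard (r i * r j) [vv i, vv j] ?_ ?_).mpr ⟨by simp, ?_⟩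
    · intro v hv
      simp only [List.mem_cons, List.not_mem_nil, or_false] at hv
      rcases hv with rfl | rfl <;> rw [Q_vv] <;> exact one_ne_zero
    · simp only [List.map_cons, List.map_nil, List.prod_cons, List.prod_nil, mul_one]
      rw [← reflEl_val, ← reflEl_val]
      rfl
    · simp only [List.map_cons, List.map_nil, List.prod_cons, List.prod_nil, mul_one, Q_vv]
      exact ⟨1, by simp⟩
  let ω : Fin m → Fin m → Omega F (quadFormOdd m F) := fun i j => ⟨r i * r j, hmem⟩
  have hvs : ∀ i j : Fin m, ∀ v ∈ [vv i, vv j], (QQ) v ≠ 0 := by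
    intro i j v hv
    simp only [List.mem_cons, List.not_mem_nil, or_false] at hv
    rcases hv with rfl | rfl <;> rw [Q_vv] <;> exact one_ne_zero
  have hlift : ∀ i j : Fin m, (ω i j, (isUnit_word [vv i, vv j] (hvs i j)).unit) ∈ UtO m F := by
    intro i j
    refine lift_of_word (ω i j) [vv i, vv j] (hvs i j) (by simp) ?_
    intro u
    have : ((iOm (ω i j) : GeneralLinearGroup (VO m) F) : Matrix (VO m) (VO m) F) =
        ((reflEl (QQ) (vv i) : isometryGroup F (⇑(QQ))) : GeneralLinearGroup (VO m) F).val *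
          ((reflEl (QQ) (vv j) : isometryGroup F (⇑(QQ))) : GeneralLinearGroup (VO m) F).val := rfl
    rw [this, reflEl_val, reflEl_val, ← Matrix.mulVec_mulVec, reflectionMatrix_mulVec_eq,
      reflectionMatrix_mulVec_eq]
    simp
  have hc := Subgroup.commutator_mem_commutator (hlift i1 i2) (hlift i2 i3)
  convert hc using 1
  refine Prod.ext ?_ ?_
  · -- the `Ω` part
    have hC : Commute (ω i1 i2) (ω i2 i3) := by
      apply Subtype.ext
      exact Commute.mul_left (Commute.mul_right (hcomm h12) (hcomm h13))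
        (Commute.mul_right (Commute.refl _) (hcomm h23))
    exact (commutatorElement_eq_one_iff_commute.mpr hC).symm
  · -- the matrix part
    have ha : rhoO (vv i1 : VO m → F) * rhoO (vv i2) = -(rhoO (vv i2) * rhoO (vv i1)) := rho_vv_anti h12
    have hb : rhoO (vv i2 : VO m → F) * rhoO (vv i3) = -(rhoO (vv i3) * rhoO (vv i2)) := rho_vv_anti h23
    have hc' : rhoO (vv i3 : VO m → F) * rhoO (vv i1) = -(rhoO (vv i1) * rhoO (vv i3)) := rho_vv_anti h13.symm
    have hba : rhoO (vv i2 : VO m → F) * rhoO (vv i1) = -(rhoO (vv i1) * rhoO (vv i2)) := rho_vv_anti h12.symm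
    have hbb : rhoO (vv i2 : VO m → F) * rhoO (vv i2) = 1 := rho_vv_sq i2
    have key : rhoO (vv i1 : VO m → F) * rhoO (vv i2) * (rhoO (vv i2) * rhoO (vv i3)) =
        -(rhoO (vv i2) * rhoO (vv i3) * (rhoO (vv i1) * rhoO (vv i2))) := by
      generalize rhoO (vv i1 : VO m → F) = a at ha hc' hba
      generalize rhoO (vv i2 : VO m → F) = b at ha hb hba hbb
      generalize rhoO (vv i3 : VO m → F) = c at hb hc'
      have h1 : b * c * (a * b) = -(a * c) := by
        calc b * c * (a * b) = b * (c * a) * b := by simp only [mul_assoc]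
          _ = -((b * a) * c * b) := by rw [hc']; simp only [mul_neg, neg_mul, mul_assoc]
          _ = a * (b * c) * b := by rw [hba]; simp only [mul_neg, neg_mul, mul_assoc, neg_neg]
          _ = -(a * c * (b * b)) := by rw [hb]; simp only [mul_neg, neg_mul, mul_assoc]
          _ = -(a * c) := by rw [hbb, mul_one]
      rw [h1, neg_neg]
      calc a * b * (b * c) = a * (b * b) * c := by simp only [mul_assoc]
        _ = a * c := by rw [hbb, mul_one]
    have hXY : (isUnit_word [vv i1, vv i2] (hvs i1 i2)).unit * (isUnit_word [vv i2, vv i3] (hvs i2 i3)).unit =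
        (-1) * ((isUnit_word [vv i2, vv i3] (hvs i2 i3)).unit * (isUnit_word [vv i1, vv i2] (hvs i1 i2)).unit) := by
      apply Units.ext
      simp only [Units.val_mul, IsUnit.unit_spec, Units.val_neg, Units.val_one, List.map_cons, List.map_nil,
        List.prod_cons, List.prod_nil, mul_one, neg_mul, one_mul]
      exact key
    change (-1 : GeneralLinearGroup (Bt m) F) = (isUnit_word [vv i1, vv i2] (hvs i1 i2)).unit *
      (isUnit_word [vv i2, vv i3] (hvs i2 i3)).unit * ((isUnit_word [vv i1, vv i2] (hvs i1 i2)).unit)⁻¹ *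
      ((isUnit_word [vv i2, vv i3] (hvs i2 i3)).unit)⁻¹
    rw [hXY]
    simp [mul_assoc]

end liftO

end spin

end Cfsg.Agent.Lib.OddStem
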